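import Cfsg.Agent.H3.MobAbs

/-! A class of involutions in which commuting is transitive, with blocks of type `O₈⁻(2)`-like
parameters `(60, 256, 12)`, is a single block. -/

set_option autoImplicit false
set_option linter.unusedSectionVars false

namespace CfH1

open Subgroup Finset

namespace ALx

variable {H : Type*} [Group H] [Finite H] {D : Set H} {a b c z : H}

structure AH (D : Set H) : Prop where
  h2 : ∀ a ∈ D, a * a = 1 ∧ a ≠ 1
  hc : ∀ a ∈ D, ∀ g, g * a * g⁻¹ ∈ D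
  ht : ∀ a ∈ D, ∀ b ∈ D, ∀ c ∈ D, a * b = b * a → b * c = c * b → a * c = c * a

abbrev Bl (D : Set H) (a : H) : Set H := {b | b ∈ D ∧ a * b = b * a}

theorem flip (ha : a * a = 1) (hb : b * b = 1) (k : ℕ) :
    a * (a * b) ^ k = ((a * b) ^ k)⁻¹ * a := by
  have ia : a⁻¹ = a := inv_eq_of_mul_eq_one_right ha
  have ib : b⁻¹ = b := inv_eq_of_mul_eq_one_right hb
  have : a * (a * b) * a⁻¹ = (a * b)⁻¹ := by rw [mul_inv_rev, ia, ib, ← mul_assoc, ha, one_mul]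
  rw [← inv_pow, ← this, conj_pow, inv_mul_cancel_right]

variable (h : AH D)
include h

theorem AH.inv (ha : a ∈ D) : a⁻¹ = a := inv_eq_of_mul_eq_one_right (h.h2 a ha).1

theorem AH.refl_mem (ha : a ∈ D) (hb : b ∈ D) (k : ℕ) : a * (a * b) ^ k ∈ D := by
  have a2 := (h.h2 a ha).1
  have b2 := (h.h2 b hb).1
  rcases Nat.even_or_odd' k with ⟨j, rfl | rfl⟩
  · have := h.hc a ha ((a * b) ^ j)⁻¹
    rwa [inv_inv, ← flip a2 b2, mul_assoc, ← pow_add, ← two_mul] at this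
  · have := h.hc b hb ((a * b) ^ j)⁻¹
    have e : b = a * (a * b) := by rw [← mul_assoc, a2, one_mul]
    rwa [inv_inv, e, ← mul_assoc _ a, ← e, ← flip a2 b2, mul_assoc, mul_assoc, ← pow_succ',
      ← pow_add, ← add_assoc, ← two_mul] at this

theorem AH.comm (ha : a ∈ D) (hz : z ∈ closure (Bl D a)) (hc : c ∈ Bl D a) : c * z = z * c := by
  induction hz using closure_induction with
  | mem x hx => exact h.ht c hc.1 a ha x hx.1 hc.2.symm hx.2
  | one => simp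
  | mul x y _ _ hx hy => exact (Commute.mul_right hx hy).eq
  | inv x _ hx => exact (Commute.inv_right hx).eq

theorem AH.comm' (ha : a ∈ D) {y : H} (hz : z ∈ closure (Bl D a)) (hy : y ∈ closure (Bl D a)) :
    y * z = z * y := by
  induction hy using closure_induction with
  | mem x hx => exact h.comm ha hz hx
  | one => simp
  | mul x y _ _ hx hy => exact (Commute.mul_left hx hy).eq
  | inv x _ hx => exact (Commute.inv_left hx).eq

theorem AH.sq (ha : a ∈ D) (hz : z ∈ closure (Bl D a)) : z * z = 1 := by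
  induction hz using closure_induction with
  | mem x hx => exact (h.h2 x hx.1).1
  | one => simp
  | mul x y h1 h2 hx hy =>
    rw [mul_assoc, ← mul_assoc y, h.comm' ha h1 h2, mul_assoc, hy, mul_one, hx]
  | inv x _ hx => rw [← mul_inv_rev, hx, inv_one]

theorem AH.bl_eq (ha : a ∈ D) (hb : b ∈ Bl D a) : Bl D b = Bl D a :=
  Set.ext fun c => and_congr_right fun hc =>
    ⟨h.ht a ha b hb.1 c hc hb.2, h.ht b hb.1 a ha c hc hb.2.symm⟩

theorem AH.mem_cl (ha : a ∈ D) (hz : a * z ∈ D) (e : a * z = z * a) : z ∈ closure (Bl D a) := by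
  have : z = a * (a * z) := by rw [← mul_assoc, (h.h2 a ha).1, one_mul]
  rw [this]
  exact mul_mem (subset_closure ⟨ha, rfl⟩) (subset_closure ⟨hz, by rw [mul_assoc, ← e]⟩)

theorem AH.even (ha : a ∈ D) (hb : b ∈ D) (he : Even (orderOf (a * b))) :
    ∃ z ∈ closure (Bl D a) ⊓ closure (Bl D b), z ≠ 1 ∧ a * z ∈ D ∧ b * z ∈ D := by
  obtain ⟨k, hk⟩ := he
  have h0 := orderOf_pos (a * b)
  have z2 : ((a * b) ^ k)⁻¹ = (a * b) ^ k :=
    inv_eq_of_mul_eq_one_right (by rw [← pow_add, ← hk, pow_orderOf_eq_one])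
  have e : (b * a) ^ k = (a * b) ^ k := by
    rw [← z2, ← inv_pow, mul_inv_rev, h.inv ha, h.inv hb]
  have h1 := h.refl_mem ha hb k
  have h2 := h.refl_mem hb ha k
  have c1 := flip (h.h2 a ha).1 (h.h2 b hb).1 k
  have c2 := flip (h.h2 b hb).1 (h.h2 a ha).1 k
  rw [e] at h2 c2
  rw [z2] at c1 c2
  exact ⟨_, ⟨h.mem_cl ha h1 c1, h.mem_cl hb h2 c2⟩,
    pow_ne_one_of_lt_orderOf (by omega) (by omega), h1, h2⟩

theorem AH.odd (ha : a ∈ D) (hb : b ∈ D) (ho : Odd (orderOf (a * b))) :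
    ∃ c ∈ D, c * a * c⁻¹ = b ∧ ∀ y, Commute y a → Commute y b → Commute y c := by
  obtain ⟨k, hk⟩ := ho
  have a2 := (h.h2 a ha).1
  refine ⟨_, h.refl_mem ha hb (k + 1), ?_, fun y h1 h2 => h1.mul_right ((h1.mul_right h2).pow_right _)⟩
  have h1 : a * ((a * b) ^ (k + 1))⁻¹ * a = (a * b) ^ (k + 1) := by
    rw [mul_assoc, ← flip a2 (h.h2 b hb).1, ← mul_assoc, a2, one_mul]
  rw [mul_inv_rev, h.inv ha, mul_assoc ( _ * _), ← mul_assoc a, h1, mul_assoc, ← pow_add,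
    show k + 1 + (k + 1) = 2 * k + 1 + 1 by ring, ← hk, pow_succ, pow_orderOf_eq_one, one_mul,
    ← mul_assoc, a2, one_mul]

theorem AH.odd_mem (ha : a ∈ D) (hb : b ∈ D) (ho : Odd (orderOf (a * b)))
    (h1 : a * z = z * a) (h2 : b * z = z * b) (hz : a * z ∈ D) : b * z ∈ D := by
  obtain ⟨c, -, e, hc⟩ := h.odd ha hb ho
  have := h.hc _ hz c
  rwa [mul_assoc, mul_assoc, (hc z h1.symm h2.symm).inv_right.eq, ← mul_assoc, ← mul_assoc,
    e] at this

theorem AH.not_mem (ha : a ∈ D) (hb : b ∈ D) (hn : a * b ≠ b * a)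
    (hz : z ∈ closure (Bl D a) ⊓ closure (Bl D b)) : z ∉ D := fun hD =>
  hn (h.ht a ha z hD b hb (h.comm ha hz.1 ⟨ha, rfl⟩) (h.comm hb hz.2 ⟨hb, rfl⟩).symm)

variable (h60 : ∀ a ∈ D, (Bl D a).ncard = 60) (h256 : ∀ a ∈ D, Nat.card (closure (Bl D a)) = 256)
  (h12 : ∀ a ∈ D, ∀ z ∈ closure (Bl D a), z ≠ 1 → z ∉ D →
    {c | c ∈ D ∧ a * c = c * a ∧ c * z ∈ D}.ncard = 12)
include h60 h12

open Classical in
/-- a set of elements serving a whole block has at least five elements -/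
theorem AH.five (ha : a ∈ D) (P : Finset H)
    (hP : ∀ z ∈ P, z ∈ closure (Bl D a) ∧ z ≠ 1 ∧ z ∉ D) (hs : ∀ c ∈ Bl D a, ∃ z ∈ P, c * z ∈ D) :
    5 ≤ P.card := by
  haveI := Fintype.ofFinite H
  let F : H → Finset H := fun z => {c | c ∈ D ∧ a * c = c * a ∧ c * z ∈ D}.toFinset
  have h1 := card_biUnion_le_card_mul P F 12 fun z hz => by
    rw [← Set.ncard_eq_toFinset_card', h12 a ha z (hP z hz).1 (hP z hz).2.1 (hP z hz).2.2]
  have h2 := card_le_card (s := (Bl D a).toFinset) (t := P.biUnion F) fun c hc => by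
    obtain ⟨z, hz, e⟩ := hs c (Set.mem_toFinset.1 hc)
    exact mem_biUnion.2 ⟨z, hz, Set.mem_toFinset.2
      (⟨(Set.mem_toFinset.1 hc).1, (Set.mem_toFinset.1 hc).2, e⟩ :
        c ∈ {c | c ∈ D ∧ a * c = c * a ∧ c * z ∈ D})⟩
  rw [← Set.ncard_eq_toFinset_card', h60 a ha] at h2
  omega

include h256

open Classical in
theorem AH.all_odd (ha : a ∈ D) (hb : b ∈ D) (hn : a * b ≠ b * a) : Odd (orderOf (a * b)) := by
  haveI := Fintype.ofFinite H
  by_contra he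
  set Z := closure (Bl D a) ⊓ closure (Bl D b) with hZ
  have key : ∀ x ∈ Bl D a, ∀ y ∈ Bl D b, (∃ z ∈ Z, z ≠ 1 ∧ (x * z ∈ D ∨ y * z ∈ D)) ∨
      Even (orderOf (x * y)) → ∃ z ∈ Z, z ≠ 1 ∧ x * z ∈ D ∧ y * z ∈ D := fun x hx y hy hh => by
    rcases Nat.even_or_odd (orderOf (x * y)) with h1 | h1
    · simpa only [h.bl_eq ha hx, h.bl_eq hb hy] using h.even hx.1 hy.1 h1
    obtain ⟨z, hz, z1, e⟩ := hh.resolve_right (Nat.not_even_iff_odd.2 h1)
    have c1 := h.comm ha hz.1 hx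
    have c2 := h.comm hb hz.2 hy
    rcases e with e | e
    · exact ⟨z, hz, z1, e, h.odd_mem hx.1 hy.1 h1 c1 c2 e⟩
    · refine ⟨z, hz, z1, h.odd_mem hy.1 hx.1 ?_ c2 c1 e, e⟩
      rwa [← orderOf_inv, mul_inv_rev, h.inv hx.1, h.inv hy.1]
  obtain ⟨z0, hz0, z01, -, e0⟩ := key a ⟨ha, rfl⟩ b ⟨hb, rfl⟩ (Or.inr (Nat.not_odd_iff_even.1 he))
  let Zs : Finset H := (Z : Set H).toFinset.erase 1
  have hZs : ∀ z, z ∈ Zs ↔ z ≠ 1 ∧ z ∈ Z := fun z => by simp [Zs]
  let P : H → Finset H := fun x => Zs.filter fun z => x * z ∈ D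
  set B := (Bl D a).toFinset with hBd
  have hBm : ∀ x, x ∈ B ↔ x ∈ Bl D a := fun x => Set.mem_toFinset
  have h5 : ∀ x ∈ B, 5 ≤ (P x).card := fun x hx => by
    have hx := (hBm x).1 hx
    obtain ⟨z, hz, z1, e, -⟩ := key x hx b ⟨hb, rfl⟩ (Or.inl ⟨z0, hz0, z01, Or.inr e0⟩)
    refine h.five h60 h12 hb _ (fun w hw => ?_) fun y hy => ?_
    · have := (hZs w).1 (mem_filter.1 hw).1
      exact ⟨this.2.2, this.1, h.not_mem ha hb hn this.2⟩
    · obtain ⟨w, hw, w1, e1, e2⟩ := key x hx y hy (Or.inl ⟨z, hz, z1, Or.inl e⟩)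
      exact ⟨w, mem_filter.2 ⟨(hZs w).2 ⟨w1, hw⟩, e1⟩, e2⟩
  have hB : B.card = 60 := by rw [← Set.ncard_eq_toFinset_card', h60 a ha]
  have hZ1 : Zs.card + 1 = (Z : Set H).toFinset.card :=
    card_erase_add_one (Set.mem_toFinset.2 Z.one_mem)
  have hs : ∑ x ∈ B, (P x).card = Zs.card * 12 := by
    simp only [P, card_filter]
    rw [sum_comm, ← smul_eq_mul, ← sum_const]
    refine sum_congr rfl fun z hz => ?_
    have hz := (hZs z).1 hz
    rw [← card_filter, ← h12 a ha z hz.2.1 hz.1 (h.not_mem ha hb hn hz.2),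
      Set.ncard_eq_toFinset_card']
    congr 1; ext c; simp only [mem_filter, hBm, Set.mem_toFinset, Set.mem_ofPred_eq, and_assoc]
  have h6 := card_nsmul_le_sum B _ 5 h5
  let q : H → H ⧸ Z := QuotientGroup.mk
  let m : H ⧸ Z → ℕ := fun c => (B.filter fun y => q y = c).card
  have h7 : ∑ c ∈ B.image q, m c ^ 2 ≤ ∑ x ∈ B, ((P x).card + 1) := by
    have := sum_comp (s := B) m q
    simp only [smul_eq_mul] at this
    simp only [_root_.sq]
    refine this.symm.le.trans (sum_le_sum fun x hx => ?_)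
    have hx := (hBm x).1 hx
    refine (card_le_card_of_injOn (t := insert 1 (P x)) (x * ·) (fun y hy => ?_)
      (mul_right_injective x).injOn).trans (card_insert_le _ _)
    obtain ⟨h1, h2⟩ := mem_filter.1 (Finset.mem_coe.1 hy)
    have h3 := QuotientGroup.eq.1 h2.symm
    rw [h.inv hx.1] at h3
    refine Finset.mem_coe.2 (mem_insert.2 (or_iff_not_imp_left.2 fun h4 =>
      mem_filter.2 ⟨(hZs _).2 ⟨h4, h3⟩, ?_⟩))
    rw [← mul_assoc, (h.h2 x hx.1).1, one_mul]; exact ((hBm y).1 h1).1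
  have h8 := sq_sum_le_card_mul_sum_sq (s := B.image q) (f := m)
  rw [← card_eq_sum_card_image q B, hB] at h8
  let E := (closure (Bl D a) : Set H).toFinset
  have hE : E.card = 256 := by rw [← h256 a ha, ← Set.ncard_eq_toFinset_card']; rfl
  have h9 := mul_card_image_le_card (f := q) E (Z : Set H).toFinset.card fun c hc => by
    obtain ⟨x, hx, rfl⟩ := mem_image.1 hc
    refine card_le_card_of_injOn (x * ·) (fun z hz => ?_) (mul_right_injective x).injOn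
    have hz : z ∈ Z := Set.mem_toFinset.1 (Finset.mem_coe.1 hz)
    exact Finset.mem_coe.2 (mem_filter.2 ⟨Set.mem_toFinset.2 (mul_mem (Set.mem_toFinset.1 hx) hz.1),
      QuotientGroup.mk_mul_of_mem x hz⟩)
  have h10 : (B.image q).card < (E.image q).card := by
    refine card_lt_card ⟨image_subset_image fun x hx =>
      Set.mem_toFinset.2 (subset_closure ((hBm x).1 hx)), fun h1 => ?_⟩
    obtain ⟨x, hx, e⟩ := mem_image.1 (h1 (mem_image_of_mem q
      (Set.mem_toFinset.2 (closure (Bl D a)).one_mem)))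
    have h3 := QuotientGroup.eq.1 e.symm
    rw [inv_one, one_mul] at h3
    exact h.not_mem ha hb hn h3 ((hBm x).1 hx).1
  rw [sum_add_distrib, hs, sum_const, hB] at h7
  rw [hs, hB] at h6
  rw [hE, ← hZ1] at h9
  simp only [smul_eq_mul] at h6 h7
  have h11 := h8.trans (Nat.mul_le_mul_left _ h7)
  have h13 := (Nat.mul_le_mul_left (Zs.card + 1) (Nat.succ_le_of_lt h10)).trans h9
  generalize Zs.card = n at *
  generalize (B.image q).card = t at *
  have h14 : t ≤ 8 := by nlinarith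
  nlinarith

theorem AH.sr (ha : a ∈ D) (hc : c ∈ D) (hn : a * c ≠ c * a) {d : H} (hd : d ∈ Bl D c)
    (e : Commute (c * d) a) : c = d := by
  have c2 := (h.h2 c hc).1
  have o1 := h.all_odd h60 h256 h12 hc ha hn.symm
  have o2 := h.all_odd h60 h256 h12 hd.1 ha fun e => hn (h.ht c hc d hd.1 a ha hd.2 e).symm
  have c1 : Commute (c * a) (c * d) := (Commute.mul_left ((Commute.refl c).mul_right hd.2) e.symm)
  have e1 : d * a = c * a * (c * d) := by
    rw [mul_assoc, ← e.eq, ← mul_assoc, ← mul_assoc, c2, one_mul]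
  have x2 : (c * d) ^ 2 = 1 := by
    rw [Commute.mul_pow hd.2, pow_two, pow_two, c2, (h.h2 d hd.1).1, one_mul]
  have e2 := congrArg (· ^ (orderOf (c * a) * orderOf (d * a))) e1
  obtain ⟨k, hk⟩ := o1.mul o2
  simp only [c1.mul_pow] at e2
  rw [pow_mul', pow_orderOf_eq_one, one_pow, pow_mul, pow_orderOf_eq_one, one_pow, one_mul, hk,
    pow_succ, pow_mul, x2, one_pow, one_mul] at e2
  rw [← h.inv hc]; exact inv_eq_of_mul_eq_one_right e2.symm

theorem AH.move (ha : a ∈ D) (hc : c ∈ D) (hn : a * c ≠ c * a) :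
    a * (c * a * c⁻¹) ≠ c * a * c⁻¹ * a := fun e => by
  obtain ⟨k, hk⟩ := h.all_odd h60 h256 h12 hc ha hn.symm
  have h4 : (c * a) ^ 2 ^ 2 = 1 := by
    have e2 := (h.h2 _ (h.hc a ha c)).1
    rw [h.inv hc] at e e2
    calc _ = c * a * c * (a * (c * a * c)) * a := by
          rw [show 2 ^ 2 = 4 from rfl]; simp only [pow_succ, pow_zero, one_mul, mul_assoc]
      _ = 1 := by rw [e, ← mul_assoc, e2, one_mul, (h.h2 a ha).1]
  have h1 : orderOf (c * a) = 1 := Nat.eq_one_of_dvd_coprimes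
    (Nat.Coprime.pow_right 2 (Odd.coprime_two_right ⟨k, hk⟩)) dvd_rfl
    (orderOf_dvd_of_pow_eq_one h4)
  have := eq_inv_of_mul_eq_one_left (orderOf_eq_one_iff.1 h1)
  rw [h.inv ha] at this
  exact hn (by rw [this])

theorem AH.pair (ha : a ∈ D) (hc : c ∈ D) (hn : a * c ≠ c * a) :
    ∃ d ∈ Bl D c, d ≠ c ∧ d * a * d⁻¹ ∈ Bl D (c * a * c⁻¹) := by
  classical
  haveI := Fintype.ofFinite H
  have hb := h.hc a ha c
  have hab := h.move h60 h256 h12 ha hc hn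
  set b := c * a * c⁻¹ with hbd
  let S := {x // x ∈ D ∧ x * a * x⁻¹ ∈ Bl D b}
  have hodd : ∀ y ∈ Bl D b, a * y ≠ y * a := fun y hy e =>
    hab (h.ht a ha y hy.1 b hb e hy.2.symm)
  let f : S → Bl D b := fun x => ⟨_, x.2.2⟩
  have hf : Function.Bijective f := by
    refine ⟨fun x y e => Subtype.ext ?_, fun y => ?_⟩
    · have hy := hodd _ y.2.2
      obtain ⟨w, hw, e1, e2⟩ := h.odd ha y.2.2.1 (h.all_odd h60 h256 h12 ha y.2.2.1 hy)
      have e' : x.1 * a * x.1⁻¹ = y.1 * a * y.1⁻¹ := congrArg Subtype.val e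
      have k : ∀ u ∈ D, u * a * u⁻¹ = y.1 * a * y.1⁻¹ → w = u := fun u hu e3 => by
        rw [← e1] at e3 e2
        have c1 : Commute (w * u) a := by
          rw [← h.inv hw]
          calc w⁻¹ * u * a = w⁻¹ * (u * a * u⁻¹) * u := by group
            _ = a * (w⁻¹ * u) := by rw [e3]; group
        have c2 : Commute (w * u) (w * a * w⁻¹) := by
          calc w * u * (w * a * w⁻¹) = w * (u * u) * a * u⁻¹ := by rw [← e3]; group
            _ = w * a * w⁻¹ * (w * u) := by rw [(h.h2 u hu).1, h.inv hu]; group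
        refine h.sr h60 h256 h12 ha hw (fun e4 => hy ?_) ⟨hu, ?_⟩ c1
        · rw [← e1, ← e4, mul_inv_cancel_right]
        · exact mul_left_cancel (a := w) (by
            rw [← mul_assoc w u w, (e2 _ c1 c2).eq])
      exact (k _ x.2.1 e').symm.trans (k _ y.2.1 rfl)
    · obtain ⟨w, hw, e1, -⟩ := h.odd ha y.2.1 (h.all_odd h60 h256 h12 ha y.2.1 (hodd _ y.2))
      exact ⟨⟨w, hw, e1 ▸ y.2⟩, Subtype.ext e1⟩
  have hS : 2 ∣ Fintype.card S := by
    rw [← Nat.card_eq_fintype_card, Nat.card_eq_of_bijective f hf, Nat.card_coe_set_eq, h60 b hb]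
    decide
  have hmap : ∀ x : S, c * x.1 * c⁻¹ ∈ D ∧ c * x.1 * c⁻¹ * a * (c * x.1 * c⁻¹)⁻¹ ∈ Bl D b :=
    fun x => ⟨h.hc _ x.2.1 c, h.hc a ha _, by
      obtain ⟨x, hx, -, e⟩ := x
      have i1 := h.inv hc
      have i2 := h.inv hx
      have e1 : c⁻¹ * a * c = b := by rw [hbd, i1]
      have e2 : a * (x * b * x⁻¹) = x * b * x⁻¹ * a := by
        calc _ = x * (x⁻¹ * a * x⁻¹⁻¹ * b) * x⁻¹ := by group
          _ = x * (b * (x⁻¹ * a * x⁻¹⁻¹)) * x⁻¹ := by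
            rw [show x⁻¹ * a * x⁻¹⁻¹ = x * a * x⁻¹ by rw [i2, i2], e]
          _ = _ := by group
      calc c * a * c⁻¹ * (c * x * c⁻¹ * a * (c * x * c⁻¹)⁻¹) =
          c * (a * (x * (c⁻¹ * a * c) * x⁻¹)) * c⁻¹ := by group
        _ = c * (x * (c⁻¹ * a * c) * x⁻¹ * a) * c⁻¹ := by rw [e1, e2]
        _ = c * x * c⁻¹ * a * (c * x * c⁻¹)⁻¹ * (c * a * c⁻¹) := by group⟩
  have hinv : Function.Involutive (fun x : S => (⟨_, hmap x⟩ : S)) := fun x => Subtype.ext (by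
    change c * (c * x.1 * c⁻¹) * c⁻¹ = x.1
    rw [h.inv hc, ← mul_assoc, ← mul_assoc, (h.h2 c hc).1, one_mul, mul_assoc, (h.h2 c hc).1,
      mul_one])
  obtain ⟨d, hd, hne⟩ := Equiv.Perm.exists_fixed_point_of_prime' (p := 2) (n := 1) hS
    (σ := hinv.toPerm) (Equiv.ext hinv) (a := ⟨c, hc, hb, rfl⟩)
    (Subtype.ext (mul_inv_cancel_right c c))
  exact ⟨d.1, ⟨d.2.1, mul_inv_eq_iff_eq_mul.1 (congrArg Subtype.val hd)⟩,
    fun e => hne (Subtype.ext e), d.2.2⟩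

theorem AH.main (ha : a ∈ D) (hb : b ∈ D) : a * b = b * a := by
  classical
  haveI := Fintype.ofFinite H
  by_contra hn
  have cj : ∀ x y : H, ∀ u ∈ D, ∀ v, u * v = v * u →
      x * u * x⁻¹ * (x * v * x⁻¹) = x * v * x⁻¹ * (x * u * x⁻¹) := fun x y u _ v e => by
    rw [conj_mul, conj_mul, e]
  have hmul : ∀ x y : H, a * (x * a * x⁻¹) = x * a * x⁻¹ * a →
      a * (y * a * y⁻¹) = y * a * y⁻¹ * a →
      a * (x * y * a * (x * y)⁻¹) = x * y * a * (x * y)⁻¹ * a := fun x y h1 h2 => by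
    refine h.ht a ha _ (h.hc a ha x) _ (h.hc a ha _) h1 ?_
    have := cj x x a ha _ h2
    rwa [show x * (y * a * y⁻¹) * x⁻¹ = x * y * a * (x * y)⁻¹ by group] at this
  let Z : Subgroup H :=
    { carrier := {x | x ∈ closure (Bl D b) ∧ a * (x * a * x⁻¹) = x * a * x⁻¹ * a}
      one_mem' := ⟨one_mem _, by simp⟩
      mul_mem' := fun h1 h2 => ⟨mul_mem h1.1 h2.1, hmul _ _ h1.2 h2.2⟩
      inv_mem' := fun {x} h1 => by rwa [inv_eq_of_mul_eq_one_right (h.sq hb h1.1)] }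
  have hD : ∀ x ∈ Z, x ∉ D := fun x hx hD => h.move h60 h256 h12 ha hD
    (fun e => hn (h.ht a ha x hD b hb e (h.comm hb hx.1 ⟨hb, rfl⟩).symm)) hx.2
  have h1 := @CfH3.card_dvd_ncard_of_free H H _ (MulAction.compHom H MulAut.conj) _ Z (Bl D a)
    (fun x hx s hs => ⟨h.hc s hs.1 x, h.ht a ha _ (h.hc a ha x) _ (h.hc s hs.1 x) hx.2
      (cj x x a ha s hs.2)⟩) fun x hx s hs e => by
      by_contra x1
      obtain ⟨c, c1, c2, c3⟩ := Set.nonempty_of_ncard_ne_zero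
        ((h12 b hb x hx.1 x1 (hD x hx)).trans_ne (by decide))
      have e1 : c * (c * x) = x := by rw [← mul_assoc, (h.h2 c c1).1, one_mul]
      have := h.sr h60 h256 h12 hs.1 c1 (fun e => hn (h.ht a ha s hs.1 b hb hs.2
        (h.ht s hs.1 c c1 b hb e c2.symm))) (d := c * x)
        ⟨c3, by rw [mul_assoc, h.comm hb hx.1 ⟨c1, c2⟩]⟩
        (by rw [e1]; exact mul_inv_eq_iff_eq_mul.1 e)
      exact x1 (left_eq_mul.1 this)
  have h2 : Nat.card Z ∣ 256 := h256 b hb ▸ card_dvd_of_le fun x hx => hx.1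
  rw [h60 a ha] at h1
  have h3 := Nat.le_of_dvd (by decide) (Nat.dvd_gcd h1 h2)
  have h4 : ((Z : Set H).toFinset.erase 1).card + 1 = Nat.card Z := by
    rw [card_erase_add_one (Set.mem_toFinset.2 Z.one_mem), ← Set.ncard_eq_toFinset_card']; rfl
  have h5 := h.five h60 h12 hb ((Z : Set H).toFinset.erase 1) (fun z hz => by
    obtain ⟨z1, hz⟩ := mem_erase.1 hz
    have hz : z ∈ Z := Set.mem_toFinset.1 hz
    exact ⟨hz.1, z1, hD z hz⟩) fun c hc => by
      obtain ⟨d, hd, hne, e⟩ := h.pair h60 h256 h12 ha hc.1 fun e =>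
        hn (h.ht a ha c hc.1 b hb e hc.2.symm)
      have c2 := (h.h2 c hc.1).1
      refine ⟨c * d, mem_erase.2 ⟨fun e => hne ?_, Set.mem_toFinset.2 ⟨mul_mem (subset_closure hc)
        (subset_closure (h.bl_eq hb hc ▸ hd)), ?_⟩⟩, by rw [← mul_assoc, c2, one_mul]; exact hd.1⟩
      · rw [eq_inv_of_mul_eq_one_right e, h.inv hc.1]
      · have := cj c c _ (h.hc a ha c) _ e.2
        rwa [show c * (d * a * d⁻¹) * c⁻¹ = c * d * a * (c * d)⁻¹ by group,
          show c * (c * a * c⁻¹) * c⁻¹ = (c * c) * a * (c * c)⁻¹ by group, c2, one_mul, inv_one,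
          mul_one] at this
  have : Nat.gcd 60 256 = 4 := by decide
  omega

end ALx

theorem AL {H : Type*} [Group H] [Finite H] (D : Set H) (h2 : ∀ a ∈ D, a*a = 1 ∧ a ≠ 1)
    (hc : ∀ a ∈ D, ∀ g, g*a*g⁻¹ ∈ D)
    (ht : ∀ a ∈ D, ∀ b ∈ D, ∀ c ∈ D, a*b=b*a → b*c=c*b → a*c=c*a)
    (h60 : ∀ a ∈ D, {b | b ∈ D ∧ a*b=b*a}.ncard = 60)
    (h256 : ∀ a ∈ D, Nat.card (Subgroup.closure {b | b ∈ D ∧ a*b=b*a}) = 256)
    (h12 : ∀ a ∈ D, ∀ z ∈ Subgroup.closure {b | b ∈ D ∧ a*b=b*a}, z ≠ 1 → z ∉ D →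
      {c | c ∈ D ∧ a*c=c*a ∧ c*z ∈ D}.ncard = 12) : ∀ a ∈ D, ∀ b ∈ D, a*b = b*a :=
  fun _ ha _ hb => ALx.AH.main ⟨h2, hc, ht⟩ h60 h256 h12 ha hb

end CfH1
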