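import Cfsg.Agent.H6.Led
/-! Code words of the Golay code under `M₂₄`, and the involutions of `M₂₄`. -/
set_option autoImplicit false
set_option maxRecDepth 100000
namespace CfH9.CoFin
open Cfsg Cfsg.Spor CfH4.Gol CfH6 CfH6.Lee MulAction
open scoped Pointwise

abbrev Wd : Type := GolayPt → ZMod 2

def wv (w : ℕ) : Wd := fun y => bit w (ix y)

theorem wv_xor (a b : ℕ) : wv (a ^^^ b) = wv a + wv b := funext fun _ => bit_xor _ _ _

theorem wv_and (a b : ℕ) : wv (a &&& b) = wv a * wv b := funext fun y => by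
  simp only [wv, bit, Pi.mul_apply, Nat.testBit_and]
  cases a.testBit (ix y) <;> cases b.testBit (ix y) <;> rfl

theorem wv_zero : wv 0 = 0 := funext fun y => by simp [wv, bit]
theorem wv_one : wv 16777215 = 1 := by decide +kernel
theorem ix_pt : ∀ n < 24, ix (pt n) = n := by decide
theorem pt_ix : ∀ p, pt (ix p) = p ∧ ix p < 24 := by decide

theorem low_eq {a b : ℕ} (h : wv a = wv b) : a % 2 ^ 24 = b % 2 ^ 24 := Nat.eq_of_testBit_eq fun i => by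
  rw [Nat.testBit_mod_two_pow, Nat.testBit_mod_two_pow]
  by_cases hi : i < 24
  · have := congrFun h (pt i)
    simp only [wv, bit, ix_pt i hi] at this
    revert this
    rw [decide_eq_true hi]
    cases a.testBit i <;> cases b.testBit i <;> decide
  · simp [hi]

def cmb : List ℕ → ℕ → ℕ
  | [], _ => 0
  | b :: l, n => (if n % 2 = 1 then b else 0) ^^^ cmb l (n / 2)

theorem cmb_mem {N : AddSubmonoid Wd} {L : List ℕ} (h : ∀ b ∈ L, wv b ∈ N) (n : ℕ) : wv (cmb L n) ∈ N := by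
  induction L generalizing n with
  | nil => exact wv_zero ▸ zero_mem _
  | cons b l ih =>
    rw [cmb, wv_xor]
    refine add_mem ?_ (ih (fun c hc => h c (List.mem_cons_of_mem _ hc)) _)
    split_ifs
    exacts [h b List.mem_cons_self, wv_zero ▸ zero_mem _]

/-- the code word with the given first twelve coordinates -/
def cw (n : ℕ) : ℕ := cmb bl n

theorem cw_mem (n : ℕ) : wv (cw n) ∈ golayCode := cmb_mem (N := golayCode.toAddSubmonoid) (fun b hb => by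
  obtain ⟨i, rfl⟩ := (show ∀ b ∈ bl, ∃ i : Fin 12, bl.getD i 0 = b by decide) b hb
  exact bas_mem i) n

theorem ex_cw {u : Wd} (hu : u ∈ golayCode) : ∃ n < 4096, u = wv (cw n) := by
  obtain ⟨d, h1, h2⟩ := code_cws hu
  exact ⟨d % 4096, Nat.mod_lt _ (by decide), by
    rw [(show ∀ d ∈ cws bl 0, cw (d % 4096) = d by decide +kernel) d h1]; exact funext h2⟩

theorem mem_of_cw {w : ℕ} (h : cw (w % 4096) = w) : wv w ∈ golayCode := h ▸ cw_mem _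

def fl (l : List ℕ) (p : GolayPt) : GolayPt := pt (l.getD (ix p) 0)

def cmp : List ℕ → ℕ → ℕ
  | [], _ => 0
  | a :: l, w => (w >>> a) % 2 + 2 * cmp l w

theorem testBit_cmp (l : List ℕ) (w : ℕ) : ∀ i < l.length, (cmp l w).testBit i = w.testBit (l.getD i 0) := by
  induction l with
  | nil => simp
  | cons a l ih =>
    rintro (_ | i) hi
    · rw [cmp, Nat.testBit_zero, List.getD_cons_zero, Nat.testBit_eq_decide_div_mod_eq,
        Nat.shiftRight_eq_div_pow]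
      congr 2; omega
    · rw [cmp, Nat.testBit_succ, List.getD_cons_succ, ← ih i (Nat.lt_of_succ_lt_succ hi)]
      congr 1; omega

/-- the list of images of an element of `M₂₄` -/
def Good (l : List ℕ) : Prop := l.length = 24 ∧ (∀ i < 24, l.getD i 0 < 24 ∧ l.idxOf i < 24 ∧
  l.getD (l.idxOf i) 0 = i) ∧ ∀ b ∈ bl, cw (cmp l b % 4096) = cmp l b

instance (l : List ℕ) : Decidable (Good l) := by unfold Good; infer_instance

theorem Good.wv {l : List ℕ} (h : Good l) (w : ℕ) : wv (cmp l w) = wv w ∘ fl l := funext fun p => by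
  simp only [CoFin.wv, bit, Function.comp, fl, testBit_cmp l w _ (h.1 ▸ (pt_ix p).2),
    ix_pt _ (h.2.1 _ (pt_ix p).2).1]

theorem mem24 {σ : Equiv.Perm GolayPt} (b : ∀ k : Fin 12, bas k ∘ σ ∈ golayCode) : σ ∈ M24 := by
  have c : σ⁻¹ • supports (golayCode : Set Wd) ⊆ supports golayCode := by
    rintro _ ⟨_, ⟨u, hu, rfl⟩, rfl⟩
    exact ⟨u ∘ σ, mem_of_sum b (c := fun i => u (pt i)) fun y => code_eq hu _, (smul_support σ u).symm⟩
  exact inv_mem_iff.1 (mem_stabilizer_iff.mpr (Set.eq_of_subset_of_ncard_le c (Set.ncard_smul_set _ _).ge))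

/-- the element of `M₂₄` with the given list of images -/
noncomputable def pl (l : List ℕ) : M24 := if h : Good l then
  ⟨Equiv.ofBijective (fl l) (Finite.surjective_iff_bijective.1 fun p => ⟨pt (l.idxOf (ix p)), by
    have := h.2.1 _ (pt_ix p).2
    rw [fl, ix_pt _ this.2.1, this.2.2, (pt_ix p).1]⟩), mem24 fun k => by
      have := mem_of_cw (h.2.2 _ ((show ∀ k : Fin 12, bl.getD k 0 ∈ bl by decide) k))
      rwa [h.wv] at this⟩ else 1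

theorem Good.coe {l : List ℕ} (h : Good l) : ⇑(pl l).1 = fl l := by rw [pl, dif_pos h]; rfl

theorem cardM24 : Nat.card M24 = 244823040 := by
  obtain ⟨φ, h⟩ := M24I.iso
  rw [← Nat.card_eq_of_bijective φ h, M24G.card]

theorem five (f : Fin 5 ↪ GolayPt) : ∃ σ : M24, ∀ i : Fin 5, σ.1 (pt i) = f i := by
  have h1 := (stabilizer M24 M24I.e5).index_mul_card
  have h2 := card_K5
  rw [index_stabilizer, cardM24] at h1
  have h3 : orbit M24 M24I.e5 = Set.univ := Set.eq_of_subset_of_ncard_le (Set.subset_univ _) (by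
    rw [Set.ncard_univ, Nat.card_eq_fintype_card, Fintype.card_embedding_eq,
      show (Fintype.card GolayPt).descFactorial (Fintype.card (Fin 5)) = 5100480 by decide +kernel]
    exact Nat.le_of_mul_le_mul_right (c := 48) (h1.ge.trans (Nat.mul_le_mul_left _ h2)) (by decide))
  obtain ⟨σ, h⟩ := h3.ge (Set.mem_univ f)
  exact ⟨σ, fun i => DFunLike.congr_fun h i⟩

def L48 : List (List ℕ) := [[0,1,2,3,4,5,6,7,8,9,10,11,12,13,14,15,16,17,18,19,20,21,22,23], [0,1,2,3,4,5,16,10,13,19,12,8,7,11,23,20,21,14,9,18,22,6,15,17],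
  [0,1,2,3,4,5,21,12,11,18,7,13,10,8,17,22,6,23,19,9,15,16,20,14], [0,1,2,3,4,15,13,7,23,21,10,18,12,6,16,5,14,19,11,17,22,9,20,8],
  [0,1,2,3,4,15,14,10,6,17,12,23,7,18,8,22,9,16,21,11,20,13,5,19], [0,1,2,3,4,15,9,12,18,11,7,6,10,23,19,20,13,8,17,21,5,14,22,16],
  [0,1,2,3,4,8,17,10,11,14,12,5,7,13,15,9,22,19,20,6,21,18,23,16], [0,1,2,3,4,8,22,12,13,6,7,11,10,5,16,21,18,15,14,20,23,17,9,19],
  [0,1,2,3,4,8,18,7,5,20,10,13,12,11,19,23,17,16,6,14,9,22,21,15], [0,1,2,3,4,6,5,7,18,14,10,23,12,15,9,13,21,22,8,20,19,16,17,11],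
  [0,1,2,3,4,6,21,10,15,20,12,18,7,23,11,19,16,9,14,8,17,5,13,22], [0,1,2,3,4,6,16,12,23,8,7,15,10,18,22,17,5,11,20,14,13,21,19,9],
  [0,1,2,3,4,9,13,10,16,18,12,20,7,17,22,8,15,6,5,19,23,14,21,11], [0,1,2,3,4,9,15,12,17,19,7,16,10,20,11,23,14,22,18,5,21,13,8,6],
  [0,1,2,3,4,9,14,7,20,5,10,17,12,16,6,21,13,11,19,18,8,15,23,22], [0,1,2,3,4,13,15,7,11,16,10,8,12,5,21,6,9,20,23,22,17,14,19,18],
  [0,1,2,3,4,13,9,10,5,22,12,11,7,8,18,17,14,21,16,23,19,15,6,20], [0,1,2,3,4,13,14,12,8,23,7,5,10,11,20,19,15,18,22,16,6,9,17,21],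
  [0,1,2,3,4,20,11,10,17,6,12,9,7,16,21,5,23,18,8,14,15,19,22,13], [0,1,2,3,4,20,23,12,16,14,7,17,10,9,13,15,19,21,6,8,22,11,5,18],
  [0,1,2,3,4,20,19,7,9,8,10,16,12,17,18,22,11,13,14,6,5,23,15,21], [0,1,2,3,4,23,19,10,18,16,12,15,7,6,5,21,20,17,22,13,9,11,8,14],
  [0,1,2,3,4,23,20,12,6,13,7,18,10,15,14,9,11,5,16,22,8,19,21,17], [0,1,2,3,4,23,11,7,15,22,10,6,12,18,17,8,19,14,13,16,21,20,9,5],
  [0,1,2,3,4,11,19,12,5,15,7,8,10,13,9,14,23,6,21,17,18,20,16,22], [0,1,2,3,4,11,23,7,13,17,10,5,12,8,22,18,20,9,15,21,16,19,14,6],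
  [0,1,2,3,4,11,20,10,8,21,12,13,7,5,6,16,19,22,17,15,14,23,18,9], [0,1,2,3,4,18,22,10,23,9,12,6,7,15,13,14,17,20,19,5,16,8,11,21],
  [0,1,2,3,4,18,17,12,15,5,7,23,10,6,21,16,8,13,9,19,11,22,14,20], [0,1,2,3,4,18,8,7,6,19,10,15,12,23,20,11,22,21,5,9,14,17,16,13],
  [0,1,2,3,4,17,8,10,20,15,12,16,7,9,14,13,18,23,11,21,6,22,19,5], [0,1,2,3,4,17,18,12,9,21,7,20,10,16,5,6,22,14,15,11,19,8,13,23],
  [0,1,2,3,4,17,22,7,16,11,10,9,12,20,23,19,8,5,21,15,13,18,6,14], [0,1,2,3,4,16,5,10,9,23,12,17,7,20,19,11,6,15,13,22,18,21,14,8],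
  [0,1,2,3,4,16,6,12,20,22,7,9,10,17,8,18,21,19,23,13,14,5,11,15], [0,1,2,3,4,16,21,7,17,13,10,20,12,9,15,14,5,8,22,23,11,6,18,19],
  [0,1,2,3,4,21,6,10,14,11,12,22,7,19,20,23,5,13,15,17,8,16,9,18], [0,1,2,3,4,21,5,12,19,17,7,14,10,22,18,8,16,20,11,15,9,6,23,13],
  [0,1,2,3,4,21,16,7,22,15,10,19,12,14,13,9,6,18,17,11,23,5,8,20], [0,1,2,3,4,14,13,12,22,20,7,21,10,19,23,11,9,17,8,6,16,15,18,5],
  [0,1,2,3,4,14,9,7,19,6,10,22,12,21,5,16,15,23,20,8,18,13,11,17], [0,1,2,3,4,14,15,10,21,8,12,19,7,22,17,18,13,5,6,20,11,9,16,23],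
  [0,1,2,3,4,19,11,12,21,9,7,22,10,14,15,13,20,16,5,18,17,23,6,8], [0,1,2,3,4,19,20,7,14,18,10,21,12,22,8,17,23,15,9,5,6,11,13,16],
  [0,1,2,3,4,19,23,10,22,5,12,14,7,21,16,6,11,8,18,9,13,20,17,15], [0,1,2,3,4,22,18,10,19,13,12,21,7,14,9,15,8,11,23,16,5,17,20,6],
  [0,1,2,3,4,22,8,12,14,16,7,19,10,21,6,5,17,9,13,23,20,18,15,11], [0,1,2,3,4,22,17,7,21,23,10,14,12,19,11,20,18,6,16,13,15,8,5,9]]
def T3 : List (List ℕ) := [[1,0,3,2,4,18,5,12,16,17,7,14,10,11,21,15,19,13,22,8,6,9,23,20], [1,0,3,2,5,6,15,23,18,16,14,8,17,7,11,20,13,9,4,21,10,12,19,22],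
  [1,0,3,2,7,6,23,4,18,17,12,5,10,8,9,13,21,22,15,20,16,19,14,11]]
def WL : List (List ℕ) := [[22,11,15,8,10,12,1,4,9,0,5,20,17,18,14,6,19,23,2,16,21,3,13,7], [0,1,9,6,23,16,15,4,2,18,12,8,17,5,20,22,11,19,7,3,10,14,21,13],
  [6,9,19,16,17,1,7,5,18,14,10,12,4,8,0,3,21,20,15,2,22,11,23,13], [11,22,8,15,5,3,13,10,14,0,4,1,17,6,21,7,12,18,16,23,19,9,20,2],
  [2,3,8,16,14,23,22,21,12,6,5,4,20,1,13,7,9,17,19,11,0,15,10,18], [12,10,9,6,1,0,11,16,5,22,15,7,3,14,2,23,20,8,18,13,17,21,4,19],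
  [10,12,5,17,18,20,1,13,4,2,16,9,15,22,8,7,23,19,0,14,6,3,11,21], [18,21,19,16,2,1,4,3,13,12,9,5,6,17,11,20,8,22,10,15,23,7,14,0],
  [16,8,19,15,9,20,14,6,4,23,22,17,11,0,13,12,7,18,3,10,2,1,5,21], [14,23,13,21,17,9,15,5,6,1,18,8,20,19,12,11,7,4,16,10,3,0,2,22],
  [8,16,17,5,14,0,18,23,10,6,19,21,15,11,4,7,1,12,9,3,20,13,22,2], [1,0,2,3,16,5,6,19,10,11,8,9,15,13,17,12,4,14,20,7,18,21,22,23],
  [12,10,5,17,4,13,3,7,20,22,23,0,14,1,16,21,8,15,2,19,11,9,6,18], [21,13,14,23,5,7,15,17,9,2,18,8,20,3,6,22,12,11,0,4,16,19,1,10],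
  [0,1,3,2,14,13,11,23,7,9,5,6,17,16,21,12,10,18,15,4,8,19,22,20]]
def QL : List (List ℕ) := [[0,1,2,3,4,5,6,7,8,9,10,11,12,13,14,15,16,17,18,19,20,21,22,23], [18,21,2,3,12,17,19,7,1,16,23,6,14,8,10,0,13,4,11,20,15,22,9,5],
  [11,22,2,3,14,4,20,7,21,13,5,19,10,1,23,18,8,12,6,15,0,9,16,17], [6,9,2,3,10,12,15,7,22,8,17,20,23,21,5,11,1,14,19,0,18,16,13,4],
  [19,16,2,3,23,14,0,7,9,1,4,15,5,22,17,6,21,10,20,18,11,13,8,12], [20,13,2,3,5,10,18,7,16,21,12,0,17,9,4,19,22,23,15,11,6,8,1,14],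
  [15,8,2,3,17,23,11,7,13,22,14,18,4,16,12,20,9,5,0,6,19,1,21,10]]
def p1 : List ℕ := [1, 0, 3, 2, 4, 5, 9, 7, 15, 6, 10, 22, 12, 20, 14, 8, 19, 17, 21, 16, 13, 18, 11, 23]
def p2 : List ℕ := [1, 0, 3, 2, 7, 17, 9, 4, 16, 6, 12, 22, 10, 21, 23, 19, 8, 5, 20, 15, 18, 13, 11, 14]
def m11 : List ℕ := [0, 2, 4, 6, 8, 10, 12, 14, 16, 18, 20, 22, 1, 3, 5, 7, 9, 11, 13, 15, 17, 19, 21, 23]
def D1 : List ℕ := [0, 13062145, 4845570, 9347075, 13938692, 1302533, 10305542, 5902343, 15515712, 2854977, 10825794, 6447171,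
  3698756, 16719941, 7438406, 11980871]
def D2 : List ℕ := [0, 13062145, 4845570, 9347075, 13938692, 1302533, 10305542, 5902343, 10170384, 6053905, 13811730, 1413139,
  5210132, 8966165, 421910, 12656663, 15515712, 2854977, 10825794, 6447171, 3698756, 16719941, 7438406, 11980871,
  7860304, 11575377, 4063314, 16339027, 10698836, 6557781, 15380566, 3006551, 2019456, 14254209, 5709954, 9465987,
  13262980, 864389, 8622214, 4505735, 8773776, 4370577, 13373586, 737427, 5329044, 9830549, 1613974, 14676119,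
  15864000, 3489985, 12312770, 8171715, 2531524, 14807237, 7295174, 11010247, 6889680, 11432145, 2150610, 15171795,
  12423380, 8044757, 16015574, 3354839]
def d0 : ℕ := 340831
def o0 : ℕ := 5279
def r0 : ℕ := 8536111
def cB : ℕ := 7295174

theorem gL : ∀ l ∈ L48, Good l ∧ ∀ i ∈ [0, 1, 2, 3, 4], fl l (pt i) = pt i := by decide +kernel
theorem gW : ∀ l ∈ WL, Good l := by decide +kernel
theorem gQ : ∀ l ∈ QL, Good l ∧ ∀ p, fl l (fl p1 p) = fl p1 (fl l p) := by decide +kernel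
theorem g1 : Good p1 := by decide +kernel
theorem g2 : Good p2 := by decide +kernel
theorem g11 : Good m11 := by decide +kernel

theorem K5 {σ : M24} (h : ∀ i ∈ [0, 1, 2, 3, 4], σ.1 (pt i) = pt i) : ∃ l ∈ L48, σ = pl l := by
  have h' : ∀ i ∈ [0, 1, 2, 3, 4], σ⁻¹.1 (pt i) = pt i := fun i hi => σ.1.symm_apply_eq.2 (h i hi).symm
  have a1 : ∀ p ∈ M24I.Oc, ∀ q ∈ M24I.c2 p, q ∈ M24I.Oc := by decide +kernel
  obtain ⟨l, hl, e1, e2⟩ := (show ∀ y ∉ M24I.Oc, ∀ z ∈ M24I.c2 (pt 7), ∃ l ∈ L48, fl l (pt 5) = y ∧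
    fl l (pt 7) = z by decide +kernel) (σ.1 (pt 5)) (fun hc => by
      have := a1 _ hc _ (M24I.oct σ⁻¹.2 h' _)
      rw [show σ⁻¹.1 (σ.1 (pt 5)) = pt 5 from σ.1.symm_apply_apply _] at this
      exact absurd this (by decide)) _ (M24I.oct σ.2 h _)
  refine ⟨l, hl, (inv_mul_eq_one.1 (Subtype.ext (M24I.rigid ((pl l)⁻¹ * σ).2 fun i hi =>
    (pl l).1.symm_apply_eq.2 ?_))).symm⟩
  rw [(gL l hl).1.coe]
  by_cases h5 : i = 5
  · rw [h5, e1]
  by_cases h7 : i = 7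
  · rw [h7, e2]
  have : i ∈ [0, 1, 2, 3, 4] := by simp at hi ⊢; omega
  rw [h i this, (gL l hl).2 i this]

/-- the weight of a word -/
def wt (u : Wd) : ℕ := (support₂ u).card

def pc (w : ℕ) : ℕ := ∑ i ∈ Finset.range 24, if w.testBit i then 1 else 0

theorem wt_wv (w : ℕ) : wt (wv w) = pc w := by
  rw [wt, support₂, Finset.card_filter, pc, Finset.sum_range,
    ← eqv.sum_comp fun i : Fin 24 => if w.testBit i then 1 else 0]
  refine Finset.sum_congr rfl fun p _ => ?_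
  change (if bit w (ix p) ≠ 0 then 1 else 0) = if w.testBit (ix p) then 1 else 0
  unfold bit
  cases w.testBit (ix p) <;> rfl

theorem wt_comp (u : Wd) (σ : Equiv.Perm GolayPt) : wt (u ∘ σ) = wt u := by
  rw [wt, ← smul_support, Finset.card_smul_finset, wt]

theorem chkA : ∀ n < 4096, cw n % 4096 = n ∧ pc (cw n ^^^ 16777215) = 24 - pc (cw n) ∧
    (cw n = 0 ∨ cw n = 16777215 ∨ pc (cw n) = 8 ∨ pc (cw n) = 16 ∨ pc (cw n) = 12) := by decide +kernel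

theorem wt_cases {u : Wd} (hu : u ∈ golayCode) : wt (u + 1) = 24 - wt u ∧
    (u = 0 ∨ u = 1 ∨ wt u = 8 ∨ wt u = 16 ∨ wt u = 12) := by
  obtain ⟨n, hn, rfl⟩ := ex_cw hu
  rw [← wv_one, ← wv_xor, wt_wv, wt_wv, ← wv_zero]
  exact ⟨(chkA n hn).2.1, (chkA n hn).2.2.imp (congrArg wv) (Or.imp_left (congrArg wv))⟩

theorem trans_wt {u : Wd} (hu : u ∈ golayCode) (h : wt u = 8 ∨ wt u = 12) :
    ∃ σ : M24, u ∘ σ.1 = wv (if wt u = 8 then o0 else d0) := by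
  obtain ⟨f, hf⟩ := Function.Embedding.exists_of_card_le_finset (α := Fin 5) (s := support₂ u)
    (by rw [Fintype.card_fin]; change 5 ≤ wt u; omega)
  obtain ⟨σ, hσ⟩ := five f
  obtain ⟨n, hn, e⟩ := ex_cw (comp_mem σ.2 hu)
  have h1 := wt_comp u σ.1
  rw [e, wt_wv] at h1
  rw [← h1] at h ⊢
  obtain ⟨l, hl, h2⟩ := (show ∀ n < 4096, (∀ i < 5, (cw n).testBit i) → pc (cw n) = 8 ∨ pc (cw n) = 12 →
    ∃ l ∈ L48, cmp l (cw n) = if pc (cw n) = 8 then o0 else d0 by decide +kernel) n hn (fun i hi => by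
      have h3 := congrFun e (pt i)
      have h4 := (Finset.mem_filter.1 (hf ⟨⟨i, hi⟩, rfl⟩)).2
      rw [← hσ, ← Function.comp_apply (f := u), h3, wv, bit, ix_pt i (by omega)] at h4
      by_contra h5
      exact h4 (if_neg h5)) h
  exact ⟨σ * pl l, by rw [← h2, (gL l hl).1.wv, ← e, ← (gL l hl).1.coe]; rfl⟩

theorem inv_aux {π : M24} (h : π * π = 1) (h0 : π.1 (pt 0) = pt 1) (h2 : π.1 (pt 2) = pt 3)
    (h4 : π.1 (pt 4) ∈ [pt 4, pt 5, pt 7]) : IsConj π (pl p1) ∨ IsConj π (pl p2) := by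
  have hh : ∀ p, π.1 (π.1 p) = p := fun p => DFunLike.congr_fun (congrArg Subtype.val h) p
  obtain ⟨t, ht, g, e0, e1, e2, e3, e4⟩ := (show ∀ y ∈ [pt 4, pt 5, pt 7], ∃ t ∈ T3, Good t ∧
    fl t (pt 0) = pt 1 ∧ fl t (pt 1) = pt 0 ∧ fl t (pt 2) = pt 3 ∧ fl t (pt 3) = pt 2 ∧ fl t (pt 4) = y by
      decide +kernel) _ h4
  obtain ⟨l, hl, e⟩ := K5 (σ := (pl t)⁻¹ * π) fun i hi => (pl t).1.symm_apply_eq.2 (by
    rw [g.coe]
    simp only [List.mem_cons, List.not_mem_nil, or_false] at hi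
    rcases hi with rfl | rfl | rfl | rfl | rfl
    exacts [h0.trans e0.symm, (h0 ▸ hh _).trans e1.symm, h2.trans e2.symm, (h2 ▸ hh _).trans e3.symm,
      e4.symm])
  have e' : ∀ p, π.1 p = fl t (fl l p) := fun p => by
    rw [inv_mul_eq_iff_eq_mul.1 e, ← g.coe, ← (gL l hl).1.coe]; rfl
  obtain ⟨w, hw, h5⟩ := (show ∀ t ∈ T3, ∀ l ∈ L48, (∀ p, fl t (fl l (fl t (fl l p))) = p) → ∃ w ∈ WL,
    (∀ p, fl w (fl t (fl l p)) = fl p1 (fl w p)) ∨ ∀ p, fl w (fl t (fl l p)) = fl p2 (fl w p) by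
      decide +kernel) t ht l hl fun p => by rw [← e', ← e', hh]
  refine h5.imp (fun h6 => ?_) fun h6 => ?_ <;>
    refine isConj_iff.2 ⟨pl w, mul_inv_eq_iff_eq_mul.2 (Subtype.ext (Equiv.ext fun p => ?_))⟩
  · change (pl w).1 (π.1 p) = (pl p1).1 ((pl w).1 p)
    rw [e', (gW w hw).coe, g1.coe, h6]
  · change (pl w).1 (π.1 p) = (pl p2).1 ((pl w).1 p)
    rw [e', (gW w hw).coe, g2.coe, h6]

theorem inj5 {α : Type*} {a b c d e : α} (h1 : b ≠ a) (h2 : c ≠ a) (h3 : c ≠ b) (h4 : d ≠ c) (h5 : d ≠ a)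
    (h6 : d ≠ b) (h7 : e ≠ a ∧ e ≠ b ∧ e ≠ c ∧ e ≠ d) : Function.Injective ![a, b, c, d, e] :=
  List.nodup_ofFn.1 (by simp [h1.symm, h2.symm, h3.symm, h4.symm, h5.symm, h6.symm, h7.1.symm, h7.2.1.symm,
    h7.2.2.1.symm, h7.2.2.2.symm])

/-- the two classes of involutions of `M₂₄` -/
theorem inv_cls {π : M24} (h : π * π = 1) : π = 1 ∨ IsConj π (pl p1) ∨ IsConj π (pl p2) := by
  have hh : ∀ p, π.1 (π.1 p) = p := fun p => DFunLike.congr_fun (congrArg Subtype.val h) p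
  refine or_iff_not_imp_left.2 fun h1 => ?_
  obtain ⟨a, ha⟩ : ∃ a, π.1 a ≠ a := by
    by_contra hn
    push Not at hn
    exact h1 (Subtype.ext (Equiv.ext hn))
  obtain ⟨c, c1, c2, c3⟩ : ∃ c, c ≠ a ∧ c ≠ π.1 a ∧ π.1 c ≠ c := by
    by_contra hn
    push Not at hn
    obtain ⟨k, hk⟩ := (show ∀ a b, a ≠ b → ∃ k : Fin 12, bas k a + bas k b ≠ 0 by decide +kernel) _ _ ha
    have h2 : wt (bas k ∘ π.1 + bas k) ≤ 2 := (Finset.card_le_card (t := {a, π.1 a}) fun p hp => by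
      by_contra h3
      simp only [Finset.mem_insert, Finset.mem_singleton, not_or] at h3
      exact (Finset.mem_filter.1 hp).2 (by
        rw [Pi.add_apply, Function.comp, hn p h3.1 h3.2]; exact CharTwo.add_self_eq_zero _)).trans
        Finset.card_le_two
    rcases (wt_cases (add_mem (comp_mem π.2 (bas_mem k)) (bas_mem k))).2 with e | e | e | e | e
    · exact hk (congrFun e a)
    · rw [e] at h2; exact absurd h2 (by decide +kernel)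
    all_goals omega
  obtain ⟨e, he⟩ := Finset.exists_mem_notMem_of_card_lt_card (s := {a, π.1 a, c, π.1 c}) (t := Finset.univ)
    (Finset.card_le_four.trans_lt (by decide))
  simp only [Finset.mem_insert, Finset.mem_singleton, not_or, Finset.mem_univ, true_and] at he
  have c4 : π.1 c ≠ a := fun e => c2 (by rw [← e, hh])
  have c5 : π.1 c ≠ π.1 a := π.1.injective.ne c1
  obtain ⟨σ, hσ⟩ := five ⟨![a, π.1 a, c, π.1 c, e], inj5 ha c1 c2 c3 c4 c5 he⟩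
  have s0 : σ.1 (pt 0) = a := hσ 0
  have s1 : σ.1 (pt 1) = π.1 a := hσ 1
  have s2 : σ.1 (pt 2) = c := hσ 2
  have s3 : σ.1 (pt 3) = π.1 c := hσ 3
  have s4 : σ.1 (pt 4) = e := hσ 4
  have key : ∀ τ : M24, τ.1 (pt 0) = a → τ.1 (pt 1) = π.1 a → τ.1 (pt 2) = c → τ.1 (pt 3) = π.1 c →
      π.1 (τ.1 (pt 4)) ∈ [τ.1 (pt 4), τ.1 (pt 5), τ.1 (pt 7)] → IsConj π (pl p1) ∨ IsConj π (pl p2) :=
    fun τ t0 t1 t2 t3 t4 => by
      have := inv_aux (π := τ⁻¹ * π * τ) (by simp [mul_assoc, ← mul_assoc π, h])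
        (τ.1.symm_apply_eq.2 (t1 ▸ congrArg π.1 t0)) (τ.1.symm_apply_eq.2 (t3 ▸ congrArg π.1 t2)) (by
          simp only [List.mem_cons, List.not_mem_nil, or_false] at t4 ⊢
          exact t4.imp τ.1.symm_apply_eq.2 (Or.imp τ.1.symm_apply_eq.2 τ.1.symm_apply_eq.2))
      have c : IsConj π (τ⁻¹ * π * τ) := isConj_iff.2 ⟨τ⁻¹, by rw [inv_inv]⟩
      exact this.imp c.trans c.trans
  obtain ⟨l, hl, h2⟩ := (show ∀ y, y ∉ [pt 0, pt 1, pt 2, pt 3] → ∃ l ∈ L48,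
    y ∈ [pt 4, fl l (pt 5), fl l (pt 7)] by decide +kernel) (σ.1⁻¹ (π.1 e)) (by
      simp only [List.mem_cons, List.not_mem_nil, or_false, Equiv.Perm.inv_eq_iff_eq, s0, s1, s2, s3]
      rintro (h | h | h | h)
      exacts [he.2.1 (h ▸ (hh e).symm), he.1 (π.1.injective h), he.2.2.2 (h ▸ (hh e).symm),
        he.2.2.1 (π.1.injective h)])
  have f : ∀ i ∈ [0, 1, 2, 3, 4], (σ * pl l).1 (pt i) = σ.1 (pt i) := fun i hi => by
    change σ.1 ((pl l).1 _) = _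
    rw [(gL l hl).1.coe, (gL l hl).2 i hi]
  refine key (σ * pl l) ((f 0 (by decide)).trans s0) ((f 1 (by decide)).trans s1)
    ((f 2 (by decide)).trans s2) ((f 3 (by decide)).trans s3) ?_
  rw [f 4 (by decide), s4]
  simp only [List.mem_cons, List.not_mem_nil, or_false, Equiv.Perm.inv_eq_iff_eq, s4,
    ← (gL l hl).1.coe] at h2 ⊢
  exact h2

theorem fix1 {u : Wd} (hu : u ∈ golayCode) (h : u ∘ fl p1 = u) : ∃ d ∈ golayCode, ∃ q ∈ QL,
    ∃ r ∈ [0, 16777215, r0, r0 ^^^ 16777215], (u + d + d ∘ fl p1) ∘ fl q = wv r := by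
  obtain ⟨n, hn, rfl⟩ := ex_cw hu
  obtain ⟨d, h1, q, h2, h3⟩ := (show ∀ n < 4096, cmp p1 (cw n) % 2 ^ 24 = cw n % 2 ^ 24 → ∃ d ∈ D1,
    ∃ q ∈ QL, cmp q (cw n ^^^ d ^^^ cmp p1 d) ∈ [0, 16777215, r0, r0 ^^^ 16777215] by decide +kernel)
    n hn (low_eq ((g1.wv _).trans h))
  exact ⟨_, mem_of_cw ((show ∀ d ∈ D1, cw (d % 4096) = d by decide +kernel) d h1), q, h2, _, h3, by
    rw [(gQ q h2).1.wv, wv_xor, wv_xor, g1.wv]⟩

theorem fix2 {u : Wd} (hu : u ∈ golayCode) (h : u ∘ fl p2 = u) :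
    ∃ d ∈ golayCode, u = d + d ∘ fl p2 := by
  obtain ⟨n, hn, rfl⟩ := ex_cw hu
  obtain ⟨d, h1, h3⟩ := (show ∀ n < 4096, cmp p2 (cw n) % 2 ^ 24 = cw n % 2 ^ 24 → ∃ d ∈ D2,
    cw n = d ^^^ cmp p2 d by decide +kernel) n hn (low_eq ((g2.wv _).trans h))
  exact ⟨_, mem_of_cw ((show ∀ d ∈ D2, cw (d % 4096) = d by decide +kernel) d h1), by
    rw [h3, wv_xor, g2.wv]⟩

theorem sub_dod {u : Wd} (hu : u ∈ golayCode) {s : ZMod 2} (h : ∀ j, wv d0 j ≠ s → u j = 0) :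
    u = 0 ∨ ∀ j, wv d0 j = s → u j = 1 := by
  obtain ⟨n, hn, rfl⟩ := ex_cw hu
  obtain ⟨d, h1, h2, h3⟩ := (show ∀ s : ZMod 2, ∃ d ∈ [d0, d0 ^^^ 16777215],
    (∀ j, wv d j = 0 ∨ wv d0 j ≠ s) ∧ ∀ j, wv d0 j = s → wv (d ^^^ 16777215) j = 1 by decide +kernel) s
  refine ((show ∀ n < 4096, ∀ d ∈ [d0, d0 ^^^ 16777215], (cw n &&& d) % 2 ^ 24 = 0 % 2 ^ 24 →
    cw n = 0 ∨ cw n = d ^^^ 16777215 by decide +kernel) n hn d h1 (low_eq ?_)).imp
    (fun e => by rw [e, wv_zero]) fun e => by rw [e]; exact h3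
  rw [wv_and, wv_zero]
  exact funext fun j => (h2 j).elim (fun e => by simp [e]) fun e => by simp [h j e]

theorem cnt1 : ((Finset.range 2048).filter fun n => pc (cw (2 * n)) = 8 ∨ pc (cw (2 * n)) = 16).card = 759 := by
  decide +kernel

theorem cnt2 : ((Finset.range 2048).filter fun n => (pc (cw (2 * n)) = 8 ∨ pc (cw (2 * n)) = 16) ∧
    (pc (cw (2 * n) ^^^ d0) = 8 ∨ pc (cw (2 * n) ^^^ d0) = 16)).card = 264 := by decide +kernel

end CfH9.CoFin
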