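import Cfsg.Agent.H3.Jv0
import Cfsg.Agent.H9.CoFin2
import Cfsg.Agent.H8.Gaschuetz
import Cfsg.Agent.OD.Helper9xf0973b5173
/-! The normalizer of an even Golay cocode. -/
set_option autoImplicit false
set_option maxRecDepth 100000
open Subgroup CfH9 CfH4.Gol Cfsg
namespace CfH9.JV
open CfH3.J4

def cl : List ℕ := [1, 2, 4, 8, 16, 32, 64, 128, 256, 512, 1024, 0, 1183, 318, 1763, 1478, 1811, 697, 493, 986,
  1972, 1896, 591, 1141]

theorem tet0 : ((cl.sublistsLen 4).all fun l => !isD (l.foldr Nat.xor 0) && !Nat.beq (l.foldr Nat.xor 0) 0) = true := by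
  decide +kernel

theorem cy_inj : ∀ a b, cy (ix a) = cy (ix b) → a = b := by decide +kernel

/-- four distinct points give a sextet -/
theorem tet {a b c d : GolayPt} (h1 : a ≠ b) (h2 : c ≠ d)
    (h : isD (dd a b ^^^ dd c d) = true ∨ dd a b ^^^ dd c d = 0) : a = c ∨ a = d ∨ b = c ∨ b = d := by
  have m : ∀ p, cy (ix p) ∈ cl := by decide +kernel
  by_contra hn
  simp only [not_or] at hn
  obtain ⟨l, l1, l2⟩ := List.subperm_of_subset (l₁ := [a, b, c, d].map fun p => cy (ix p)) (l₂ := cl)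
    (List.Nodup.map cy_inj (by simp [h1, h2, hn])) (by simp [m])
  have := List.all_eq_true.1 tet0 l (List.mem_sublistsLen.2 ⟨l2, l1.length_eq⟩)
  have i : LeftCommutative Nat.xor := ⟨fun x y z => (Nat.xor_assoc x y z).symm.trans
    ((congrArg (· ^^^ z) (Nat.xor_comm x y)).trans (Nat.xor_assoc y x z))⟩
  rw [l1.foldr_eq, show ([a, b, c, d].map fun p => cy (ix p)).foldr Nat.xor 0 = dd a b ^^^ dd c d from
    (Nat.xor_assoc _ _ (dd c d)).symm ▸ congrArg (fun t => cy (ix a) ^^^ (cy (ix b) ^^^ (cy (ix c) ^^^ t)))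
      (Nat.xor_zero _)] at this
  rcases h with h | h <;> simp [h] at this

theorem dd_comm (a b : GolayPt) : dd a b = dd b a := Nat.xor_comm _ _
theorem dd_self (a : GolayPt) : dd a a = 0 := Nat.xor_self _
theorem dd_xor (o a b : GolayPt) : dd o a ^^^ dd o b = dd a b := by
  rw [dd, dd, dd, Nat.xor_comm (cy (ix o)), Nat.xor_assoc, ← Nat.xor_assoc (cy (ix o)), Nat.xor_self, Nat.zero_xor]
theorem dd_zero {a b : GolayPt} (h : dd a b = 0) : a = b := cy_inj _ _ (Nat.xor_eq_zero_iff.1 h)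
theorem dd_left {o a b : GolayPt} (h : dd o a = dd o b) : a = b := dd_zero (by rw [← dd_xor o, h, Nat.xor_self])

theorem dd_inj {a b c d : GolayPt} (h1 : a ≠ b) (h : dd a b = dd c d) : (a = c ∧ b = d) ∨ (a = d ∧ b = c) := by
  have h2 : c ≠ d := fun e => h1 (dd_zero (by rw [h, e, dd_self]))
  rcases tet h1 h2 (Or.inr (by rw [h, Nat.xor_self])) with rfl | rfl | rfl | rfl
  · exact Or.inl ⟨rfl, dd_left h⟩
  · exact Or.inr ⟨rfl, dd_left (h.trans (dd_comm _ _))⟩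
  · exact Or.inr ⟨dd_left ((dd_comm _ _).trans h), rfl⟩
  · exact Or.inl ⟨dd_left ((dd_comm _ _).trans (h.trans (dd_comm _ _))), rfl⟩

theorem ind2 {P : ℕ → Prop} (h0 : P 0) (hb : ∀ i < 11, P (2 ^ i))
    (hx : ∀ a < 2048, ∀ b < 2048, P a → P b → P (a ^^^ b)) : ∀ c < 2048, P c := fun c => by
  induction c using Nat.strong_induction_on with
  | _ c ih =>
    intro hc
    rcases Nat.eq_zero_or_pos c with rfl | h
    · exact h0
    obtain ⟨i, hi, h1⟩ := (show ∀ c < 2048, 0 < c → ∃ i < 11, c ^^^ 2 ^ i < c from fun c a b =>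
      ⟨c.log2, (Nat.log2_lt b.ne').2 a, of_decide_eq_true
        ((show ∀ c < 2048, 0 < c → decide (c ^^^ 2 ^ c.log2 < c) = true by decide +kernel) c a b)⟩) c hc h
    have := hx _ (h1.trans hc) _ (Nat.pow_lt_pow_right (n := 11) one_lt_two hi) (ih _ h1 (h1.trans hc)) (hb i hi)
    rwa [Nat.xor_assoc, Nat.xor_self, Nat.xor_zero] at this

def wX : List ℕ := [14, 18, 20, 8, 2, 21, 17, 11, 6, 4, 7, 10, 13, 23, 22, 5, 19, 12, 15, 9, 3, 0, 16, 1]

theorem pow_dd : ∀ i < 11, 2 ^ i = dd (pt 11) (pt i) := by decide +kernel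

/-- pairwise adjacent duads form a star -/
theorem star {f : GolayPt → ℕ} {o : GolayPt} (h0 : f o = 0) (h1 : ∀ b c, b ≠ c → isD (f b ^^^ f c) = true) :
    ∃ π : Equiv.Perm GolayPt, ∀ b, f b = dd (π o) (π b) := by
  have hD : ∀ b, b ≠ o → ∃ x y, x ≠ y ∧ dd x y = f b := fun b hb => by
    have := h1 b o hb
    rw [h0, Nat.xor_zero] at this
    refine isD_ex _ ?_ this
    by_contra h
    rw [isD, Nat.shiftRight_eq, Nat.shiftRight_eq_div_pow, Nat.div_eq_of_lt (((Nat.log2_lt (by decide +kernel)).1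
      (show DM.log2 < 2048 by decide +kernel)).trans_le (Nat.pow_le_pow_right two_pos (not_lt.1 h)))] at this
    exact absurd this (by decide)
  have ne : ∀ b c, b ≠ c → f b ≠ f c := fun b c h e => by
    have := h1 b c h
    rw [e, Nat.xor_self] at this
    exact absurd this (by decide +kernel)
  have adj : ∀ {b c x y z w}, b ≠ c → x ≠ y → z ≠ w → dd x y = f b → dd z w = f c →
      x = z ∨ x = w ∨ y = z ∨ y = w := fun h a b e1 e2 => tet a b (Or.inl (by rw [e1, e2]; exact h1 _ _ h))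
  obtain ⟨b1, b2, n1, n2, n3, hb⟩ := (show ∀ o : GolayPt, ∃ b1 b2, b1 ≠ o ∧ b2 ≠ o ∧ b1 ≠ b2 ∧
    ∀ b, ∃ c, c ≠ o ∧ c ≠ b1 ∧ c ≠ b2 ∧ c ≠ b by decide +kernel) o
  obtain ⟨p, q, r, pq, pr, e1, e2⟩ : ∃ p q r, p ≠ q ∧ p ≠ r ∧ dd p q = f b1 ∧ dd p r = f b2 := by
    obtain ⟨x, y, a, e1⟩ := hD b1 n1
    obtain ⟨z, w, b, e2⟩ := hD b2 n2
    rcases adj n3 a b e1 e2 with rfl | rfl | rfl | rfl
    exacts [⟨_, _, _, a, b, e1, e2⟩, ⟨_, _, _, a, b.symm, e1, (dd_comm _ _).trans e2⟩,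
      ⟨_, _, _, a.symm, b, (dd_comm _ _).trans e1, e2⟩,
      ⟨_, _, _, a.symm, b.symm, (dd_comm _ _).trans e1, (dd_comm _ _).trans e2⟩]
  have qr : q ≠ r := fun e => ne _ _ n3 (by rw [← e1, e, e2])
  have two : ∀ b, b ≠ o → (∃ y, dd p y = f b) ∨ (b ≠ b1 ∧ b ≠ b2 ∧ dd q r = f b) := fun b hb => by
    by_cases c1 : b = b1
    · exact Or.inl ⟨q, c1 ▸ e1⟩
    by_cases c2 : b = b2
    · exact Or.inl ⟨r, c2 ▸ e2⟩
    obtain ⟨x, y, a, e⟩ := hD b hb
    by_cases px : x = p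
    · exact Or.inl ⟨y, px ▸ e⟩
    by_cases py : y = p
    · exact Or.inl ⟨x, py ▸ (dd_comm _ _).trans e⟩
    refine Or.inr ⟨c1, c2, ?_⟩
    have a1 := adj c1 a pq e e1
    have a2 := adj c2 a pr e e2
    simp only [px, py, false_or] at a1 a2
    rcases a1 with rfl | rfl <;> rcases a2 with rfl | rfl
    exacts [absurd rfl qr, e, (dd_comm _ _).trans e, absurd rfl qr]
  have all : ∀ b, ∃ y, dd p y = f b ∧ (b = o → y = p) := fun b => by
    by_cases hb' : b = o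
    · exact ⟨p, by rw [hb', h0, dd_self], fun _ => rfl⟩
    refine (two b hb').elim (fun ⟨y, h⟩ => ⟨y, h, fun e => absurd e hb'⟩) fun ⟨c1, c2, e⟩ => ?_
    obtain ⟨c, d0, d1, d2, d3⟩ := hb b
    rcases two c d0 with ⟨y, h⟩ | ⟨-, -, h⟩
    · have py : p ≠ y := fun e => ne _ _ d0 (by rw [← h, e, dd_self, h0])
      rcases adj d3 py qr h e with h' | h' | rfl | rfl
      exacts [absurd h' pq, absurd h' pr, absurd (h.symm.trans e1) (ne _ _ d1), absurd (h.symm.trans e2) (ne _ _ d2)]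
    · exact absurd (h.symm.trans e) (ne _ _ d3)
  choose g hg hg' using all
  refine ⟨Equiv.ofBijective g (Finite.injective_iff_bijective.1 fun b c e => ?_), fun b => ?_⟩
  · by_contra h
    exact ne b c h (by rw [← hg, ← hg, e])
  · rw [Equiv.ofBijective_apply, Equiv.ofBijective_apply, hg' o rfl, hg]

def chi (k c : ℕ) : ZMod 2 := ∑ i : Fin 11, bit c i * (bas k (pt i) + bas k (pt 11))

theorem chi_xor (k a b : ℕ) : chi k (a ^^^ b) = chi k a + chi k b := by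
  simp only [chi, bit_xor, add_mul, Finset.sum_add_distrib]

theorem chi_dd (k : Fin 12) (a b : GolayPt) : chi k (dd a b) = bas k a + bas k b := by
  have : ∀ k : Fin 12, ∀ b, chi k (dd (pt 11) b) = bas k (pt 11) + bas k b := by decide +kernel
  rw [← dd_xor (pt 11), chi_xor, this, this, add_add_add_comm, CharTwo.add_self_eq_zero, zero_add]

theorem add_eq {ψ : ℕ → ZMod 2} (h : ∀ a < 2048, ∀ b < 2048, ψ (a ^^^ b) = ψ a + ψ b) :
    ∀ c < 2048, ψ c = ∑ i : Fin 11, ψ (2 ^ (i : ℕ)) * bit c i := by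
  refine ind2 ?_ (fun i hi => ?_) fun a ha b hb e1 e2 => ?_
  · have := h 0 (by omega) 0 (by omega)
    rw [Nat.xor_self, left_eq_add] at this
    simp [this, bit]
  · rw [Finset.sum_eq_single ⟨i, hi⟩ (fun j _ hj => ?_) (by simp)]
    · simp [bit]
    · rw [bit, if_neg, mul_zero]
      rw [Nat.testBit_two_pow]
      exact fun e => hj (Fin.ext (of_decide_eq_true e).symm)
  · rw [h a ha b hb, e1, e2, ← Finset.sum_add_distrib]
    simp only [bit_xor, mul_add]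

theorem mem_of_add {f : ℕ → ℕ} {π : Equiv.Perm GolayPt} (h : ∀ a < 2048, ∀ b < 2048, f (a ^^^ b) = f a ^^^ f b)
    (h1 : ∀ b, f (dd (pt 11) b) = dd (π (pt 11)) (π b)) : π ∈ M24 := CoFin.mem24 fun k => by
  have w : ∀ i : Fin 11, (fun y => bit (dd (pt 11) y) i) ∈ golayCode := fun i =>
    mem_of_sum bas_mem (c := fun j => bit (dd (pt 11) (pt j)) i) (by revert i; decide +kernel)
  have e : bas k ∘ π = bas k (π (pt 11)) • gen 23 +
      fun y => ∑ i : Fin 11, chi k (f (2 ^ (i : ℕ))) * bit (dd (pt 11) y) i := funext fun y => by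
    rw [Pi.add_apply, ← add_eq (ψ := fun c => chi k (f c)) (fun a ha b hb => by rw [h a ha b hb, chi_xor]) _
      (dd_lt _ _), h1, chi_dd, Pi.smul_apply, ← gen_one, Pi.one_apply, smul_eq_mul, mul_one, ← add_assoc,
      CharTwo.add_self_eq_zero, zero_add, Function.comp]
  rw [e]
  exact add_mem (Submodule.smul_mem _ _ (gen_mem 23)) (mem_of_sum w fun _ => rfl)

end CfH9.JV

namespace CfH3.J4
open CfH9.JV

variable {G : Type*} [Group G] {φ : ℕ → G} {n m : G} {π ρ : Equiv.Perm GolayPt}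

theorem VD.eq (D : VD φ) {a b : ℕ} (ha : a < 2048) (hb : b < 2048) (h : φ a = φ b) : a = b :=
  Nat.xor_eq_zero_iff.1 (D.inj (xor_lt ha hb) (by rw [D.mul ha hb, h, D.sq hb]))

theorem VD.comm (D : VD φ) {x y : G} (hx : x ∈ D.V) (hy : y ∈ D.V) : x * y = y * x := by
  obtain ⟨a, ha, rfl⟩ := hx
  obtain ⟨b, hb, rfl⟩ := hy
  rw [← D.mul ha hb, Nat.xor_comm, D.mul hb ha]

theorem VD.mem (D : VD φ) {a : ℕ} (ha : a < 2048) : φ a ∈ D.V := ⟨a, ha, rfl⟩

theorem VD.card (D : VD φ) : Nat.card D.V = 2048 := by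
  rw [← Nat.card_fin 2048]
  refine (Nat.card_eq_of_bijective (fun c : Fin 2048 => (⟨φ c, D.mem c.2⟩ : D.V)) ⟨fun a b h => ?_, ?_⟩).symm
  · exact Fin.ext (D.eq a.2 b.2 (congrArg Subtype.val h))
  · rintro ⟨_, c, hc, rfl⟩
    exact ⟨⟨c, hc⟩, rfl⟩

theorem VD.le_Cz (D : VD φ) : D.V ≤ Cz(D.V) := fun _ hx _ hy => D.comm hy hx

theorem whitney (D : VD φ)
    (h : ∀ c < 2048, ∃ c' < 2048, n * φ c * n⁻¹ = φ c' ∧ (isD c = true → isD c' = true)) :
    ∃ π ∈ M24, Ind φ n π := by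
  choose! f f1 f2 f3 using h
  have fx : ∀ a < 2048, ∀ b < 2048, f (a ^^^ b) = f a ^^^ f b := fun a ha b hb =>
    D.eq (f1 _ (xor_lt ha hb)) (xor_lt (f1 a ha) (f1 b hb)) (by
      rw [← f2 _ (xor_lt ha hb), D.mul ha hb, D.mul (f1 a ha) (f1 b hb), ← f2 a ha, ← f2 b hb, conj_mul])
  obtain ⟨π, hπ⟩ := star (f := fun b => f (dd (pt 11) b)) (o := pt 11) (by
    have := fx 0 (by omega) 0 (by omega)
    rwa [Nat.xor_self, Nat.xor_self, ← dd_self (pt 11)] at this) fun b c hbc => by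
      rw [← fx _ (dd_lt _ _) _ (dd_lt _ _), dd_xor]
      exact f3 _ (dd_lt _ _) (isD_dd _ _ hbc)
  refine ⟨π, mem_of_add fx hπ, fun a b => ?_⟩
  rw [f2 _ (dd_lt _ _), ← dd_xor (pt 11) a, fx _ (dd_lt _ _) _ (dd_lt _ _), hπ, hπ, dd_xor]

theorem Ind.mul (h : Ind φ n π) (h' : Ind φ m ρ) : Ind φ (n * m) (π * ρ) := fun a b => by
  rw [Equiv.Perm.mul_apply, Equiv.Perm.mul_apply, ← h, ← h']; group

theorem Ind.inv (h : Ind φ n π) : Ind φ n⁻¹ π⁻¹ := fun a b => by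
  have := h (π⁻¹ a) (π⁻¹ b)
  rw [Equiv.Perm.coe_inv, π.apply_symm_apply, π.apply_symm_apply] at this
  rw [← this, Equiv.Perm.coe_inv]; group

theorem Ind.one : Ind φ (1 : G) 1 := fun a b => by simp

theorem Ind.uniq (D : VD φ) (h : Ind φ n π) (h' : Ind φ n ρ) : π = ρ := Equiv.ext fun a => by
  have e : ∀ b, b ≠ a → π a = ρ a ∨ π a = ρ b := fun b hb =>
    (dd_inj (π.injective.ne hb.symm) (D.eq (dd_lt _ _) (dd_lt _ _) ((h a b).symm.trans (h' a b)))).imp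
      And.left And.left
  obtain ⟨b, c, h1, h2, h3⟩ := (show ∀ a : GolayPt, ∃ b c, b ≠ a ∧ c ≠ a ∧ b ≠ c by decide +kernel) a
  by_contra hn
  exact h3 (ρ.injective (((e b h1).resolve_left hn).symm.trans ((e c h2).resolve_left hn)))

theorem VD.le (D : VD φ) {K : Subgroup G} (h : ∀ a b, φ (dd a b) ∈ K) : D.V ≤ K := by
  rintro _ ⟨c, hc, rfl⟩
  exact ind2 (P := fun c => φ c ∈ K) (D.one ▸ one_mem _) (fun i hi => pow_dd i hi ▸ h _ _)
    (fun a ha b hb h1 h2 => D.mul ha hb ▸ mul_mem h1 h2) c hc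

theorem Ind.cen (D : VD φ) (h : Ind φ n 1) : n ∈ Cz(D.V) := fun _ hv =>
  mem_Cx.1 (D.le (K := Cx(n)) (fun a b => mem_Cx.2 (mul_inv_eq_iff_eq_mul.1 (h a b)).symm) hv)

theorem Ind.of_cen (D : VD φ) (h : n ∈ Cz(D.V)) : Ind φ n 1 := fun a b =>
  mul_inv_eq_iff_eq_mul.2 (h _ (D.mem (dd_lt _ _))).symm

theorem Ind.mem (D : VD φ) (h : Ind φ n π) : n ∈ Nm(D.V) := by
  have k : ∀ {n π}, Ind φ n π → ∀ v ∈ D.V, n * v * n⁻¹ ∈ D.V := fun {n π} h _ hv =>
    D.le (K := D.V.comap (MulAut.conj n).toMonoidHom) (fun a b => ⟨_, dd_lt _ _, (h a b).symm⟩) hv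
  exact mem_normalizer_iff.2 fun v => ⟨k h v, fun hv => by simpa [mul_assoc] using k h.inv _ hv⟩

/-- the action of the normalizer on the 24 points -/
theorem VD.hom (D : VD φ) (hw : ∀ n ∈ Nm(D.V), ∃ π ∈ M24, Ind φ n π) :
    ∃ τ : Nm(D.V) →* M24, ∀ n, Ind φ n.1 (τ n).1 := by
  choose f f1 f2 using hw
  exact ⟨MonoidHom.mk' (fun n => ⟨f n.1 n.2, f1 _ _⟩) fun a b =>
    Subtype.ext ((f2 _ _).uniq D ((f2 _ a.2).mul (f2 _ b.2))), fun n => f2 _ _⟩

theorem surj [Finite G] (D : VD φ) (hc : Cz(D.V) ≤ D.V) (hw : ∀ n ∈ Nm(D.V), ∃ π ∈ M24, Ind φ n π)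
    (hcard : 2048 * 244823040 ≤ Nat.card Nm(D.V)) : ∀ π ∈ M24, ∃ n ∈ Nm(D.V), Ind φ n π := fun π hπ => by
  obtain ⟨τ, hτ⟩ := D.hom hw
  have h1 : Nat.card τ.ker ≤ 2048 := by
    rw [← D.card, ← card_map_of_injective (K := τ.ker) (subtype_injective _)]
    refine card_le_of_le ?_
    rintro _ ⟨k, hk, rfl⟩
    have := hτ k
    rw [MonoidHom.mem_ker.1 hk] at this
    exact hc (this.cen D)
  have h2 : τ.range = ⊤ := eq_top_of_le_card _ (by
    rw [← τ.ker.card_mul_index, index_ker] at hcard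
    rw [CoFin.cardM24]
    exact Nat.le_of_mul_le_mul_left (hcard.trans (Nat.mul_le_mul_right _ h1)) (by decide))
  obtain ⟨k, hk⟩ := h2.ge (mem_top ⟨π, hπ⟩)
  have := hτ k
  rw [hk] at this
  exact ⟨k, k.2, this⟩

theorem split [Finite G] (D : VD φ) (hc : Cz(D.V) ≤ D.V) (hw : ∀ n ∈ Nm(D.V), ∃ π ∈ M24, Ind φ n π)
    (hs : ∀ π ∈ M24, ∃ n ∈ Nm(D.V), Ind φ n π) {T K : Subgroup G} (hT : T ≤ Nm(D.V))
    (odd : Odd (T.relIndex Nm(D.V))) (h1 : D.V ⊓ K = ⊥) (h2 : D.V ⊔ K = T) :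
    ∃ θ : M24 →* G, (∀ π, Ind φ (θ π) π) ∧ ∀ n ∈ Nm(D.V), ∃ c < 2048, ∃ π, n = φ c * θ π := by
  obtain ⟨L, l1, l2⟩ := CfH8.gaschuetz' (V := D.V) ⟨⟨fun a b => Subtype.ext (D.comm a.2 b.2)⟩⟩ le_rfl hT (by
    rw [D.card]; exact Nat.Coprime.pow_right 11 (Nat.coprime_two_right.2 odd)) h1 h2
  obtain ⟨τ, hτ⟩ := D.hom hw
  have hL : L ≤ Nm(D.V) := l2 ▸ le_sup_right
  have hb : Function.Bijective (τ.comp (inclusion hL)) := ⟨(injective_iff_map_eq_one _).2 fun k hk => by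
    have := hτ (inclusion hL k)
    rw [show τ (inclusion hL k) = 1 from hk] at this
    exact Subtype.ext (l1.le ⟨hc (this.cen D), k.2⟩), fun π => by
      obtain ⟨n, hn, e⟩ := hs π π.2
      obtain ⟨v, hv, k, hk, rfl⟩ := (mem_sup_of_le_Nm' hL).1 (l2.ge hn)
      have := (Ind.of_cen D (D.le_Cz hv)).mul (hτ ⟨k, hL hk⟩)
      rw [one_mul] at this
      exact ⟨⟨k, hk⟩, Subtype.ext (this.uniq D e)⟩⟩
  let e := MulEquiv.ofBijective _ hb
  have he : ∀ π, Ind φ (e.symm π).1 π.1 := fun π => by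
    have := hτ (inclusion hL (e.symm π))
    rwa [show τ (inclusion hL (e.symm π)) = π from e.apply_symm_apply π] at this
  refine ⟨L.subtype.comp e.symm.toMonoidHom, he, fun n hn => ?_⟩
  obtain ⟨π, h3, h4⟩ := hw n hn
  have := h4.mul (he ⟨π, h3⟩).inv
  rw [mul_inv_cancel] at this
  obtain ⟨c, hc', h5⟩ := hc (this.cen D)
  exact ⟨c, hc', ⟨π, h3⟩, by rw [h5]; simp⟩

/-- an involution of `M₂₄` with eight fixed points -/
def pA : Equiv.Perm GolayPt :=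
  perm [1, 0, 3, 2, 4, 5, 9, 7, 15, 6, 10, 22, 12, 20, 14, 8, 19, 17, 21, 16, 13, 18, 11, 23] (by decide +kernel)

theorem inv24 (h : π ∈ M24) (h2 : π * π = 1) :
    π = 1 ∨ ∃ σ ∈ M24, σ * π * σ⁻¹ = pA ∨ σ * π * σ⁻¹ = CfH6.M24I.pX := by
  rcases CoFin.inv_cls (π := ⟨π, h⟩) (Subtype.ext h2) with e | e | e
  · exact Or.inl (congrArg Subtype.val e)
  · obtain ⟨σ, e⟩ := isConj_iff.1 e
    exact Or.inr ⟨σ, σ.2, Or.inl ((congrArg Subtype.val e).trans (Equiv.ext fun p => congrFun CoFin.g1.coe p))⟩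
  · have g : CoFin.Good wX := by decide +kernel
    obtain ⟨σ, e⟩ := isConj_iff.1 e
    refine Or.inr ⟨_, (CoFin.pl wX * σ).2, Or.inr (mul_inv_eq_iff_eq_mul.2 (Equiv.ext fun p => ?_))⟩
    have := DFunLike.congr_fun (congrArg Subtype.val (mul_inv_eq_iff_eq_mul.1 e)) p
    simp only [coe_mul, Equiv.Perm.mul_apply] at this ⊢
    rw [this, g.coe, CoFin.g2.coe]
    generalize σ.1 p = q
    revert q; decide +kernel

end CfH3.J4
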