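import Cfsg.Agent.H9.JS1
import Cfsg.Agent.H3.Jv7
import Cfsg.Agent.H5.JF
import Cfsg.Agent.OD.Helper9x6064aff2c8
import Cfsg.Agent.OD.Helper9x9e62eaf618
/-! The Sylow subgroup of the centraliser of the involution and its largest elementary abelian subgroup. -/
set_option autoImplicit false
set_option maxRecDepth 100000
open Subgroup CfH9 CfH6
namespace CfH3.J4
open CfH3.He
namespace JS

theorem fil_eq (p : ℕ → Bool) (l : List ℕ) (k : List ℕ → Bool) : fil p l k = k (l.filter p).reverse := by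
  suffices ∀ acc, (List.rec (motive := fun _ => List ℕ → Bool) k (fun a _ ih acc => Bool.rec (ih acc) (ih (a :: acc)) (p a)) l acc) =
    k ((l.filter p).reverse ++ acc) by rw [fil, this, List.append_nil]
  induction l with
  | nil => exact fun _ => rfl
  | cons a l ih =>
    intro acc
    rw [List.filter_cons]
    show (Bool.rec _ _ (p a) : Bool) = _
    cases p a
    · exact ih acc
    · rw [if_pos rfl, List.reverse_cons, List.append_assoc]; exact ih _
theorem le_cn {N : Finset ℕ} {p : ℕ → Bool} (h : ∀ j ∈ N, j < 72 ∧ p j = true) : N.card ≤ cn p := by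
  rw [cn, ct_eq, Finset.card_eq_sum_ones]
  exact (Finset.sum_le_sum fun j hj => by rw [(h j hj).2]; rfl).trans
    (Finset.sum_le_sum_of_subset fun j hj => Finset.mem_range.2 (h j hj).1)
theorem fil_of {A : Finset ℕ} {p : ℕ → Bool} {l : List ℕ} {k : List ℕ → Bool} (h : ∀ a ∈ A, a ∈ l) (hp : ∀ a ∈ A, p a = true)
    (hk : ∀ l, (∀ a ∈ A, a ∈ l) → k l = true) : fil p l k = true := by
  rw [fil_eq]; exact hk _ fun a ha => by simp [h a ha, hp a ha]
theorem big_of {A : Finset ℕ} (hA : 32 ≤ A.card) (l : List ℕ) (h : ∀ a ∈ A, a ∈ l) : big l = true :=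
  Nat.ble_eq ▸ hA.trans ((Finset.card_le_card fun a ha => List.mem_toFinset.2 (h a ha)).trans (List.toFinset_card_le l))
theorem ck_all {x : ℕ} (h1 : 16 ≤ x) (h2 : x < 72) : ck x = true := by
  have f : ∀ {n}, al (fun x => ck (Nat.add x n)) 14 = true → n ≤ x → x < n + 14 → ck x = true := fun {n} h a b => by
    have := al_iff.1 h (x - n) (by omega)
    rwa [Nat.add_eq, Nat.sub_add_cancel a] at this
  by_cases a : x < 30
  · exact f t5 h1 a
  by_cases b : x < 44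
  · exact f t6 (by omega) b
  by_cases c : x < 58
  exacts [f t7 (by omega) c, f t8 (by omega) h2]

/-- the combinatorial core -/
theorem core {A N : Finset ℕ} (hA : ∀ a ∈ A, a < 4096) (hN : ∀ j ∈ N, j < 72) (h64 : A.card ≤ 64) (hc : 1024 ≤ A.card * N.card)
    (h1 : ∀ i ∈ N, ∀ j ∈ N, cm i j = true) (h2 : ∀ j ∈ N, ∀ a ∈ A, fx (tb j) a = true) : ∀ a < 64, a ∈ A := by
  have n16 : 16 ≤ N.card := by nlinarith
  have n32 : N.card ≤ 32 := by
    obtain ⟨x, hx⟩ := Finset.card_pos.1 (show 0 < N.card by omega)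
    by_contra h
    have := Nat.blt_eq.mp (al_iff.1 t3.2 x (hN x hx))
    have := le_cn (N := N) (p := fun y => cm x y && Nat.ble 33 (cn (cm y))) fun y hy => ⟨hN y hy, by
      rw [h1 x hx y hy, Bool.true_and, Nat.ble_eq]
      exact le_trans (by omega) (le_cn fun w hw => ⟨hN w hw, h1 y hy w hw⟩)⟩
    omega
  have a32 : 32 ≤ A.card := by nlinarith
  have s : N ⊆ Finset.range 16 := fun x hx => Finset.mem_range.2 (not_le.1 fun h => by
    have := ck_all h (hN x hx)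
    rw [ck, frc_eq, fil_eq, Nat.blt_eq] at this
    refine absurd this (not_lt.2 (n16.trans (le_cn fun y hy => ⟨hN y hy, ?_⟩)))
    rw [h1 x hx y hy, Bool.true_and, frc_eq]
    refine fil_of (A := A) (fun a ha => by simp [hA a ha, h2 x hx a ha]) (h2 y hy) fun l hl => ?_
    rw [big_of a32 l hl, Bool.true_and, Nat.ble_eq]
    refine n16.trans (le_cn fun w hw => ⟨hN w hw, ?_⟩)
    rw [h1 x hx w hw, h1 y hy w hw, Bool.true_and, Bool.true_and, frc_eq]
    exact fil_of hl (h2 w hw) (big_of a32))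
  have e := Finset.eq_of_subset_of_card_le s (by rwa [Finset.card_range])
  rw [e, Finset.card_range] at hc
  have s' : A ⊆ Finset.range 64 := fun a ha => by
    have := al_iff.1 t4.1 a (hA a ha)
    simp only [Bool.and_eq_true, Bool.or_eq_true, Nat.blt_eq, Bool.not_eq_true', ← Bool.not_eq_true, List.all_eq_true] at this
    exact Finset.mem_range.2 (this.2.resolve_right fun h => h fun j hj =>
      h2 j (e ▸ Finset.mem_range.2 ((by decide : ∀ j ∈ [1, 2, 4, 8], j < 16) j hj)) a ha)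
  rw [Finset.eq_of_subset_of_card_le s' (by rw [Finset.card_range]; omega)]
  exact fun a => Finset.mem_range.2

theorem sum0 {B : Finset ℕ} (hB : ∀ a ∈ B, ∀ b ∈ B, a ^^^ b ∈ B) {a c : ℕ} (ha : a ∈ B) (h : bb a c = 1) :
    ∑ x ∈ B, (-1 : ℤ) ^ bb x c = 0 :=
  Finset.sum_involution (fun x _ => x ^^^ a) (fun x _ => by
    rw [bb_xor, h]
    have := bb_lt x c
    interval_cases bb x c <;> rfl) (fun x _ _ e => by
      have := bb_xor x a c
      rw [e, h] at this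
      have := bb_lt x c
      interval_cases bb x c <;> simp at *) (fun x hx => hB x hx a ha) fun x _ => Nat.xor_xor_cancel_right _ _
/-- isotropic subspaces -/
theorem iso {A : Finset ℕ} (hA : ∀ a ∈ A, a < 4096) (hx : ∀ a ∈ A, ∀ b ∈ A, a ^^^ b ∈ A) (h0 : ∀ a ∈ A, ∀ b ∈ A, bb a b = 0) :
    A.card ≤ 64 := by
  have h1 : ∑ c ∈ Finset.range 4096, ∑ a ∈ A, (-1 : ℤ) ^ bb a c ≤ 4096 := by
    rw [Finset.sum_comm]
    refine (Finset.sum_le_sum (g := fun a => if a = 0 then 4096 else 0) fun a ha => ?_).trans ?_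
    · split_ifs with h
      · exact (Finset.sum_le_card_nsmul _ _ 1 fun x _ => by
          have := bb_lt a x
          interval_cases bb a x <;> simp).trans (by simp)
      · obtain ⟨b, -, -, e⟩ := (one_spec (c := a) ((hA a ha).trans (by omega))).2.2.2.1.resolve_left (by rwa [lo_of_lt (hA a ha)])
        simp only [bb_comm a]
        exact (sum0 (fun a ha b hb => Finset.mem_range.2 (Nat.xor_lt_two_pow (n := 12) (Finset.mem_range.1 ha) (Finset.mem_range.1 hb)))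
          (Finset.mem_range.2 (Nat.xor_lt_two_pow (n := 12) (by have := lo6_lt b; omega) (by have := hi6_lt b; omega))) e).le
    · rw [Finset.sum_ite_eq']; split_ifs <;> simp
  have h2 : ∑ c ∈ A, ∑ a ∈ A, (-1 : ℤ) ^ bb a c ≤ ∑ c ∈ Finset.range 4096, ∑ a ∈ A, (-1 : ℤ) ^ bb a c :=
    Finset.sum_le_sum_of_subset_of_nonneg (fun a ha => Finset.mem_range.2 (hA a ha)) fun c _ _ => by
      by_cases h : ∃ a ∈ A, bb a c = 1
      · obtain ⟨a, ha, e⟩ := h
        exact (sum0 hx ha e).ge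
      · exact Finset.sum_nonneg fun a ha => by
          have := bb_lt a c
          rw [show bb a c = 0 by by_contra e; exact h ⟨a, ha, by omega⟩]; simp
  rw [Finset.sum_congr rfl fun c hc => Finset.sum_congr rfl fun a ha => by rw [h0 a ha c hc]] at h2
  simp only [pow_zero, Finset.sum_const, nsmul_eq_mul, mul_one] at h2
  have : A.card * A.card ≤ 4096 := by exact_mod_cast h2.trans h1
  nlinarith

theorem wu_xor {w : List ℕ} (h : w.all okl = true) (a b : ℕ) : wu w (a ^^^ b) = wu w a ^^^ wu w b := by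
  induction w with
  | nil => rfl
  | cons i w ih =>
    rw [List.all_cons, Bool.and_eq_true] at h
    rw [wu_cons, wu_cons, wu_cons, ih h.2]
    rcases okl_iff.1 h.1 with hi | hi
    · rw [blt_t (by omega)]; exact au_xor hi _ _
    · rw [blt_f hi.1]; rfl
theorem v8s {g n : ℕ} (hg : g < 8) (hn : n < 256) : (gw g).all (fun x => GP.contains x) = true ∧ (el n).all okl = true ∧
    (gw g ++ el n ++ iw (el (nx g n))).all okl = true ∧ triv (gw g ++ el n ++ iw (el (nx g n))) = true := by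
  have := al_iff.1 v8 g hg
  rw [Bool.and_eq_true] at this
  have h := al_iff.1 this.2 n hn
  rw [Bool.and_eq_true] at h
  refine ⟨this.1, ?_, h⟩
  have := h.1
  rw [List.all_append, List.all_append, Bool.and_eq_true, Bool.and_eq_true] at this
  exact this.1.2
theorem okel {n : ℕ} (hn : n < 256) : (el n).all okl = true := (v8s (g := 0) (by omega) hn).2.1
theorem uu_lt (n a : ℕ) : uu n a < 4096 := lo_lt _
theorem uu_lo (n a : ℕ) : uu n (lo a) = uu n a := wu_lo _ (lo_of_lt (lo_lt a))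
theorem tb_spec {j c : ℕ} (hj : j < 72) (hc : c < 4096) : jx j < 256 ∧ ut (tb j) c = uu (jx j) c := by
  have := al_iff.1 t2 j hj
  simp only [frc_eq, Bool.and_eq_true, Nat.blt_eq, al_iff, Nat.beq_eq] at this
  have h := al_iff.1 t4.1 c hc
  rw [Bool.and_eq_true, Nat.beq_eq] at h
  refine ⟨this.1, ?_⟩
  rw [ut, (this.2 _ (lo6_lt c)).1, (this.2 _ (hi6_lt c)).2, xor_eq, uu, uu, ← lo_xor, ← wu_xor (okel this.1), ← xor_eq, h.1]; rfl
end JS
open JS

variable {G : Type*} [Group G] {z k g h : G} {ψ ev : ℕ → G} {e1 e2 n m : ℕ}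

def Rel (z : G) (ψ ev : ℕ → G) (k : G) (g : G) (n : ℕ) : Prop := n < 256 ∧ ∃ c < 8192, g = ψ c * evw (lt z ψ ev k) (el n)

namespace CD
variable (D : CD z ψ ev k e1 e2)
include D
local notation "L" => lt z ψ ev k
local notation "φ₀" => φ0 z ψ ev k
local notation "PP" => Pg z ψ ev k
local notation "ℛ" => Rel z ψ ev k

theorem jsU {f f' : ℕ → ℕ} (h1 : Act ψ g f) (h2 : Act ψ g f') {c : ℕ} (hc : c < 8192) : f c = f' c :=
  D.q.inj (h1 c hc).1 (h2 c hc).1 ((h1 c hc).2.symm.trans (h2 c hc).2)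
theorem jsA (r : ℛ g n) : ∃ f, Act ψ g f ∧ ∀ a, lo (f a) = uu n a := by
  obtain ⟨hn, c, hc, rfl⟩ := r
  exact ⟨_, (D.q.act_inn hc).mul (D.actw (okel hn)).1, fun a => by
    rw [inn_eq, lo_xor, (top_aux (bb_lt _ _)).2.2.1, Nat.xor_zero, lo_wa]; rfl⟩
theorem jsC (r : ℛ g n) (r' : ℛ h m) (e : g * h = h * g) {b : ℕ} (hb : b < 8192) : uu n (uu m b) = uu m (uu n b) := by
  obtain ⟨f, h1, h2⟩ := D.jsA r
  obtain ⟨f', h3, h4⟩ := D.jsA r'
  have := congrArg lo (D.jsU (h1.mul h3) (e ▸ h3.mul h1) hb)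
  rwa [h2, h4, ← uu_lo, h4, ← uu_lo m (f b), h2] at this
theorem jsI (r : ℛ g n) (e : g * g = 1) {b : ℕ} (hb : b < 4096) : uu n (uu n b) = b := by
  obtain ⟨f, h1, h2⟩ := D.jsA r
  have := congrArg lo (D.jsU (h1.mul h1) (e ▸ Act.one) (c := b) (by omega))
  rwa [h2, ← uu_lo, h2, id, lo_of_lt hb] at this
theorem jsF (r : ℛ g n) {a : ℕ} (ha : a < 4096) (e : g * ψ a = ψ a * g) : uu n a = a := by
  obtain ⟨f, h1, h2⟩ := D.jsA r
  have := h1 a (by omega)
  rw [e, mul_inv_cancel_right] at this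
  rw [← h2, ← D.q.inj (by omega) this.1 this.2, lo_of_lt ha]
theorem jsE (r : ℛ g n) (r' : ℛ g m) : n = m := by
  obtain ⟨f, h1, h2⟩ := D.jsA r
  obtain ⟨f', h3, h4⟩ := D.jsA r'
  have e : ∀ b < 8192, uu n b = uu m b := fun b hb => by rw [← h2, ← h4, D.jsU h1 h3 hb]
  have a := al_iff.1 t1.2.2 n r.1
  have b := al_iff.1 t1.2.2 m r'.1
  rw [frc_eq, Nat.beq_eq] at a b
  rw [← a, ← b, key, key, e 1 (by omega), e 2 (by omega), e 64 (by omega)]
theorem jsQ {c : ℕ} (hc : c < 8192) : (∃ n, ℛ g n) → ∃ n, ℛ (ψ c * g) n := by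
  rintro ⟨n, hn, d, hd, rfl⟩
  exact ⟨n, hn, _, mq_lt hc hd, by rw [D.q.mul hc hd, mul_assoc]⟩
theorem jsS (n : ℕ) {i : ℕ} (hi : i < 8) (g : G) : (∃ n, ℛ g n) → ∃ m, ℛ (evw L (sel n i) * g) m := by
  rw [sel]
  cases Nat.beq _ 1
  · simp
  rintro ⟨n, hn, d, hd, rfl⟩
  obtain ⟨-, -, h1, h2⟩ := v8s hi hn
  have hm : nx i n < 256 := Nat.lt_succ_of_le Nat.and_le_right
  obtain ⟨a, ha, e⟩ := D.triv_sound h1 h2
  rw [List.all_append, List.all_append, Bool.and_eq_true, Bool.and_eq_true] at h1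
  obtain ⟨b, hb, e'⟩ := D.inQ_cj (D.actw h1.1.1).2 ⟨d, hd, rfl⟩
  refine ⟨_, hm, _, mq_lt hb ha, ?_⟩
  rw [D.q.mul hb ha, e, e', evw_append, evw_append, D.liw (okel hm), cond_true]
  group
theorem jsX {c : ℕ} (hc : c < 8192) (e : ∀ a < 64, ψ c * ψ a = ψ a * ψ c) : ψ c ∈ D.vd.V := by
  have := al_iff.1 t4.2 c hc
  simp only [Bool.or_eq_true, Bool.not_eq_true', ← Bool.not_eq_true, List.all_eq_true, Nat.beq_eq] at this
  have := this.resolve_left fun h => h fun a ha => by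
    have := (by decide : ∀ a ∈ B6, a < 64) a ha
    exact (D.q.bb_iff (by omega) hc).2 (e a this).symm
  exact ⟨_, show c % 64 + 64 * (c / 4096) < 2048 by omega, by rw [φ0_lo (by omega), this]⟩
theorem jsV (r : ℛ g n) (e : ∀ a < 64, g * ψ a = ψ a * g) : g ∈ D.vd.V := by
  have := al_iff.1 t1.2.1 n r.1
  simp only [Bool.or_eq_true, Bool.not_eq_true', ← Bool.not_eq_true, List.all_eq_true, Nat.beq_eq, Nat.blt_eq] at this
  have hn := this.resolve_right fun h => h fun a ha => by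
    have := (by decide : ∀ a ∈ B6, a < 64) a ha
    exact D.jsF r (by omega) (e a this)
  obtain ⟨-, c, hc, rfl⟩ := r
  obtain ⟨u1, u2, u3⟩ := (by decide : ∀ n < 16, el n = ew n ∧ xq (128 * n) = 0 ∧ (128 * n) >>> 7 = n) n hn
  have h1 : evw L (el n) ∈ D.vd.V := ⟨128 * n, by omega, by rw [φ0_eq, u2, u3, u1, D.q.one, one_mul]⟩
  refine mul_mem (D.jsX hc fun a ha => ?_) h1
  have := e a ha
  rwa [mul_assoc, D.vd.comm h1 (D.vx ha), ← mul_assoc, ← mul_assoc, mul_left_inj] at this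

variable [Finite G]
def jsSyl : Subgroup G := mkSub (fun g => ∃ n, ℛ g n) ⟨0, by omega, 0, by omega, by rw [D.q.one, one_mul]; rfl⟩ (by
  rintro _ b ⟨n, hn, c, hc, rfl⟩ hb
  rw [mul_assoc]
  refine D.jsQ hc ?_
  simp only [el, evw_append, mul_assoc]
  iterate 8 refine D.jsS n (by omega) _ ?_
  exact hb)
theorem jsP : D.jsSyl ≤ PP := by
  rintro _ ⟨n, hn, c, hc, rfl⟩
  have f : ∀ i < 8, evw L (sel n i) ∈ PP := fun i hi => by
    rw [sel]
    cases Nat.beq _ 1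
    · exact one_mem _
    · exact D.wP (List.all_eq_true.2 fun x hx => by rw [List.all_eq_true.1 (v8s hi hn).1 x hx, Bool.or_true])
  refine mul_mem (D.qP hc) ?_
  simp only [el, evw_append]
  iterate 7 refine mul_mem (f _ (by omega)) ?_
  exact f _ (by omega)
theorem jsq {c : ℕ} (hc : c < 8192) : ψ c ∈ D.jsSyl := ⟨0, by omega, c, hc, (mul_one _).symm⟩
theorem jsH : SylIn 2 D.jsSyl Cx(z) := by
  have := Nat.card_eq_of_bijective (fun x : Fin 8192 × Fin 256 => (⟨ψ x.1 * evw L (el x.2), x.2, x.2.2, x.1, x.1.2, rfl⟩ : D.jsSyl))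
    ⟨fun x y e => by
      have e' : ψ x.1 * evw L (el x.2) = ψ y.1 * evw L (el y.2) := congrArg Subtype.val e
      have := Fin.ext (D.jsE ⟨x.2.2, _, x.1.2, rfl⟩ ⟨y.2.2, _, y.1.2, e'⟩)
      rw [this] at e'
      exact Prod.ext (Fin.ext (D.q.inj x.1.2 y.1.2 (mul_right_cancel e'))) this, fun ⟨_, n, hn, c, hc, e⟩ =>
      ⟨(⟨c, hc⟩, ⟨n, hn⟩), Subtype.ext e.symm⟩⟩
  rw [Nat.card_prod, Nat.card_fin, Nat.card_fin] at this
  have h := card_mul_relIndex (D.jsP.trans D.PC)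
  rw [← this, D.card] at h
  exact sylIn_of_not_dvd (D.jsP.trans D.PC) (IsPGroup.of_card (n := 21) (by rw [← this]; rfl)) (by omega)
theorem jsVS : D.vd.V ≤ D.jsSyl := by
  rintro _ ⟨c, hc, rfl⟩
  have := (w0_spec hc).2.2.2.2
  exact ⟨c >>> 7, by omega, _, (w0_spec hc).2.1, by rw [φ0_eq, (by decide : ∀ n < 16, el n = ew n) _ this]⟩
theorem jsZ : Cz(D.vd.V) ≤ D.vd.V := fun g hg => by
  have hz : ∀ {x}, x ∈ Cz(D.vd.V) → x ∈ Cx(z) := fun hx => mem_Cx.2 (mem_centralizer_iff.1 hx _ ⟨64, by omega, D.vz⟩).symm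
  have cj : ∀ {p x}, p ∈ Nm(D.vd.V) → x ∈ Cz(D.vd.V) → p * x * p⁻¹ ∈ Cz(D.vd.V) := fun {p x} hp hx => mem_centralizer_iff.2 fun v hv => by
    have := mem_centralizer_iff.1 hx _ ((mem_normalizer_iff.1 (inv_mem hp) v).1 hv)
    calc _ = p * (p⁻¹ * v * p⁻¹⁻¹ * x) * p⁻¹ := by group
      _ = _ := by rw [this]; group
  have h2 : g ^ 2 ^ 2 = 1 := by
    have := D.cen (g * g) fun c hc => by
      obtain ⟨d, hd, e⟩ := D.q.inQ_mul (D.inQ_cj (hz hg) ⟨c, hc, rfl⟩) ⟨_, xor13 hc (top_aux (qq_lt _)).2.2.2, (D.q.inv hc).symm⟩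
      have h1 : ψ d ∈ Cz(D.vd.V) := by
        rw [e, mul_assoc, mul_assoc, ← mul_assoc (ψ c)]
        exact mul_mem hg (cj (D.PN (D.qP hc)) (inv_mem hg))
      have h2 := D.jsX hd fun a ha => (mem_centralizer_iff.1 h1 _ (D.vx ha)).symm
      have h3 := mem_centralizer_iff.1 hg _ h2
      obtain ⟨u, hu, h4⟩ := h2
      have h5 := D.vd.sq hu
      rw [h4] at h5
      have h6 : g * ψ c = ψ d * ψ c * g := by rw [e]; group
      calc g * g * ψ c = g * ψ d * ψ c * g := by rw [mul_assoc, h6]; group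
        _ = ψ d * (g * ψ c) * g := by rw [← h3]; group
        _ = (ψ d * ψ d) * ψ c * (g * g) := by rw [h6]; group
        _ = _ := by rw [h5, one_mul]
    rw [show 2 ^ 2 = 2 * 2 from rfl, pow_mul, pow_two g, pow_two]
    rcases this with e | e <;> rw [e]
    exacts [mul_one _, D.q.zz]
  have hP : g ∈ PP := D.NC ▸ ⟨centralizer_le_normalizer _ hg, hz hg⟩
  obtain ⟨p, hp, n, r⟩ := (D.jsH.mono D.jsP D.PC).exists_conj_mem hP h2
  exact (mem_normalizer_iff.1 (D.PN hp) g).2 (D.jsV r fun a ha => (mem_centralizer_iff.1 (cj (D.PN hp) hg) _ (D.vx ha)).symm)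
theorem jsF0 {E : Subgroup G} (h1 : E ≤ D.jsSyl) (h2 : ∀ x ∈ E, x * x = 1) (hz : z ∈ E) (h3 : 2048 ≤ Nat.card E) : E ≤ D.vd.V := by
  classical
  have cm' : ∀ x ∈ E, ∀ y ∈ E, x * y = y * x := fun x hx y hy => by
    rw [← inv_eq_of_mul_eq_one_right (h2 _ (mul_mem hx hy)), mul_inv_rev, inv_eq_of_mul_eq_one_right (h2 x hx),
      inv_eq_of_mul_eq_one_right (h2 y hy)]
  let A := (Finset.range 4096).filter fun c => ψ c ∈ E
  let N := (Finset.range 72).filter fun j => ∃ s ∈ E, ℛ s (jx j)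
  have mA : ∀ {a}, a ∈ A ↔ a < 4096 ∧ ψ a ∈ E := by simp [A]
  have mN : ∀ {j}, j ∈ N ↔ j < 72 ∧ ∃ s ∈ E, ℛ s (jx j) := by simp [N]
  have b3 : ∀ b ∈ B3, b < 4096 := by decide
  choose! s hs using fun j (hj : j ∈ N) => (mN.1 hj).2
  have hc : Nat.card E ≤ 2 * (A.card * N.card) := by
    have : (E : Set G) ⊆ ((Finset.range 2 ×ˢ A ×ˢ N).image fun x => z ^ x.1 * ψ x.2.1 * s x.2.2 : Finset G) := fun g hg => by
      obtain ⟨n, r⟩ := h1 hg
      have := al_iff.1 t1.1 n r.1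
      simp only [Bool.or_eq_true, Bool.not_eq_true', ← Bool.not_eq_true, List.all_eq_true, Nat.beq_eq, an_iff] at this
      obtain ⟨j, hj, rfl⟩ := this.resolve_left fun h => h fun b hb => D.jsI r (h2 g hg) (b3 b hb)
      have hN : j ∈ N := mN.2 ⟨hj, g, hg, r⟩
      obtain ⟨-, c, hc, e⟩ := r
      obtain ⟨u1, -, d, hd, e'⟩ := hs j hN
      obtain ⟨x, hx, e2⟩ := D.q.inQ_mul ⟨c, hc, rfl⟩ ⟨_, xor13 hd (top_aux (qq_lt _)).2.2.2, (D.q.inv hd).symm⟩
      have e3 : g = ψ x * s j := by rw [e, e', e2]; group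
      have u2 : ψ x ∈ E := (mul_mem_cancel_right u1).1 (e3 ▸ hg)
      simp only [Finset.coe_image, Set.mem_image, Finset.mem_coe, Finset.mem_product, Finset.mem_range]
      rcases D.lo_or hx with e4 | e4
      · exact ⟨(0, lo x, j), ⟨by omega, mA.2 ⟨lo_lt _, e4 ▸ u2⟩, hN⟩, by rw [e3, e4]; simp⟩
      · exact ⟨(1, lo x, j), ⟨by omega, mA.2 ⟨lo_lt _, (mul_mem_cancel_left hz).1 (e4 ▸ u2)⟩, hN⟩, by rw [e3, e4]; simp⟩
    have := Set.ncard_le_ncard this
    rw [Set.ncard_coe_finset] at this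
    refine this.trans (Finset.card_image_le.trans ?_)
    rw [Finset.card_product, Finset.card_product, Finset.card_range]
  have := core (A := A) (N := N) (fun a ha => (mA.1 ha).1) (fun j hj => (mN.1 hj).1) (iso (fun a ha => (mA.1 ha).1) (fun a ha b hb => by
    obtain ⟨a1, a2⟩ := mA.1 ha
    obtain ⟨b1, b2⟩ := mA.1 hb
    refine mA.2 ⟨Nat.xor_lt_two_pow (n := 12) a1 b1, ?_⟩
    rw [← Nat.xor_xor_cancel_right (a ^^^ b) (4096 * bb (au 7 a) b), ← mq_eq, D.q.xp (mq_lt (by omega) (by omega)) (bb_lt _ _),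
      D.q.mul (by omega) (by omega)]
    exact mul_mem (pow_mem hz _) (mul_mem a2 b2)) fun a ha b hb => (D.q.bb_iff (by have := (mA.1 ha).1; omega)
      (by have := (mA.1 hb).1; omega)).2 (cm' _ (mA.1 ha).2 _ (mA.1 hb).2)) (by omega) (fun i hi j hj => by
    have := al_iff.1 t3.1 i (mN.1 hi).1
    rw [frc_eq] at this
    have := al_iff.1 this j (mN.1 hj).1
    simp only [frc_eq, Bool.or_eq_true, Bool.not_eq_true', ← Bool.not_eq_true, List.all_eq_true, Nat.beq_eq] at this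
    refine this.resolve_left fun h => h fun b hb => ?_
    have := b3 b hb
    rw [(tb_spec (mN.1 hi).1 this).2, (tb_spec (mN.1 hj).1 this).2, (tb_spec (mN.1 hi).1 (uu_lt _ _)).2, (tb_spec (mN.1 hj).1 (uu_lt _ _)).2]
    exact D.jsC (hs i hi).2 (hs j hj).2 (cm' _ (hs i hi).1 _ (hs j hj).1) (by omega)) fun j hj a ha => by
    rw [fx, Nat.beq_eq, (tb_spec (mN.1 hj).1 (mA.1 ha).1).2]
    exact D.jsF (hs j hj).2 (mA.1 ha).1 (cm' _ (hs j hj).1 _ (mA.1 ha).2)
  intro g hg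
  obtain ⟨n, r⟩ := h1 hg
  exact D.jsV r fun a ha => cm' _ hg _ (mA.1 (this a ha)).2

theorem jf : (∃ S, CfH5.JF D.vd.V S z ∧ S ≤ Pg z ψ ev k) ∧ Cz(D.vd.V) ≤ D.vd.V := by
  have hz : z ∈ D.vd.V := ⟨64, by omega, D.vz⟩
  refine ⟨⟨D.jsSyl, ⟨hz, D.q.ne, ?_, D.jsH, D.jsVS, fun g hg => D.cen g fun c hc => hg _ (D.jsq hc), fun E h1 h2 h3 => ?_⟩, D.jsP⟩, D.jsZ⟩
  · rintro _ ⟨c, hc, rfl⟩
    exact D.vd.sq hc
  have c : ∀ {e}, e ∈ E → ∀ i, e * z ^ i = z ^ i * e := fun he i => D.zc' i (D.jsH.le (h1 he))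
  let E' := mkSub (fun g => ∃ i, ∃ e ∈ E, g = z ^ i * e) ⟨0, 1, one_mem _, by simp⟩ (by
    rintro _ _ ⟨i, a, ha, rfl⟩ ⟨j, b, hb, rfl⟩
    exact ⟨i + j, _, mul_mem ha hb, by rw [mul_assoc, ← mul_assoc a, c ha, pow_add]; group⟩)
  have le : E ≤ E' := fun e he => ⟨0, e, he, by simp⟩
  refine eq_of_le_of_card_ge (le.trans (D.jsF0 ?_ ?_ ⟨1, 1, one_mem _, by simp⟩ ?_)) h3
  · rintro _ ⟨i, a, ha, rfl⟩
    exact mul_mem (pow_mem (D.jsVS hz) i) (h1 ha)
  · rintro _ ⟨i, a, ha, rfl⟩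
    rw [mul_assoc, ← mul_assoc a, c ha, mul_assoc, h2 a ha, mul_one, ← pow_add, D.q.pz, show (i + i) % 2 = 0 by omega, pow_zero]
  · exact D.vd.card ▸ h3.trans (card_le_of_le le)
end CD

end CfH3.J4
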