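import Cfsg.Agent.H9.Basic2
/-! The abstract class argument that finishes the recognition of `Co₁`. -/
set_option autoImplicit false
namespace CfH9.CoFin
open Subgroup Finset

section
variable {G : Type*} [Group G] {s t : G}

theorem dih_even (s2 : s * s = 1) (t2 : t * t = 1) (j : ℕ) :
    (t * s) ^ j * s * ((t * s) ^ j)⁻¹ = (t * s) ^ (2 * j) * s := by
  have h : s * (t * s)⁻¹ = (t * s) * s := by
    rw [mul_inv_rev, inv_eq_of_mul_eq_one_right s2, inv_eq_of_mul_eq_one_right t2, ← mul_assoc, s2,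
      mul_assoc, s2, one_mul, mul_one]
  have : s * ((t * s) ^ j)⁻¹ = (t * s) ^ j * s := by
    rw [← inv_pow]; exact SemiconjBy.pow_right h j
  rw [mul_assoc, this, ← mul_assoc, ← pow_add, two_mul]

theorem dih_odd (s2 : s * s = 1) (t2 : t * t = 1) (j : ℕ) :
    (t * s) ^ j * t * ((t * s) ^ j)⁻¹ = (t * s) ^ (2 * j + 1) * s := by
  have h : t * (t * s)⁻¹ = (t * s) * t := by
    rw [mul_inv_rev, inv_eq_of_mul_eq_one_right s2, inv_eq_of_mul_eq_one_right t2, mul_assoc]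
  have : t * ((t * s) ^ j)⁻¹ = (t * s) ^ j * t := by
    rw [← inv_pow]; exact SemiconjBy.pow_right h j
  rw [mul_assoc, this, ← mul_assoc, ← pow_add, pow_succ, mul_assoc _ _ s, mul_assoc t, s2, mul_one,
    two_mul]

theorem dih_conj (s2 : s * s = 1) (t2 : t * t = 1) (i : ℕ) :
    IsConj s ((t * s) ^ i * s) ∨ IsConj t ((t * s) ^ i * s) := by
  rcases Nat.even_or_odd' i with ⟨j, rfl | rfl⟩
  exacts [.inl (isConj_iff.2 ⟨_, dih_even s2 t2 j⟩), .inr (isConj_iff.2 ⟨_, dih_odd s2 t2 j⟩)]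

theorem dih_last (s2 : s * s = 1) (t2 : t * t = 1) {j : ℕ}
    (m2 : (t * s) ^ (2 * j + 1) * (t * s) ^ (2 * j + 1) = 1)
    (m3 : (t * s) ^ (2 * j + 1) * s = s * (t * s) ^ (2 * j + 1)) :
    t = (t * s) ^ (j + 1) * (s * (t * s) ^ (2 * j + 1)) * ((t * s) ^ (j + 1))⁻¹ := by
  have c : Commute ((t * s) ^ (2 * j + 1)) ((t * s) ^ (j + 1))⁻¹ :=
    ((Commute.refl _).pow_pow _ _).inv_right
  rw [mul_assoc (_ ^ _), mul_assoc s, c.eq, ← mul_assoc s, ← mul_assoc, ← mul_assoc (_ ^ _) s,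
    dih_even s2 t2, mul_assoc (_ ^ _), ← m3, ← mul_assoc, mul_add 2 j 1, pow_succ' _ (2 * j + 1),
    mul_assoc _ (_ ^ _) (_ ^ _), m2, mul_one, mul_assoc, s2, mul_one]

theorem card_Cx_cj (h : IsConj s t) : Nat.card Cx(s) = Nat.card Cx(t) := by
  obtain ⟨c, rfl⟩ := isConj_iff.1 h
  rw [← cj_Cx, card_cj]

/-- the alternatives in a dihedral group -/
theorem dih_cases [Finite G] (s2 : s * s = 1) (t2 : t * t = 1) :
    (∃ j : ℕ, t = (t * s) ^ j * s * ((t * s) ^ j)⁻¹) ∨ ∃ m : ℕ, (t * s) ^ m ≠ 1 ∧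
      (t * s) ^ m * (t * s) ^ m = 1 ∧ (t * s) ^ m * s = s * (t * s) ^ m ∧
      (t * s) ^ m * t = t * (t * s) ^ m := by
  have h0 := pow_orderOf_eq_one (t * s)
  rcases Nat.even_or_odd' (orderOf (t * s)) with ⟨m, h | h⟩
  · have hp := orderOf_pos (t * s)
    refine .inr ⟨m, pow_ne_one_of_lt_orderOf (by omega) (by omega), by rwa [← pow_add, ← two_mul, ← h],
      mul_inv_eq_iff_eq_mul.1 (by rw [dih_even s2 t2, ← h, h0, one_mul]),
      mul_inv_eq_iff_eq_mul.1 (by rw [dih_odd s2 t2, pow_succ, ← h, h0, one_mul, mul_assoc, s2, mul_one])⟩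
  · exact .inl ⟨m + 1, by rw [dih_even s2 t2, mul_add, mul_one, pow_succ, ← h, h0, one_mul, mul_assoc,
      s2, mul_one]⟩

end

variable {M G : Type*} [Group M] [Group G] [Finite G] {ψ : M →* G}

omit [Finite G] in
theorem map_Cx_le (u : M) : Cx(u).map ψ ≤ Cx(ψ u) := by
  rintro _ ⟨x, hx, rfl⟩
  rw [mem_Cx, ← map_mul, ← map_mul, mem_Cx.1 hx]

theorem card_Cx_dvd (hψ : Function.Injective ψ) (u : M) : Nat.card Cx(u) ∣ Nat.card Cx(ψ u) :=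
  card_map_of_injective hψ ▸ card_dvd_of_le (map_Cx_le u)

omit [Finite G] in
theorem card_Cx_eq (hψ : Function.Injective ψ) {u : M} (h : Cx(ψ u) ≤ ψ.range) :
    Nat.card Cx(ψ u) = Nat.card Cx(u) := by
  rw [← card_map_of_injective hψ, le_antisymm (map_Cx_le u) fun x hx => ?_]
  obtain ⟨y, rfl⟩ := h hx
  exact ⟨y, mem_Cx.2 (hψ (by rw [map_mul, map_mul, mem_Cx.1 hx])), rfl⟩

omit [Finite G] in
theorem Cx_conj_le {u c : M} (h : Cx(ψ (c * u * c⁻¹)) ≤ ψ.range) : Cx(ψ u) ≤ ψ.range := fun x hx => by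
  have := h (x := ψ c * x * (ψ c)⁻¹) (mem_Cx.2 (by
    simp only [map_mul, map_inv, mul_assoc, inv_mul_cancel_left]
    rw [← mul_assoc x, mem_Cx.1 hx, mul_assoc]))
  rwa [ψ.range.mul_mem_cancel_right (inv_mem ⟨c, rfl⟩), ψ.range.mul_mem_cancel_left ⟨c, rfl⟩] at this

theorem not_23 {k : ℕ} (h : 2 ^ k < 2048) (h1 : k ≠ 0) {n : ℕ} : 759 * n ≠ 759 + 264 * (2 ^ k - 1) := by
  have : k < 11 := (Nat.pow_lt_pow_iff_right (a := 2) one_lt_two).1 h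
  interval_cases k <;> omega

/-- centralizers of the involutions of `E` -/
theorem cent_E (hψ : Function.Injective ψ) {E : Subgroup M} {z v : M} {O : Set M}
    (hE : ∀ e ∈ E, e * e = 1) (cE : Nat.card E ≤ 2048) (hz : z ∈ E)
    (hO : ∀ b, b ∈ O ↔ b ∈ E ∧ IsConj z b) (c1 : O.ncard = 759) (c2 : {b ∈ O | b * v ∈ O}.ncard = 264)
    (tr : ∀ u ∈ E, u ≠ 1 → u ∉ O → ∃ n ∈ Nm(E), n * u * n⁻¹ = v) (hN : Cx(v) ≤ Nm(E))
    (hC : ∀ g, ∀ b ∈ O, g * ψ b * g⁻¹ ∈ ψ.range → g ∈ ψ.range) {u : M} (hu : u ∈ E) (u1 : u ≠ 1) :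
    Cx(ψ u) ≤ ψ.range := by
  classical
  haveI := Finite.of_injective ψ hψ
  have cO : ∀ n ∈ Nm(E), ∀ b ∈ O, n * b * n⁻¹ ∈ O := fun n hn b hb =>
    (hO _).2 ⟨conj_mem_of_mem_normalizer hn ((hO b).1 hb).1, ((hO b).1 hb).2.trans (isConj_iff.2 ⟨n, rfl⟩)⟩
  have cm : ∀ a ∈ E, ∀ b ∈ E, a * b = b * a := fun a ha b hb => by
    rw [← inv_eq_of_mul_eq_one_right (hE _ (mul_mem ha hb)), mul_inv_rev,
      inv_eq_of_mul_eq_one_right (hE a ha), inv_eq_of_mul_eq_one_right (hE b hb)]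
  by_contra hn
  obtain ⟨U, ⟨U1, U2, U3⟩, -, hU⟩ := exists_maximal_ge (fun U : Subgroup M => U ≤ E ∧ U ≠ ⊥ ∧
    ¬ Cz(U.map ψ) ≤ ψ.range) (A := zpowers u) ⟨zpowers_le.2 hu, by simpa using u1, by
      rwa [MonoidHom.map_zpowers, Cz_zpowers]⟩
  obtain ⟨g, g1, g2⟩ := SetLike.not_le_iff_exists.1 U3
  set L := Cz(U.map ψ) with hL
  have mL : ∀ {x}, x ∈ L ↔ ∀ w ∈ U, ψ w * x = x * ψ w :=
    ⟨fun h w hw => h _ ⟨w, hw, rfl⟩, fun h _ ⟨w, hw, e⟩ => e ▸ h w hw⟩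
  have UO : ∀ w ∈ U, w ∉ O := fun w hw h => g2 (hC g w h (by
    rw [← mL.1 g1 w hw, mul_inv_cancel_right]; exact ⟨w, rfl⟩))
  have EL : ∀ e ∈ E, ψ e ∈ L := fun e he => mL.2 fun w hw => by
    rw [← map_mul, ← map_mul, cm _ (U1 hw) _ he]
  have k0 : ∀ k, ψ k ∈ L → k ∈ Nm(E) := fun k hk => by
    obtain ⟨⟨w, hw⟩, w1⟩ := (ne_bot_iff_exists_ne_one).1 U2
    obtain ⟨n, hn, e⟩ := tr w (U1 hw) (fun e => w1 (Subtype.ext e)) (UO w hw)
    have := hN (x := n * k * n⁻¹) (mem_Cx.2 (by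
      rw [← e]
      simp only [mul_assoc, inv_mul_cancel_left]
      rw [← mul_assoc k, ← hψ ((map_mul ψ w k).trans ((mL.1 hk w hw).trans (map_mul ψ k w).symm)),
        mul_assoc]))
    rwa [mul_mem_cancel_right (inv_mem hn), mul_mem_cancel_left hn] at this
  have k1 : ∀ b ∈ O, ∀ b' ∈ O, ∃ k, ψ k ∈ L ∧ ∃ w ∈ U, k * b * k⁻¹ = b' * w := by
    intro b hb b' hb'
    have bE := ((hO b).1 hb).1
    have bE' := ((hO b').1 hb').1
    have s2 : ψ b' * ψ b' = 1 := by rw [← map_mul, hE _ bE', map_one]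
    have t2 : g * ψ b * g⁻¹ * (g * ψ b * g⁻¹) = 1 := by
      rw [conj_mul, ← map_mul, hE _ bE, map_one, mul_one, mul_inv_cancel]
    have tL : g * ψ b * g⁻¹ ∈ L := mul_mem (mul_mem g1 (EL _ bE)) (inv_mem g1)
    have xL := pow_mem (mul_mem tL (EL _ bE'))
    have fin : ∀ h ∈ L, ∀ w ∈ U, g * ψ b * g⁻¹ = h * ψ (b' * w) * h⁻¹ →
        ∃ k, ψ k ∈ L ∧ ∃ w ∈ U, k * b * k⁻¹ = b' * w := fun h hh w hw e => by
      have e' : h⁻¹ * g * ψ b * (h⁻¹ * g)⁻¹ = ψ (b' * w) := by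
        rw [mul_inv_rev, inv_inv, mul_assoc h⁻¹, mul_assoc h⁻¹, ← mul_assoc (g * ψ b), e]; group
      obtain ⟨k, hk⟩ := hC _ b hb ⟨_, e'.symm⟩
      exact ⟨k, hk ▸ mul_mem (inv_mem hh) g1, w, hw, hψ (by rw [← e', ← hk, map_mul, map_mul, map_inv])⟩
    have inE : ∀ i : ℕ, (g * ψ b * g⁻¹ * ψ b') ^ i ∈ ψ.range →
        ∃ e ∈ E, ψ e = (g * ψ b * g⁻¹ * ψ b') ^ i := fun i hi => by
      have a : ∀ h ∈ L, ∀ c ∈ O, h * ψ c * h⁻¹ = (g * ψ b * g⁻¹ * ψ b') ^ i * ψ b' →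
          ∃ e ∈ E, ψ e = (g * ψ b * g⁻¹ * ψ b') ^ i := fun h hh c hc e => by
        obtain ⟨k, rfl⟩ := hC h c hc (e ▸ mul_mem hi ⟨b', rfl⟩)
        exact ⟨_, mul_mem (conj_mem_of_mem_normalizer (k0 k hh) ((hO c).1 hc).1) (inv_mem bE'), by
          rw [map_mul, map_mul, map_mul, map_inv, map_inv, e, mul_inv_cancel_right]⟩
      rcases Nat.even_or_odd' i with ⟨j, rfl | rfl⟩
      · exact a _ (xL j) b' hb' (dih_even s2 t2 j)
      · exact a _ (mul_mem (xL j) g1) b hb (by rw [← dih_odd s2 t2 j]; group)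
    rcases dih_cases s2 t2 with ⟨j, e⟩ | ⟨m, m1, m2, m3, m4⟩
    · exact fin _ (xL j) 1 (one_mem _) (by rwa [mul_one])
    obtain ⟨w, hw, e⟩ := inE m (hC _ b' hb' (by rw [m3, mul_inv_cancel_right]; exact ⟨b', rfl⟩))
    have wU : w ∈ U := hU (U ⊔ zpowers w) ⟨sup_le U1 (zpowers_le.2 hw), ne_bot_of_le le_sup_left U2,
      fun h => g2 (hC g b hb (h (by
        rw [Subgroup.map_sup, Cz_sup, MonoidHom.map_zpowers, Cz_zpowers]
        exact ⟨tL, mem_Cx.2 (e ▸ m4.symm)⟩)))⟩ le_sup_left ▸ mem_sup_right (mem_zpowers w)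
    rcases Nat.even_or_odd' m with ⟨j, rfl | rfl⟩
    · obtain ⟨y, hy, e'⟩ := inE j (hC _ b' hb' (by
        rw [dih_even s2 t2, ← e]; exact mul_mem ⟨w, rfl⟩ ⟨b', rfl⟩))
      exact absurd (by rw [two_mul, pow_add, ← e', ← map_mul, hE y hy, map_one]) m1
    · refine fin _ (xL (j + 1)) w wU ?_
      rw [map_mul, e]
      exact dih_last s2 t2 m2 m3
  have k2 : ∀ b ∈ O, ∀ b' ∈ O, {w ∈ (U : Set M) | b * w ∈ O}.ncard ≤ {w ∈ (U : Set M) | b' * w ∈ O}.ncard :=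
    fun b hb b' hb' => by
      obtain ⟨k, hk, w0, hw0, e⟩ := k1 b hb b' hb'
      refine Set.ncard_le_ncard_of_injOn (w0 * ·) (fun w hw => ⟨mul_mem hw0 hw.1, ?_⟩)
        (fun _ _ _ _ => mul_left_cancel)
      have := cO k (k0 k hk) _ hw.2
      rwa [mul_assoc k, mul_assoc b, show w * k⁻¹ = k⁻¹ * w from hψ (by
        rw [map_mul, map_mul, map_inv, mL.1 (inv_mem hk) w hw.1]), ← mul_assoc, ← mul_assoc, e,
        mul_assoc] at this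
  have k3 : ∀ w ∈ U, w ≠ 1 → {b ∈ O | b * w ∈ O}.ncard = 264 := fun w hw w1 => by
    obtain ⟨n, hn, e⟩ := tr w (U1 hw) w1 (UO w hw)
    rw [← c2, ← e]
    refine Set.ncard_congr (fun b _ => n * b * n⁻¹) (fun b hb => ⟨cO n hn b hb.1, ?_⟩)
      (fun _ _ _ _ h => by simpa using h) fun b hb => ⟨n⁻¹ * b * n⁻¹⁻¹, ⟨cO _ (inv_mem hn) b hb.1, ?_⟩,
        by group⟩
    · rw [conj_mul]; exact cO n hn _ hb.2
    · have := cO _ (inv_mem hn) _ hb.2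
      rwa [show n⁻¹ * (b * (n * w * n⁻¹)) * n⁻¹⁻¹ = n⁻¹ * b * n⁻¹⁻¹ * w by group] at this
  have hzO := (hO z).2 ⟨hz, IsConj.refl z⟩
  haveI := Fintype.ofFinite M
  have key := sum_card_bipartiteAbove_eq_sum_card_bipartiteBelow (s := O.toFinset)
    (t := (U : Set M).toFinset) fun b w => b * w ∈ O
  rw [sum_const_nat (m := {w ∈ (U : Set M) | z * w ∈ O}.ncard) fun b hb => ?_,
    ← add_sum_erase _ _ (show (1 : M) ∈ _ by simp), sum_const_nat (m := 264) fun w hw => ?_,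
    card_erase_of_mem (by simp), ← Set.ncard_eq_toFinset_card', ← Set.ncard_eq_toFinset_card', c1,
    show bipartiteBelow (fun b w => b * w ∈ O) O.toFinset 1 = O.toFinset by ext; simp, ← Set.ncard_eq_toFinset_card', c1,
    ← Nat.card_coe_set_eq] at key
  · obtain ⟨k, hk⟩ := IsPGroup.iff_card.1 (show IsPGroup 2 U from fun x => ⟨1, Subtype.ext (by
      simpa [sq] using hE _ (U1 x.2))⟩)
    change _ = 759 + (Nat.card U - 1) * 264 at key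
    rw [hk, mul_comm _ 264] at key
    refine not_23 (hk ▸ (card_lt_of_lt (lt_of_le_of_ne U1 fun e => UO z (e ▸ hz) hzO)).trans_le cE)
      (fun e => U2 (by rwa [e, pow_zero, Subgroup.card_eq_one] at hk)) key
  · rw [← k3 w (by simpa using mem_of_mem_erase hw) (ne_of_mem_erase hw), ← Set.ncard_coe_finset]
    congr 1; ext; simp
  · rw [le_antisymm (k2 _ hzO b (by simpa using hb)) (k2 b (by simpa using hb) _ hzO),
      ← Set.ncard_coe_finset]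
    congr 1; ext; simp

/-- the class argument -/
theorem pure (hψ : Function.Injective ψ) {E : Subgroup M} {z v : M} {O B : Set M}
    (hE : ∀ e ∈ E, e * e = 1) (cE : Nat.card E ≤ 2048) (hz : z ∈ E) (z1 : z ≠ 1) (hv : v ∈ E) (v1 : v ≠ 1)
    (hO : ∀ b, b ∈ O ↔ b ∈ E ∧ IsConj z b) (c1 : O.ncard = 759) (c2 : {b ∈ O | b * v ∈ O}.ncard = 264)
    (tr : ∀ u ∈ E, u ≠ 1 → u ∉ O → ∃ n ∈ Nm(E), n * u * n⁻¹ = v) (hN : Cx(v) ≤ Nm(E))
    (h11 : 11 ∣ Nat.card Cx(v)) (h13 : ¬ 13 ∣ Nat.card Cx(v))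
    (cls : ∀ t, t * t = 1 → t ∈ B ∨ ∃ c, c * t * c⁻¹ ∈ E) (hB : ∀ t ∈ B, 13 ∣ Nat.card Cx(t))
    (hBz : ∀ t ∈ B, z * t = t * z → z * t ∈ B) (hC : Cx(ψ z) ≤ ψ.range)
    (n11 : ¬ 11 ∣ Nat.card Cx(ψ z)) (n13 : ¬ 13 ∣ Nat.card Cx(ψ z)) : Function.Surjective ψ := by
  haveI := Finite.of_injective ψ hψ
  have c0 : ∀ {a c : M}, c * a * c⁻¹ = 1 → a = 1 := fun h => by simpa using h
  have hC1 : ∀ g, g * ψ z * g⁻¹ ∈ ψ.range → g ∈ ψ.range := by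
    rintro g ⟨t, ht⟩
    have h1 := (card_Cx_cj (isConj_iff.2 ⟨g, ht.symm⟩)).symm ▸ card_Cx_dvd hψ t
    rcases cls t (hψ (by rw [map_mul, ht, conj_mul, ← map_mul, hE z hz]; simp)) with h | ⟨c, h⟩
    · exact absurd ((hB t h).trans h1) n13
    by_cases h2 : c * t * c⁻¹ ∈ O
    · obtain ⟨m, hm⟩ := isConj_iff.1 (((hO _).1 h2).2.trans (isConj_iff.2 ⟨c, rfl⟩).symm)
      have := hC (x := (ψ m)⁻¹ * g) (mem_Cx.2 (by
        rw [← hm, map_mul, map_mul, map_inv] at ht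
        rw [mul_assoc, mul_inv_eq_iff_eq_mul.1 ht.symm]; group))
      rwa [ψ.range.mul_mem_cancel_left (inv_mem ⟨m, rfl⟩)] at this
    · obtain ⟨n, -, e⟩ := tr _ h (fun e => z1 (hψ (by
        rw [c0 e, map_one] at ht; simpa using ht.symm))) h2
      exact absurd ((card_Cx_cj ((isConj_iff.2 ⟨c, rfl⟩).trans (isConj_iff.2 ⟨n, e⟩)) ▸ h11).trans h1) n11
  have hE' := fun u hu u1 => cent_E hψ hE cE hz hO c1 c2 tr hN (fun g b hb h => by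
    obtain ⟨m, rfl⟩ := isConj_iff.1 ((hO b).1 hb).2
    have := hC1 (g * ψ m) (by simpa [mul_assoc] using h)
    rwa [ψ.range.mul_mem_cancel_right ⟨m, rfl⟩] at this) (u := u) hu u1
  have v13 : ¬ 13 ∣ Nat.card Cx(ψ v) := by rwa [card_Cx_eq hψ (hE' v hv v1)]
  have nB : ∀ t, t * t = 1 → t ≠ 1 → t ∉ B → Cx(ψ t) ≤ ψ.range ∧ ¬ 13 ∣ Nat.card Cx(ψ t) :=
    fun t t2 t1 h => by
      obtain ⟨c, h1⟩ := (cls t t2).resolve_left h
      refine ⟨Cx_conj_le (hE' _ h1 fun e => t1 (c0 e)), ?_⟩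
      rw [card_Cx_cj (ψ.map_isConj (isConj_iff.2 ⟨c, rfl⟩))]
      by_cases h2 : c * t * c⁻¹ ∈ O
      · rwa [← card_Cx_cj (ψ.map_isConj ((hO _).1 h2).2)]
      · obtain ⟨n, -, e⟩ := tr _ h1 (fun e => t1 (c0 e)) h2
        rwa [card_Cx_cj (ψ.map_isConj (isConj_iff.2 ⟨n, e⟩))]
  intro g
  have s2 : g * ψ z * g⁻¹ * (g * ψ z * g⁻¹) = 1 := by rw [conj_mul, ← map_mul, hE z hz]; simp
  have t2 : ψ v * ψ v = 1 := by rw [← map_mul, hE v hv, map_one]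
  have gz := card_Cx_cj (isConj_iff.2 ⟨g, rfl⟩ : IsConj (ψ z) _)
  rcases dih_cases s2 t2 with ⟨j, e⟩ | ⟨m, m1, m2, m3, m4⟩
  · exact absurd (gz ▸ card_Cx_cj (isConj_iff.2 ⟨_, e.symm⟩) ▸ h11.trans (card_Cx_dvd hψ v)) n11
  have hw := dih_conj s2 t2 m
  generalize (ψ v * (g * ψ z * g⁻¹)) ^ m = w at m1 m2 m3 m4 hw
  obtain ⟨w0, rfl⟩ := hE' v hv v1 (mem_Cx.2 m4)
  obtain ⟨w1, e1⟩ := hC (x := g⁻¹ * ψ w0 * g) (mem_Cx.2 (by
    rw [← mul_left_inj g⁻¹, ← mul_right_inj g]; simpa [mul_assoc] using m3))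
  have e2 : g * ψ w1 * g⁻¹ = ψ w0 := by rw [e1]; group
  have a1 : ¬ 13 ∣ Nat.card Cx(ψ (z * w1)) := by
    rw [card_Cx_cj (isConj_iff.2 ⟨g, rfl⟩), map_mul, ← conj_mul, e2, ← m3]
    rcases hw with h | h <;> rw [← card_Cx_cj h]
    exacts [gz ▸ n13, v13]
  have a2 := (nB w1 (hψ (by rw [map_mul, e1, map_one]; simp [mul_assoc, ← mul_assoc (ψ w0), m2]))
    (fun e => m1 (by rw [← e2, e]; simp)) fun h => a1 ((hB _ (hBz _ h (hψ (by
      rw [map_mul, map_mul, e1, ← mul_left_inj g⁻¹, ← mul_right_inj g]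
      simpa [mul_assoc] using m3.symm)))).trans (card_Cx_dvd hψ _))).2
  rw [card_Cx_cj (isConj_iff.2 ⟨g, e2⟩)] at a2
  exact hC1 g ((nB w0 (hψ (by rw [map_mul, m2, map_one])) (fun e => m1 (by rw [e, map_one]))
    fun h => a2 ((hB _ h).trans (card_Cx_dvd hψ _))).1 (mem_Cx.2 m3.symm))

end CfH9.CoFin
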