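import Cfsg.Agent.H9.JV1
import Cfsg.Agent.H9.CoFin1
/-! The centralizer of a duad normalizes the even Golay cocode. -/
set_option autoImplicit false
set_option maxRecDepth 100000
open Subgroup CfH9 CfH4.Gol Cfsg
namespace CfH9.JV
open CfH3.J4 CoFin

theorem supp16 {π : Equiv.Perm GolayPt} (h : π ∈ M24) (h2 : π * π = 1) (h1 : π ≠ 1) {p : GolayPt} (hp : π p = p) :
    π.support.card = 16 := by
  obtain ⟨σ, -, e | e⟩ := (inv24 h h2).resolve_left h1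
  · rw [← Equiv.Perm.card_support_conj (σ := σ), e]; decide +kernel
  · exact absurd (show CfH6.M24I.pX (σ p) = σ p by simp [← e, hp])
      ((show ∀ q, CfH6.M24I.pX q ≠ q by decide +kernel) _)

/-- the `2`-rank of `M₂₃` is at most four -/
theorem rk4 {E : Subgroup (Equiv.Perm GolayPt)} (hE : E ≤ M24) (h2 : ∀ x ∈ E, x * x = 1) {p : GolayPt}
    (hp : ∀ x ∈ E, x p = p) : Nat.card E ≤ 16 := by
  classical
  haveI := Fintype.ofFinite (Quotient (MulAction.orbitRel E GolayPt))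
  have h := MulAction.sum_card_fixedBy_eq_card_orbits_mul_card_group E GolayPt
  have f : ∀ x : E, Fintype.card (MulAction.fixedBy GolayPt x) = 8 + if x = 1 then 16 else 0 := fun x => by
    rw [Fintype.card_of_subtype x.1.supportᶜ (fun q => by simp [Subgroup.smul_def]), Finset.card_compl]
    split_ifs with e
    · rw [e]; simp
    · rw [supp16 (hE x.2) (h2 _ x.2) (fun e' => e (Subtype.ext e')) (hp _ x.2)]; rfl
  simp only [f, Finset.sum_add_distrib, Finset.sum_const, Finset.sum_ite_eq', Finset.mem_univ, if_true,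
    Finset.card_univ, smul_eq_mul] at h
  rw [Nat.card_eq_fintype_card]
  exact Nat.le_of_dvd (by decide) ((Nat.dvd_add_right (dvd_mul_right _ 8)).1 (h ▸ dvd_mul_left _ _))

def ch (u : Wd) (c : ℕ) : ZMod 2 := ∑ k : Fin 12, u (pt k) * chi k c

theorem ch_xor (u : Wd) (a b : ℕ) : ch u (a ^^^ b) = ch u a + ch u b := by
  simp only [ch, chi_xor, mul_add, Finset.sum_add_distrib]

theorem ch_dd {u : Wd} (hu : u ∈ golayCode) (a b : GolayPt) : ch u (dd a b) = u a + u b := by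
  rw [CfH6.Lee.code_eq hu a, CfH6.Lee.code_eq hu b]
  simp only [ch, chi_dd, mul_add, Finset.sum_add_distrib]

variable {G : Type*} [Group G] [Finite G] {φ : ℕ → G} {n : G} {π : Equiv.Perm GolayPt}

theorem indep (D : VD φ) {K : Subgroup G} {k : ℕ} {x y : Fin k → GolayPt} {u : Fin k → Wd}
    (hu : ∀ j, u j ∈ golayCode) (h : ∀ i j, u j (x i) + u j (y i) = if j = i then 1 else 0)
    (hK : ∀ i, φ (dd (x i) (y i)) ∈ K) : 2 ^ k ≤ Nat.card K := by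
  let R : AddSubmonoid (Fin k → ZMod 2) :=
    { carrier := {w | ∃ c < 2048, φ c ∈ K ∧ ∀ j, w j = ch (u j) c}
      add_mem' := by
        rintro _ _ ⟨a, ha, a1, a2⟩ ⟨b, hb, b1, b2⟩
        exact ⟨_, xor_lt ha hb, D.mul ha hb ▸ mul_mem a1 b1, fun j => by rw [ch_xor, Pi.add_apply, a2, b2]⟩
      zero_mem' := ⟨0, by omega, D.one ▸ one_mem _, fun j => by
        rw [← dd_self none, ch_dd (hu j), CharTwo.add_self_eq_zero]; rfl⟩ }
  have all : ∀ w, w ∈ R := fun w => Finset.univ_sum_single w ▸ sum_mem fun i _ => by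
    rcases CfH6.Lee.val01 (w i) with ⟨e, -⟩ | ⟨e, -⟩
    · rw [e, Pi.single_zero]; exact zero_mem _
    · exact ⟨_, dd_lt _ _, hK i, fun j => by rw [ch_dd (hu j), h, e, Pi.single_apply]⟩
  choose c c1 c2 c3 using all
  have := Nat.card_le_card_of_injective (fun w => (⟨_, c2 w⟩ : K)) fun w w' e => funext fun j => by
    rw [c3 w, c3 w', D.eq (c1 w) (c1 w') (congrArg Subtype.val e)]
  rwa [Nat.card_fun, Nat.card_zmod, Nat.card_fin] at this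

theorem trans (D : VD φ) (h : Ind φ n π) {σ ρ : Equiv.Perm GolayPt} (hσ : σ ∈ M24) (e : σ * π * σ⁻¹ = ρ) (k : ℕ)
    (x y w : List ℕ) (hw : ∀ i : Fin k, cw (w.getD i 0 % 4096) = w.getD i 0 ∧
      (∀ j : Fin k, wv (w.getD j 0) (pt (x.getD i 0)) + wv (w.getD j 0) (pt (y.getD i 0)) = if j = i then 1 else 0) ∧
      ((ρ (pt (x.getD i 0)) = pt (x.getD i 0) ∧ ρ (pt (y.getD i 0)) = pt (y.getD i 0)) ∨
        (ρ (pt (x.getD i 0)) = pt (y.getD i 0) ∧ ρ (pt (y.getD i 0)) = pt (x.getD i 0)))) :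
    2 ^ k ≤ Nat.card (D.V ⊓ Cx(n) : Subgroup G) := by
  refine indep D (x := fun i => σ⁻¹ (pt (x.getD i 0))) (y := fun i => σ⁻¹ (pt (y.getD i 0)))
    (u := fun j => wv (w.getD j 0) ∘ σ) (fun j => comp_mem hσ (mem_of_cw (hw j).1))
    (fun i j => by simpa using (hw i).2.1 j) fun i => ⟨D.mem (dd_lt _ _), mem_Cx.2 (mul_inv_eq_iff_eq_mul.1 ?_).symm⟩
  have e' : ∀ p, π (σ⁻¹ p) = σ⁻¹ (ρ p) := fun p => by simp [← e]
  rw [h, e', e']
  rcases (hw i).2.2 with ⟨a, b⟩ | ⟨a, b⟩ <;> rw [a, b]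
  rw [dd_comm]

/-- fixed points of involutions -/
theorem big (D : VD φ) (h : Ind φ n π) (hπ : π ∈ M24) (h2 : n * n = 1) :
    16 ≤ Nat.card (D.V ⊓ Cx(n) : Subgroup G) ∧ ∀ p, π p = p → 128 ≤ Nat.card (D.V ⊓ Cx(n) : Subgroup G) := by
  rcases inv24 hπ ((h2 ▸ h.mul h).uniq D Ind.one) with e | ⟨σ, hσ, e | e⟩
  · have := trans D h (one_mem _) (show 1 * π * 1⁻¹ = 1 by simp [e]) 7 [0, 2, 4, 4, 4, 4, 4] [1, 3, 5, 7, 10, 14, 17]
      [255921, 413111, 458192, 72588, 277580, 236787, 357820] (by decide +kernel)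
    exact ⟨by omega, fun _ _ => this⟩
  · have := trans D h hσ e 7 [0, 2, 4, 4, 4, 4, 4] [1, 3, 5, 7, 10, 14, 17]
      [255921, 413111, 458192, 72588, 277580, 236787, 357820] (by decide +kernel)
    exact ⟨by omega, fun _ _ => this⟩
  · exact ⟨trans D h hσ e 4 [0, 1, 2, 3] [23, 22, 11, 15] [95313, 78514, 84464, 72588] (by decide +kernel),
      fun p hp => absurd (show CfH6.M24I.pX (σ p) = σ p by simp [← e, hp])
        ((show ∀ q, CfH6.M24I.pX q ≠ q by decide +kernel) _)⟩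

/-- the elements that fix the point `a` -/
def St (φ : ℕ → G) (a : GolayPt) : Subgroup G where
  carrier := {s | ∃ π ∈ M24, Ind φ s π ∧ π a = a}
  one_mem' := ⟨1, one_mem _, Ind.one, rfl⟩
  mul_mem' := by
    rintro _ _ ⟨π, h1, h2, h3⟩ ⟨ρ, k1, k2, k3⟩
    exact ⟨_, mul_mem h1 k1, h2.mul k2, by rw [Equiv.Perm.mul_apply, k3, h3]⟩
  inv_mem' := by
    rintro _ ⟨π, h1, h2, h3⟩
    exact ⟨_, inv_mem h1, h2.inv, π.symm_apply_eq.2 h3.symm⟩

theorem card_St (D : VD φ) (hc : Cz(D.V) ≤ D.V) {a : GolayPt} {X U : Subgroup G} (hX : X ≤ St φ a)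
    (h2 : ∀ s ∈ X, s * s = 1) (hU : X ⊓ D.V ≤ U) : Nat.card X ≤ Nat.card U * 16 := by
  choose f f1 f2 f3 using fun s : X => hX s.2
  let τ : X →* Equiv.Perm GolayPt := MonoidHom.mk' f fun s t => (f2 _).uniq D ((f2 s).mul (f2 t))
  rw [← τ.ker.card_mul_index, index_ker]
  refine Nat.mul_le_mul ?_ (rk4 (p := a) ?_ ?_ ?_)
  · rw [← card_map_subtype]
    refine card_le_of_le ?_
    rintro _ ⟨k, hk, rfl⟩
    have := f2 k
    rw [show f k = 1 from hk] at this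
    exact hU ⟨k.2, hc (this.cen D)⟩
  · rintro _ ⟨s, rfl⟩
    exact f1 s
  · rintro _ ⟨s, rfl⟩
    rw [← map_mul, show s * s = 1 from Subtype.ext (h2 s s.2), map_one]
  · rintro _ ⟨s, rfl⟩
    exact f3 s

theorem card_two {X S : Subgroup G} (h : ∀ s ∈ X, ∀ t ∈ X, s ∉ S → t ∉ S → s * t ∈ S) :
    Nat.card X ≤ 2 * Nat.card (X ⊓ S : Subgroup G) := by
  rw [← card_mul_relIndex (inf_le_left : X ⊓ S ≤ X), mul_comm, inf_relIndex_left]
  refine Nat.mul_le_mul_right _ (Nat.le_of_dvd two_pos ?_)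
  by_cases e : X ≤ S
  · rw [relIndex_eq_one.2 e]; exact one_dvd _
  · obtain ⟨t, h1, h2⟩ := SetLike.not_le_iff_exists.1 e
    rw [relIndex_eq_two_iff_exists_notMem_and.2 ⟨t, h1, h2, fun s hs => or_iff_not_imp_right.2 fun n => h s hs t h1 n h2⟩]

end CfH9.JV

namespace CfH3.J4
open CfH9.JV CoFin

variable {G : Type*} [Group G] [Finite G] {φ : ℕ → G}

set_option linter.unusedVariables false in
theorem cenD (D : VD φ) (hc : Cz(D.V) ≤ D.V) (hw : ∀ n ∈ Nm(D.V), ∃ π ∈ M24, Ind φ n π)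
    (F0 : ∀ g, (∀ v ∈ D.V, g * v * g⁻¹ ∈ Nm(D.V)) → g ∈ Nm(D.V))
    (hz : ∀ b < 2048, b ≠ 0 → isD b = false → ∀ u < 2048, isD u = true → Cx(φ b) ⊓ Cx(φ u) ≤ Nm(D.V))
    (nf : ∀ b < 2048, ∀ u < 2048, isD b = false → isD u = true → ¬ IsConj (φ b) (φ u)) :
    ∀ u < 2048, isD u = true → Cx(φ u) ≤ Nm(D.V) := fun u hu du => by
  obtain ⟨a, b, ab, rfl⟩ := isD_ex u hu du
  by_contra hn
  obtain ⟨U, ⟨U1, U3⟩, U2, hU⟩ := exists_maximal_ge (fun U : Subgroup G => U ≤ D.V ∧ ¬ Cz(U) ≤ Nm(D.V))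
    (A := zpowers (φ (dd a b))) ⟨zpowers_le.2 (D.mem hu), by rwa [Cz_zpowers]⟩
  replace U2 := zpowers_le.1 U2
  have e2 : ∀ v ∈ D.V, v * v = 1 := by
    rintro _ ⟨c, h, rfl⟩
    exact D.sq h
  have VL : D.V ≤ Cz(U) := D.le_Cz.trans (Cz_anti U1)
  have mx : ∀ e ∈ D.V, e ∉ U → ∀ x ∈ Cz(U), x * e = e * x → x ∈ Nm(D.V) := fun e he eU x hx h => by
    by_contra n
    exact eU (hU (U ⊔ zpowers e) ⟨sup_le U1 (zpowers_le.2 he), fun l => n (l (by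
      rw [Cz_sup, Cz_zpowers]; exact ⟨hx, mem_Cx.2 h⟩))⟩ le_sup_left ▸ mem_sup_right (mem_zpowers e))
  have nU : ∀ g ∈ Cz(U), ∀ e, e ∉ U → g * e * g⁻¹ ∉ U := fun g hg e he h => he (by
    rw [show e = g⁻¹ * (g * e * g⁻¹) * g⁻¹⁻¹ by group, conj_eq_of_mem_centralizer (inv_mem hg) h]; exact h)
  have int : ∀ g ∈ Cz(U), ∀ e ∈ D.V, e ∉ U → g * e * g⁻¹ ∈ D.V → g ∈ Nm(D.V) := fun g hg e he eU h =>
    F0 g fun v hv => mx _ h (nU g hg e eU) _ (mul_mem (mul_mem hg (VL hv)) (inv_mem hg)) (by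
      rw [conj_mul, conj_mul, D.comm hv he])
  have dU : ∀ c < 2048, φ c ∈ U → c ≠ 0 → isD c = true := fun c h1 h2 h3 => by
    by_contra n
    exact U3 ((le_inf (Cz_le_Cx h2) (Cz_le_Cx U2)).trans (hz c h1 h3 (by simpa using n) _ hu du))
  have adj : ∀ {x y z w}, x ≠ y → z ≠ w → φ (dd x y) ∈ U → φ (dd z w) ∈ U → x = z ∨ x = w ∨ y = z ∨ y = w :=
    fun {x y z w} h1 h2 h3 h4 => tet h1 h2 (or_iff_not_imp_right.2
      (dU _ (xor_lt (dd_lt _ _) (dd_lt _ _)) (D.mul (dd_lt _ _) (dd_lt _ _) ▸ mul_mem h3 h4)))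
  have exd : ∀ w ∈ U, w ≠ 1 → ∃ x y, x ≠ y ∧ φ (dd x y) = w := fun w h1 h2 => by
    obtain ⟨c, h3, rfl⟩ := U1 h1
    obtain ⟨x, y, h4, rfl⟩ := isD_ex c h3 (dU c h3 h1 fun e => h2 (e ▸ D.one))
    exact ⟨x, y, h4, rfl⟩
  have tri : ∀ x y z, φ (dd x y) * φ (dd x z) = φ (dd y z) := fun x y z => by
    rw [← D.mul (dd_lt _ _) (dd_lt _ _), dd_xor]
  obtain ⟨c, str, hca⟩ : ∃ c, (∀ w ∈ U, w = 1 ∨ w = φ (dd a b) ∨ w = φ (dd a c) ∨ w = φ (dd b c)) ∧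
      ((∀ w ∈ U, w = 1 ∨ w = φ (dd a b)) ∨ (c ≠ a ∧ c ≠ b ∧ φ (dd a c) ∈ U)) := by
    by_cases h : ∀ w ∈ U, w = 1 ∨ w = φ (dd a b)
    · exact ⟨a, fun w hw => (h w hw).imp_right Or.inl, Or.inl h⟩
    push Not at h
    obtain ⟨w, w1, w2, w3⟩ := h
    obtain ⟨c, c1, c2, c3⟩ : ∃ c, c ≠ a ∧ c ≠ b ∧ φ (dd a c) ∈ U := by
      obtain ⟨x, y, xy, rfl⟩ := exd w w1 w2
      have k : ∀ {y}, b ≠ y → φ (dd b y) ∈ U → φ (dd b y) ≠ φ (dd a b) → ∃ c, c ≠ a ∧ c ≠ b ∧ φ (dd a c) ∈ U :=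
        fun {y} h1 h2 h3 => ⟨y, fun e => h3 (by rw [e, dd_comm]), h1.symm,
          tri b a y ▸ mul_mem (dd_comm a b ▸ U2) h2⟩
      rcases adj xy ab w1 U2 with rfl | rfl | rfl | rfl
      · exact ⟨y, xy.symm, fun e => w3 (by rw [e]), w1⟩
      · exact k xy w1 w3
      · exact ⟨x, xy, fun e => w3 (by rw [e, dd_comm]), dd_comm x y ▸ w1⟩
      · exact k xy.symm (dd_comm x y ▸ w1) (dd_comm x y ▸ w3)
    refine ⟨c, fun w hw => or_iff_not_imp_left.2 fun w1 => ?_, Or.inr ⟨c1, c2, c3⟩⟩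
    obtain ⟨x, y, xy, rfl⟩ := exd w hw w1
    have h1 := adj xy ab hw U2
    have h2 := adj xy c1.symm hw c3
    have h3 := adj xy c2.symm hw (tri a b c ▸ mul_mem U2 c3)
    have h4 : (x = a ∧ y = b ∨ y = a ∧ x = b) ∨ (x = a ∧ y = c ∨ y = a ∧ x = c) ∨
        (x = b ∧ y = c ∨ y = b ∧ x = c) := by grind
    rcases h4 with (⟨rfl, rfl⟩ | ⟨rfl, rfl⟩) | (⟨rfl, rfl⟩ | ⟨rfl, rfl⟩) | (⟨rfl, rfl⟩ | ⟨rfl, rfl⟩) <;>
      simp [dd_comm x y]
  have c4 : Nat.card U ≤ 4 := (Set.ncard_le_ncard (show (U : Set G) ⊆ {1, φ (dd a b), φ (dd a c), φ (dd b c)} from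
    str)).trans ((Set.ncard_insert_le _ _).trans (Nat.succ_le_succ ((Set.ncard_insert_le _ _).trans
      (Nat.succ_le_succ ((Set.ncard_insert_le _ _).trans (by rw [Set.ncard_singleton]))))))
  have fx : ∀ s ∈ Cz(U), ∀ π, Ind φ s π → ∀ y, a ≠ y → φ (dd a y) ∈ U → π a = a ∨ π a = y :=
    fun s hs π h y hy hU => (dd_inj (π.injective.ne hy) (D.eq (dd_lt _ _) (dd_lt _ _)
      ((h a y).symm.trans (conj_eq_of_mem_centralizer hs hU)))).imp And.left And.left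
  have bnd : ∀ X : Subgroup G, X ≤ Nm(D.V) → X ≤ Cz(U) → (∀ s ∈ X, s * s = 1) → X ⊓ D.V ≤ U →
      Nat.card X ≤ 64 ∧ (16 ≤ Nat.card X → ∃ s ∈ X, s ∉ U ∧ s ∈ St φ a) := fun X h1 h2 h3 h4 => by
    have k1 : Nat.card X ≤ 2 * Nat.card (X ⊓ St φ a : Subgroup G) := card_two fun s hs t ht n1 n2 => by
      obtain ⟨π, p1, p2⟩ := hw s (h1 hs)
      obtain ⟨ρ, r1, r2⟩ := hw t (h1 ht)
      have e1 := (fx s (h2 hs) π p2 b ab U2).resolve_left fun e => n1 ⟨π, p1, p2, e⟩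
      have e2 := (fx t (h2 ht) ρ r2 b ab U2).resolve_left fun e => n2 ⟨ρ, r1, r2, e⟩
      refine ⟨_, mul_mem p1 r1, p2.mul r2, ?_⟩
      rw [Equiv.Perm.mul_apply, e2, ← e1, ← Equiv.Perm.mul_apply, (p2.mul p2).uniq D (h3 s hs ▸ Ind.one)]; rfl
    refine ⟨?_, fun h => ?_⟩
    · rcases hca with h | ⟨c1, c2, c3⟩
      · have := card_St D hc (X := X ⊓ St φ a) inf_le_right (fun s hs => h3 s hs.1)
          ((inf_le_inf_right _ inf_le_left).trans h4)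
        have c2 : Nat.card U ≤ 2 := (Set.ncard_le_ncard (show (U : Set G) ⊆ {1, φ (dd a b)} from h)).trans
          ((Set.ncard_insert_le _ _).trans (by simp))
        omega
      · have := card_St D hc (a := a) (fun s hs => by
          obtain ⟨π, p1, p2⟩ := hw s (h1 hs)
          refine ⟨π, p1, p2, ?_⟩
          by_contra n
          exact c2 (((fx s (h2 hs) π p2 c c1.symm c3).resolve_left n).symm.trans
            ((fx s (h2 hs) π p2 b ab U2).resolve_left n))) h3 h4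
        omega
    · by_contra n
      push Not at n
      have := card_le_of_le (show X ⊓ St φ a ≤ U from fun s hs => by_contra fun e => n s hs.1 e hs.2)
      omega
  have aux : ∀ g ∈ Cz(U), g ∉ Nm(D.V) → ∀ x ∈ D.V, x ∉ U →
      Nat.card (D.V ⊓ Cx(g * x * g⁻¹) : Subgroup G) ≤ 64 ∧ (16 ≤ Nat.card (D.V ⊓ Cx(g * x * g⁻¹) : Subgroup G) →
        ∃ s ∈ D.V, s ∉ U ∧ g⁻¹ * s * g⁻¹⁻¹ ∈ St φ a) := fun g hg gN x hx xU => by
    have m : ∀ s ∈ cj g⁻¹ (D.V ⊓ Cx(g * x * g⁻¹)), g * s * g⁻¹ ∈ D.V ∧ s * x = x * s := fun s hs => by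
      have := mem_cj.1 hs
      rw [inv_inv] at this
      exact ⟨this.1, by simpa [conj_mul] using mem_Cx.1 this.2⟩
    have l : cj g⁻¹ (D.V ⊓ Cx(g * x * g⁻¹)) ≤ Cz(U) := fun s hs => by
      have := VL (m s hs).1
      rwa [mul_mem_cancel_right (inv_mem hg), mul_mem_cancel_left hg] at this
    obtain ⟨k1, k2⟩ := bnd _ (fun s hs => mx x hx xU s (l hs) (m s hs).2) l
      (fun s hs => by simpa [conj_mul] using e2 _ (m s hs).1)
      fun s hs => by_contra fun n => gN (int g hg s hs.2 n (m s hs.1).1)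
    rw [card_cj] at k1 k2
    refine ⟨k1, fun h => ?_⟩
    obtain ⟨s, s1, s2, s3⟩ := k2 h
    exact ⟨_, (m s s1).1, nU g hg s s2, by simpa [mul_assoc] using s3⟩
  have sc : ∀ g ∈ Cz(U), ∀ x ∈ D.V, x ∉ U → g * x * g⁻¹ ∈ Nm(D.V) → g ∈ Nm(D.V) := fun g hg x hx xU h => by
    by_contra gN
    obtain ⟨π, p1, p2⟩ := hw _ h
    obtain ⟨s, s1, s2, ρ, r1, r2, r3⟩ := (aux g hg gN x hx xU).2 (big D p2 p1 (by rw [conj_mul, e2 x hx]; simp)).1
    have := (big D r2 r1 (by rw [conj_mul, e2 s s1]; simp)).2 a r3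
    have := (aux g⁻¹ (inv_mem hg) (fun e => gN (inv_mem_iff.1 e)) s s1 s2).1
    omega
  obtain ⟨g, g1, g2⟩ := SetLike.not_le_iff_exists.1 U3
  have key : ∀ r ∈ D.V, r ∉ U → ∀ s ∈ D.V, s ∉ U → ∃ k ∈ Cz(U), ∃ w ∈ U, k * r * k⁻¹ = s * w := by
    intro r hr rU s hs sU
    have s2 := e2 s hs
    have t2 : g * r * g⁻¹ * (g * r * g⁻¹) = 1 := by rw [conj_mul, e2 r hr]; simp
    have tL : g * r * g⁻¹ ∈ Cz(U) := mul_mem (mul_mem g1 (VL hr)) (inv_mem g1)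
    have xL := pow_mem (mul_mem tL (VL hs))
    have fin : ∀ h ∈ Cz(U), ∀ w ∈ U, g * r * g⁻¹ = h * (s * w) * h⁻¹ →
        ∃ k ∈ Cz(U), ∃ w ∈ U, k * r * k⁻¹ = s * w := fun h hh w hw e => ⟨_, mul_mem (inv_mem hh) g1, w, hw, by
      rw [mul_inv_rev, inv_inv, mul_assoc h⁻¹, mul_assoc h⁻¹, ← mul_assoc (g * r), e]; group⟩
    have inV : ∀ i : ℕ, (g * r * g⁻¹ * s) ^ i ∈ Nm(D.V) → (g * r * g⁻¹ * s) ^ i ∈ D.V := fun i hi => by
      have a : ∀ h ∈ Cz(U), ∀ c ∈ D.V, c ∉ U → h * c * h⁻¹ = (g * r * g⁻¹ * s) ^ i * s →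
          (g * r * g⁻¹ * s) ^ i ∈ D.V := fun h hh c hc cU e => (mul_mem_cancel_right hs).1
        (e ▸ conj_mem_of_mem_normalizer (sc h hh c hc cU (e ▸ mul_mem hi (le_normalizer hs))) hc)
      rcases Nat.even_or_odd' i with ⟨j, rfl | rfl⟩
      · exact a _ (xL j) s hs sU (dih_even s2 t2 j)
      · exact a _ (mul_mem (xL j) g1) r hr rU (by rw [← dih_odd s2 t2 j]; group)
    rcases dih_cases s2 t2 with ⟨j, e⟩ | ⟨m, m1, m2, m3, m4⟩
    · exact fin _ (xL j) 1 (one_mem _) (by rwa [mul_one])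
    have wV := inV m (mx s hs sU _ (xL m) m3)
    have wU : (g * r * g⁻¹ * s) ^ m ∈ U := by_contra fun n => g2 (sc g g1 r hr rU (mx _ wV n _ tL m4.symm))
    rcases Nat.even_or_odd' m with ⟨j, rfl | rfl⟩
    · exact absurd (by rw [two_mul, pow_add]; exact e2 _ (inV j (int _ (xL j) s hs sU
        (dih_even s2 t2 j ▸ mul_mem wV hs)))) m1
    · exact fin _ (xL (j + 1)) _ wU (dih_last s2 t2 m2 m3)
  obtain ⟨d, e, de, hd, he⟩ := (show ∀ a b c : GolayPt, ∃ d ∈ [pt 0, pt 1, pt 2, pt 3], ∃ e ∈ [pt 4, pt 5, pt 6, pt 7],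
    d ≠ e ∧ (d ≠ a ∧ d ≠ b ∧ d ≠ c) ∧ e ≠ a ∧ e ≠ b ∧ e ≠ c by decide +kernel) a b c |>.imp fun _ h =>
      h.2.imp fun _ h => h.2
  have out : ∀ x, x ≠ d → φ (dd x d) ∉ U := fun x hx h => by
    have k : ∀ {p q}, d ≠ p → d ≠ q → φ (dd x d) ≠ φ (dd p q) := fun h1 h2 e =>
      (dd_inj hx (D.eq (dd_lt _ _) (dd_lt _ _) e)).elim (fun e => h2 e.2) fun e => h1 e.2
    rcases str _ h with e | e | e | e
    exacts [hx (dd_zero (D.inj (dd_lt _ _) e)), k hd.1 hd.2.1 e, k hd.1 hd.2.2 e, k hd.2.1 hd.2.2 e]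
  have only : ∀ w ∈ U, ∀ x y, x ≠ y → φ (dd x y) = φ (dd e d) * w → w = 1 := fun w hw x y xy h => by
    have k : ∀ {p q}, d ≠ p → d ≠ q → e ≠ p → e ≠ q → w = φ (dd p q) → w = 1 := fun {p q} h1 h2 h3 h4 h5 => by
      by_cases pq : p = q
      · rw [h5, pq, dd_self, D.one]
      rw [h5, ← D.mul (dd_lt _ _) (dd_lt _ _)] at h
      have := tet de.symm pq (Or.inl (D.eq (dd_lt _ _) (xor_lt (dd_lt _ _) (dd_lt _ _)) h ▸ isD_dd x y xy))
      tauto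
    rcases str w hw with e | e | e | e
    exacts [e, k hd.1 hd.2.1 he.1 he.2.1 e, k hd.1 hd.2.2 he.1 he.2.2 e, k hd.2.1 hd.2.2 he.2.1 he.2.2 e]
  obtain ⟨k, k1, w, w1, h⟩ := key _ (D.mem (dd_lt a d)) (out a hd.1.symm) _ (D.mem (dd_lt e d)) (out e de.symm)
  obtain ⟨π, -, p⟩ := hw k (int k k1 _ (D.mem (dd_lt a d)) (out a hd.1.symm)
    (h ▸ mul_mem (D.mem (dd_lt e d)) (U1 w1)))
  have h1 := only w w1 _ _ (π.injective.ne hd.1.symm) ((p a d).symm.trans h)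
  have h2 := only _ U2 _ _ (π.injective.ne hd.2.1) (by
    rw [← p, ← tri a, ← conj_mul, h, h1, mul_one, conj_eq_of_mem_centralizer k1 U2])
  exact ab (dd_zero (D.inj hu h2))

end CfH3.J4
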