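import Cfsg.Agent.H9.P5a
import Cfsg.Agent.H8.PA4
import Cfsg.Agent.OD.Helper8xdeca89cf1b
import Cfsg.Agent.OD.Helper8xf0e503a5e1
import Cfsg.Agent.OD.Helper9x54635c85e0
/-! The local data of a simple group of order `443520` from its block data. -/
set_option autoImplicit false
open Cfsg CfH4 CfH4.GA CfH9 CfH4.D1 CfH4.PA Subgroup Finset
open scoped ComplexConjugate
namespace CfH9.PA
universe u
section num
variable {ι : Type*} [Fintype ι]

theorem sum_list {M : Type*} [AddCommMonoid M] [DecidableEq ι] {L : List ι} (h : L.Nodup) (F : ι → M) :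
    ∑ i, F i = (L.map F).sum + ∑ i ∈ L.toFinsetᶜ, F i := by
  rw [← List.sum_toFinset _ h, sum_add_sum_compl]

theorem enum (d : ι → ℕ) (u5 u7 u11 : ι → ℤ × ℤ) {X : List ι} {k : Bool} (nd : X.Nodup)
    (h0 : ∀ i ∉ X, u5 i = 0 ∧ u7 i = 0 ∧ u11 i = 0) (hp : (X.map fun i => (d i, [u5 i, u7 i, u11 i])).Perm (LM k))
    (z : ∀ i ∉ X, 385 ∣ d i) (pos : ∀ i, 0 < d i) (sq : ∑ i, d i * d i + 1 = 443520) :
    ∃ L : List ι, (L.map fun i => (d i, [u5 i, u7 i, u11 i])) = LM true ++ [(385, [0, 0, 0])] ∧ (∀ i, i ∈ L) ∧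
      ∀ F : ι → ℤ, ∑ i, F i = (L.map F).sum := by
  classical
  obtain ⟨l, h1, h2⟩ := perm_map _ (LM true) X (hp.trans (by cases k <;> decide))
  have nl := h1.nodup_iff.2 nd
  have e1 : (l.map fun i => d i * d i).sum = 295294 := by
    have := congrArg (fun t : List (ℕ × List (ℤ × ℤ)) => (t.map fun a => a.1 * a.1).sum) h2
    simp only [List.map_map] at this
    exact this.trans (by decide +kernel)
  obtain ⟨a, ha⟩ : ∃ a, a ∉ l := by
    by_contra c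
    push Not at c
    rw [sum_list nl, e1, show l.toFinsetᶜ = ∅ from by ext i; simp [c]] at sq
    simp at sq
  have na : (l ++ [a]).Nodup := List.nodup_append.2 ⟨nl, List.nodup_singleton _, fun b hb c hc e => by
    rw [List.mem_singleton.1 hc] at e; exact ha (e ▸ hb)⟩
  have ax : a ∉ X := fun c => ha (h1.mem_iff.2 c)
  rw [sum_list na, List.map_append, List.sum_append, e1, List.map_singleton, List.sum_singleton] at sq
  have l1 := Nat.le_of_dvd (pos a) (z a ax)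
  have l2 : d a = 385 := le_antisymm (Nat.mul_self_le_mul_self_iff.1 (by omega)) l1
  have l3 : (l ++ [a]).toFinsetᶜ = ∅ := by
    by_contra c
    obtain ⟨b, hb⟩ := nonempty_iff_ne_empty.2 c
    have := single_le_sum (f := fun i => d i * d i) (fun _ _ => Nat.zero_le _) hb
    have := Nat.mul_pos (pos b) (pos b)
    rw [l2] at sq
    omega
  refine ⟨l ++ [a], by rw [List.map_append, h2, List.map_singleton, l2, (h0 a ax).1, (h0 a ax).2.1, (h0 a ax).2.2],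
    fun i => ?_, fun F => by rw [sum_list na, l3, sum_empty, add_zero]⟩
  by_contra c
  exact notMem_empty i (l3 ▸ mem_compl.2 (mt List.mem_toFinset.1 c))

structure CV (d : ι → ℕ) (u5 u7 u11 : ι → ℤ × ℤ) (v : ι → ℤ) (n : ℕ) : Prop where
  a1 : ∑ i, (u11 i).1 * v i = 1
  a2 : ∑ i, (u11 i).2 * v i = 1
  b1 : ∑ i, (u7 i).1 * v i = 1
  b2 : ∑ i, (u7 i).2 * v i = 1
  c1 : ∑ i, (u5 i).1 * v i = 1
  o1 : ∑ i, d i * v i = -1
  sq : ∑ i, v i * v i + 1 = n
  dv : n ∣ 1152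

def C2 (d : ι → ℕ) (u7 u11 : ι → ℤ × ℤ) (v : ι → ℤ) : Prop := (∀ i, 4 ∣ (d i : ℤ) - v i) ∧
  (443520 : ℤ) = ∑ i, (u7 i).1 * v i ^ 2 * (443520 / d i : ℕ) ∧ (443520 : ℤ) = ∑ i, (u11 i).1 * v i ^ 2 * (443520 / d i : ℕ)
def C3 (d : ι → ℕ) (s v : ι → ℤ) : Prop := (∀ i, (3 ∣ d i → 3 ∣ v i) ∧ (9 ∣ d i → 9 ∣ v i)) ∧ ∑ i, s i * v i = -1

theorem num {d : ι → ℕ} {u5 u7 u11 : ι → ℤ × ℤ} {L : List ι}
    (h : (L.map fun i => (d i, [u5 i, u7 i, u11 i])) = LM true ++ [(385, [0, 0, 0])]) (all : ∀ i, i ∈ L)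
    (S : ∀ F : ι → ℤ, ∑ i, F i = (L.map F).sum) {s : ι → ℤ} {c : ℕ} (s1 : CV d u5 u7 u11 s c) (s2 : C2 d u7 u11 s) :
    c = 384 ∧ (∀ v n, CV d u5 u7 u11 v n → C2 d u7 u11 v → v = s) ∧
    ∀ v n, CV d u5 u7 u11 v n → C3 d s v → (n = 9 ∨ n = 36) ∧
      ∀ v' n', CV d u5 u7 u11 v' n' → C3 d s v' → ∑ i, v i * v' i ≠ -1 := by
  have hl : L.length = 11 := by simpa [LM] using congrArg List.length h
  match L, hl with
  | [a1, a2, a3, a4, a5, a6, a7, a8, a9, a10, a11], _ =>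
  simp only [List.map_cons, List.map_nil, LM, List.cons_append, List.nil_append, List.cons.injEq, Prod.mk.injEq, if_true,
    and_true, List.sum_cons, List.sum_nil, add_zero] at h S
  obtain ⟨⟨d1, x1, y1, z1⟩, ⟨d2, x2, y2, z2⟩, ⟨d3, x3, y3, z3⟩, ⟨d4, x4, y4, z4⟩, ⟨d5, x5, y5, z5⟩, ⟨d6, x6, y6, z6⟩,
    ⟨d7, x7, y7, z7⟩, ⟨d8, x8, y8, z8⟩, ⟨d9, x9, y9, z9⟩, ⟨d10, x10, y10, z10⟩, d11, x11, y11, z11⟩ := h
  have col : ∀ v n, CV d u5 u7 u11 v n →
      Col (v a1) (v a2) (v a3) (v a4) (v a5) (v a6) (v a7) (v a8) (v a9) (v a10) (v a11) n := fun v n H => by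
    obtain ⟨h1, h2, h3, h4, h5, h6, h7, h8⟩ := H
    rw [S] at h1 h2 h3 h4 h5 h6 h7
    simp only [d1, d2, d3, d4, d5, d6, d7, d8, d9, d10, d11, x1, x2, x3, x4, x5, x6, x7, x8, x9, x10, x11, y1, y2, y3, y4, y5,
      y6, y7, y8, y9, y10, y11, z1, z2, z3, z4, z5, z6, z7, z8, z9, z10, z11, Prod.fst_zero, Prod.snd_zero,
      Nat.cast_ofNat] at h1 h2 h3 h4 h5 h6
    exact ⟨by linarith, by linarith, by linarith, by linarith, by linarith, by linarith, by linarith, h8⟩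
  have two : ∀ v n, CV d u5 u7 u11 v n → C2 d u7 u11 v → _ := fun v n H ⟨m, q7, q11⟩ => by
    rw [S] at q7 q11
    simp only [d1, d2, d3, d4, d5, d6, d7, d8, d9, d10, d11, y1, y2, y3, y4, y5,
      y6, y7, y8, y9, y10, y11, z1, z2, z3, z4, z5, z6, z7, z8, z9, z10, z11, Prod.fst_zero, Nat.reduceDiv,
      Nat.cast_ofNat] at q7 q11
    exact (col v n H).two (by simpa [d4] using m a4) (by simpa [d3] using m a3) (by simpa [d9] using m a9)
      (by linarith) (by linarith)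
  obtain ⟨e1, e2, e3, e4, e5, e6, e7, e8, e9, e10, e11, e12⟩ := two s c s1 s2
  have three : ∀ v n, CV d u5 u7 u11 v n → C3 d s v → _ := fun v n H ⟨m, o⟩ => by
    rw [S, e1, e2, e3, e4, e5, e6, e7, e8, e9, e10, e11] at o
    exact (col v n H).three ((m a4).2 (by rw [d4]; decide)) ((m a8).2 (by rw [d8]; decide)) ((m a3).1 (by rw [d3]; decide))
      ((m a6).1 (by rw [d6]; decide)) (by linarith)
  refine ⟨e12, fun v n H H' => ?_, fun v n H H' => ?_⟩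
  · obtain ⟨f1, f2, f3, f4, f5, f6, f7, f8, f9, f10, f11, -⟩ := two v n H H'
    funext i
    have := all i
    simp only [List.mem_cons, List.not_mem_nil, or_false] at this
    rcases this with rfl | rfl | rfl | rfl | rfl | rfl | rfl | rfl | rfl | rfl | rfl <;> omega
  obtain ⟨f1, f2, f4, f5, f6, f7, f8, f9, f10, f11, f3⟩ := three v n H H'
  refine ⟨by omega, fun v' n' K K' => ?_⟩
  obtain ⟨g1, g2, g4, g5, g6, g7, g8, g9, g10, g11, g3⟩ := three v' n' K K'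
  rw [S, f1, f2, f4, f5, f6, f7, f8, f9, f10, f11, g1, g2, g4, g5, g6, g7, g8, g9, g10, g11]
  rcases f3 with ⟨f, -⟩ | ⟨f | f, -⟩ <;> rcases g3 with ⟨g, -⟩ | ⟨g | g, -⟩ <;> rw [f, g] <;> decide
end num

variable {G : Type u} [Group G] [Finite G]
/-- `v` lists the values at `g` -/
def Val (g : G) (v : Ir G → ℤ) : Prop := ∀ i : Ir G, (i.1 : G → ℂ) g = v i

theorem val1 : Val (1 : G) fun i => dg i := fun i => by
  rw [Int.cast_natCast]; exact (CfH5.irr_isCharacter i.1.2).deg_eq.symm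

theorem Val.sum {g h : G} {v v' : Ir G → ℤ} (a : Val g v) (b : Val h v') :
    ∑ χ : IrrCharacter G, (χ : G → ℂ) g * conj ((χ : G → ℂ) h) = ((∑ i, v i * v' i + 1 : ℤ) : ℂ) := by
  rw [sum_Ir, triv_apply, triv_apply, add_comm]
  simp [a _, b _]

theorem Val.orth {g h : G} {v v' : Ir G → ℤ} (a : Val g v) (b : Val h v') (n : ¬ IsConj g h) : ∑ i, v i * v' i = -1 := by
  have := (a.sum b).symm.trans (sum_irr_mul_conj_of_not_isConj n)
  have : ∑ i, v i * v' i + 1 = 0 := by exact_mod_cast this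
  linarith

theorem Val.lin {p : ℕ} [Fact p.Prime] {x g : G} (h : Syl p x) {j : ZMod p} (hj : j ≠ 0) (hg : PReg p g) {v : Ir G → ℤ}
    (a : Val g v) : ∑ i : Ir G, D1.u x j i.1 * v i = 1 := by
  have := h.lin j hg
  rw [sum_Ir, h.u_triv hj, triv_apply] at this
  simp only [a _] at this
  have : (-1 : ℤ) * 1 + ∑ i : Ir G, D1.u x j i.1 * v i = 0 := by exact_mod_cast this
  linarith

theorem cv (hG : Nat.card G = 443520) {x y w g : G} (O : Out x y w) (o : orderOf g = 2 ∨ orderOf g = 3) {v : Ir G → ℤ}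
    (a : Val g v) : CV dg (uu w (2 : ZMod 5)) (uu y (3 : ZMod 7)) (uu x (2 : ZMod 11)) v (Nat.card Cx(g)) := by
  obtain ⟨X, Y, W, x1, y1, w1, -⟩ := O
  have r : ∀ p, p = 5 ∨ p = 7 ∨ p = 11 → PReg p g := fun p hp => by
    unfold PReg; rcases o with o | o <;> rw [o] <;> rcases hp with rfl | rfl | rfl <;> norm_num
  refine ⟨a.lin X one_ne_zero (r _ (by simp)), a.lin X (by decide) (r _ (by simp)), a.lin Y one_ne_zero (r _ (by simp)),
    a.lin Y (by decide) (r _ (by simp)), a.lin W one_ne_zero (r _ (by simp)), val1.orth a fun c => ?_, ?_, ?_⟩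
  · rw [isConj_one_right.1 c, orderOf_one] at o; omega
  · exact_mod_cast (a.sum a).symm.trans (sum_irr_mul_conj_self g)
  have c : ∀ (p : ℕ) [Fact p.Prime] {x : G}, Syl p x → Nat.card Cx(x) = p → 3 < p → (Nat.card Cx(g)).Coprime p :=
    fun p hp x X x1 l => ((Nat.Prime.coprime_iff_not_dvd hp.out).2 fun d => by
      have := (Nat.dvd_prime hp.out).1 (x1 ▸ CfH8.PA.swp X rfl d)
      omega).symm
  refine (((c 5 W w1 (by norm_num)).mul_right (c 7 Y y1 (by norm_num))).mul_right (c 11 X x1 (by norm_num))).dvd_of_dvd_mul_right ?_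
  exact (card_subgroup_dvd_card _).trans (by rw [hG])

theorem val3 {g : G} (o : g ^ 3 = 1) (r : IsConj g g⁻¹) : ∃ v, Val g v := by
  suffices ∀ i : Ir G, ∃ z : ℤ, (i.1 : G → ℂ) g = z from by choose v hv using this; exact ⟨v, hv⟩
  intro i
  have hc := CfH5.irr_isCharacter i.1.2
  obtain ⟨d, μ, -, h1, h2⟩ := CfH5.char_eq_sum_roots hc g (by norm_num) o
  have e1 : g ^ 2 = g⁻¹ := eq_inv_of_mul_eq_one_left (by rw [← pow_succ, o])
  obtain ⟨c, hc'⟩ := isConj_iff.1 r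
  have e2 : (i.1 : G → ℂ) (g ^ 2) = (i.1 : G → ℂ) g := by rw [e1, ← hc']; exact CfH5.char_isClassFunction hc _ _
  have e3 : ∀ j, ∃ z : ℤ, μ j ^ 1 + μ j ^ 2 = z := fun j => by
    have : (μ j - 1) * (μ j ^ 2 + μ j + 1) = 0 := by linear_combination h1 j
    rcases mul_eq_zero.1 this with e | e
    · exact ⟨2, by rw [sub_eq_zero.1 e]; norm_num⟩
    · exact ⟨-1, by push_cast; linear_combination e⟩
  choose z hz using e3
  have e4 : (i.1 : G → ℂ) g = ((∑ j, z j : ℤ) : ℂ) / (2 : ℤ) := by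
    have := h2 1
    rw [pow_one] at this
    push_cast
    rw [← sum_congr rfl fun j _ => hz j, sum_add_distrib, ← this, ← h2, e2]; ring
  obtain ⟨t, ht⟩ := CfH5.int_dvd_of_isIntegral_div (by norm_num) (e4 ▸ CfH5.isIntegral_char hc g)
  exact ⟨t, by rw [e4, ht]; push_cast; ring⟩

theorem ord3 [IsSimpleGroup G] (hG : Nat.card G = 443520) {g : G} (o : orderOf g = 3) :
    ∃ v, Val g v ∧ ∀ i, (3 ∣ dg i → 3 ∣ v i) ∧ (9 ∣ dg i → 9 ∣ v i) := by
  haveI : Fact (Nat.Prime 3) := ⟨by norm_num⟩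
  obtain ⟨T, hT⟩ := (IsPGroup.of_card (G := zpowers g) (p := 3) (n := 1) (by rw [Nat.card_zpowers, o, pow_one])).exists_le_sylow
  have c9 : Nat.card T = 3 ^ 2 := by
    rw [T.card_eq_multiplicity, hG, show 443520 = 3 ^ 2 * 49280 from rfl, Nat.factorization_mul (by norm_num) (by norm_num),
      Nat.Prime.factorization_pow (by norm_num), Finsupp.add_apply, Finsupp.single_eq_same,
      Nat.factorization_eq_zero_of_not_dvd (by norm_num)]
  have gT := hT (mem_zpowers g)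
  obtain ⟨c, hc⟩ := CfH1.MG.real3 (T := T) c9 (by rw [hG]; norm_num) (by rw [hG]; norm_num) gT o
  obtain ⟨v, hv⟩ := val3 (o ▸ pow_orderOf_eq_one g) (isConj_iff.2 ⟨c, hc⟩)
  have ab := IsPGroup.isMulCommutative_of_card_eq_prime_sq c9
  have le : (T : Subgroup G) ≤ Cx(g) := fun t ht => mem_Cx.2 (congrArg Subtype.val (ab.1.1 ⟨t, ht⟩ ⟨g, gT⟩))
  obtain ⟨k, hk⟩ := c9 ▸ card_dvd_of_le le
  have e := card_mul_index Cx(g)
  rw [hG, hk] at e
  have cp : IsCoprime (3 : ℤ) (Cx(g).index : ℤ) := Nat.isCoprime_iff_coprime.2 ((Nat.Prime.coprime_iff_not_dvd (by norm_num)).2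
    fun ⟨t, ht⟩ => by rw [ht, show 3 ^ 2 * k * (3 * t) = 27 * (k * t) by ring] at e; omega)
  refine ⟨v, hv, fun i => ?_⟩
  have := CfH5.isIntegral_centralChar i.1.2 g
  rw [centralChar, hv i, val1 i] at this
  have dv : ((dg i : ℕ) : ℤ) ∣ Cx(g).index * v i := CfH5.int_dvd_of_isIntegral_div
    (by exact_mod_cast (i.1.2.deg_pos).ne') (by push_cast at this ⊢; exact this)
  exact ⟨fun d => cp.dvd_of_dvd_mul_left ((Int.natCast_dvd_natCast.2 d).trans dv),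
    fun d => (cp.pow_left (m := 2)).dvd_of_dvd_mul_left ((Int.natCast_dvd_natCast.2 d).trans dv)⟩

theorem p5 : P5.{u} := fun h1 h2 G _ _ hs hG x y w O => by
  obtain ⟨S, ⟨s, -⟩, V⟩ := h1 hs hG
  obtain ⟨X, Y, W, x1, y1, w1, ex, ey, ew, L, k, nd, h0, hp⟩ := id O
  have sx := h2 h1 hs hG 11 2 x 1 (by norm_num) (by decide) X x1 (by rw [ex]; norm_num) (by rw [ex])
  have sy := h2 h1 hs hG 7 3 y 1 (by norm_num) (by decide) Y y1 (by rw [ey]; norm_num) (by rw [ey])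
  have sw := h2 h1 hs hG 5 2 w 1 (by norm_num) (by decide) W w1 (by rw [ew]) (by rw [ew]; norm_num)
  obtain ⟨l, l1, l2, l3⟩ := enum dg _ _ _ nd h0 hp (fun i hi => Nat.Coprime.mul_dvd_of_dvd_of_dvd (m := 35) (n := 11) (by norm_num)
    (Nat.Coprime.mul_dvd_of_dvd_of_dvd (m := 5) (n := 7) (by norm_num) (sw.blk.z i (h0 i hi).1 rfl) (sy.blk.z i (h0 i hi).2.1 rfl))
    (sx.blk.z i (h0 i hi).2.2 rfl)) (fun i => lt_trans one_pos (S.dv i).2) S.sq
  have c2 : ∀ t : Iv G, C2 dg (uu y (3 : ZMod 7)) (uu x (2 : ZMod 11)) (vv t.1) := fun t => by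
    obtain ⟨r, r0, -, r1⟩ := (sx.si t).q
    obtain ⟨r', r0', -, r1'⟩ := (sy.si t).q
    rw [r0 (by rw [ex]; norm_num)] at r1
    rw [r0' (by rw [ey]; norm_num)] at r1'
    simp only [Nat.cast_ofNat, Nat.cast_one, Nat.cast_zero] at r1 r1'
    exact ⟨(S.inv t).m4, by linarith, by linarith⟩
  have N := fun t : Iv G => num l1 l2 l3 (cv hG O (.inl t.2) (V t)) (c2 t)
  have c3 : ∀ g : G, orderOf g = 3 → ∃ v, Val g v ∧ C3 dg (vv s.1) v := fun g o => by
    obtain ⟨v, a, b⟩ := ord3 hG o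
    refine ⟨v, a, b, Val.orth (V s) a fun c => ?_⟩
    obtain ⟨t, ht⟩ := isConj_iff.1 c
    have := ((MulAut.conj t).orderOf_eq s.1).symm.trans (ht.symm ▸ o :)
    rw [s.2] at this; omega
  have j3 : ∀ a b : G, orderOf a = 3 → orderOf b = 3 → IsConj a b := fun a b ha hb => by
    obtain ⟨v, a1, a2⟩ := c3 a ha
    obtain ⟨v', b1, b2⟩ := c3 b hb
    by_contra c
    exact ((N s).2.2 v _ (cv hG O (.inr ha) a1) a2).2 v' _ (cv hG O (.inr hb) b1) b2 (a1.orth b1 c)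
  refine ⟨hs, hG, fun a b ha hb => isConj_of_forall_irr_eq fun χ hχ => ?_, fun a ha => (N ⟨a, ha⟩).1, j3, fun a ha => ?_,
    fun a ha => (CfH8.PA.cxeq W ha).trans w1, fun a ha => (CfH8.PA.cxeq Y ha).trans y1,
    fun a ha => (CfH8.PA.cxeq X ha).trans x1⟩
  · by_cases c : (⟨χ, hχ⟩ : IrrCharacter G) = triv G
    · exact (congrArg (fun t : IrrCharacter G => (t : G → ℂ) a) c).trans
        (congrArg (fun t : IrrCharacter G => (t : G → ℂ) b) c).symm
    refine (V ⟨a, ha⟩ ⟨_, c⟩).trans (.trans ?_ (V ⟨b, hb⟩ ⟨_, c⟩).symm)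
    rw [(N ⟨a, ha⟩).2.1 _ _ (cv hG O (.inl hb) (V ⟨b, hb⟩)) (c2 ⟨b, hb⟩)]
  haveI : Fact (Nat.Prime 3) := ⟨by norm_num⟩
  obtain ⟨⟨t, ht⟩, o⟩ := exists_prime_orderOf_dvd_card' (G := Cx(s.1)) 3 (by rw [(N s).1]; norm_num)
  have o := (orderOf_coe _).trans o
  obtain ⟨v, a1, a2⟩ := c3 t o
  have e1 := ((N s).2.2 v _ (cv hG O (.inr o) a1) a2).1
  have e2 : 2 ∣ Nat.card Cx(t) := s.2 ▸ orderOf_dvd_natCard _ (mem_Cx.2 (mem_Cx.1 ht).symm)
  obtain ⟨c, rfl⟩ := isConj_iff.1 (j3 t a o ha)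
  rw [← cj_Cx, card_cj]
  exact e1.resolve_left fun e => by rw [e] at e2; omega

end CfH9.PA
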