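import Cfsg.Agent.H9.CoFin2
import Cfsg.Agent.H9.CoFinM
import Cfsg.Agent.H6.LeC1
import Cfsg.Agent.H9.SylIn
import Cfsg.Agent.OD.Helper9x21d24ba063
/-! The monomial group `2¹²:M₂₄` and the elements of `Co₀` whose square is central. -/
set_option autoImplicit false
set_option maxRecDepth 100000
namespace CfH9.CoFin
open Cfsg Cfsg.Spor CfH4.Gol CfH6 CfH6.Lee Subgroup

def sg (u : Wd) (i : GolayPt) : ℤ := if u i = 0 then 1 else -1

variable {u v : Wd} {g : Co0}

theorem sg_add (u v : Wd) (i : GolayPt) : sg (u + v) i = sg u i * sg v i :=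
  (show ∀ a b : ZMod 2, (if a + b = 0 then 1 else -1 : ℤ) = (if a = 0 then 1 else -1) * if b = 0 then 1 else -1
    by decide) _ _

theorem sg_sq (u : Wd) (i : GolayPt) : sg u i * sg u i = 1 := by unfold sg; split_ifs <;> rfl

theorem sg_inj {i j : GolayPt} (h : sg u i = sg v j) : u i = v j := by
  unfold sg at h
  generalize u i = a at h; generalize v j = b at h
  revert a b; decide

theorem add_self (u : Wd) : u + u = 0 := funext fun _ => CharTwo.add_self_eq_zero _

theorem eps_mem (hu : u ∈ golayCode) : ∀ x ∈ leechLattice, sg u * x ∈ leechLattice := by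
  obtain ⟨n, -, rfl⟩ := ex_cw hu
  refine cmb_mem (N := ⟨⟨{u | ∀ x ∈ leechLattice, sg u * x ∈ leechLattice}, fun {a b} ha hb x hx => ?_⟩,
    fun x hx => ?_⟩) (fun b hb => ?_) n
  · rw [show sg (a + b) = sg a * sg b from funext (sg_add a b), mul_assoc]
    exact ha _ (hb x hx)
  · rwa [show sg 0 = 1 from rfl, one_mul]
  have := (show ∀ b ∈ bl, ChkL (sg (wv b) * g0) ∧ (∀ k : Fin 12, ChkL (sg (wv b) * gb k)) ∧
    (∀ j, ChkL (sg (wv b) * g4 j)) ∧ ChkL (sg (wv b) * v8 none) by decide +kernel) b hb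
  exact gen_le (leechLattice.comap (AddMonoidHom.mulLeft (sg (wv b)))) this.1.mem
    (fun k => (this.2.1 k).mem) (fun j => (this.2.2.1 j).mem) this.2.2.2.mem

open Classical in
/-- the sign change on a code word -/
noncomputable def eps (u : Wd) : Co0 := if h : u ∈ golayCode then
  ⟨Function.Involutive.toPerm (fun x => ⟨sg u * x.1, eps_mem h _ x.2⟩) fun x => Subtype.ext
    (funext fun i => by simp [← mul_assoc, sg_sq]), fun x y => Subtype.ext (mul_add _ _ _),
    fun x => Finset.sum_congr rfl fun i _ => by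
      change (sg u i * x.1 i) ^ 2 = _
      rw [mul_pow, sq (sg u i), sg_sq, one_mul]⟩ else 1

theorem eps_apply (hu : u ∈ golayCode) (x : Λ) (i : GolayPt) : ((eps u).1 x).1 i = sg u i * x.1 i := by
  rw [eps, dif_pos hu]; rfl

theorem lee_comp {σ : Equiv.Perm GolayPt} (h : σ ∈ M24) {x : V} (hx : x ∈ leechLattice) :
    x ∘ σ ∈ leechLattice := by
  obtain ⟨m, w, hw, h1, h2⟩ := Lee.mem_iff.1 hx
  exact Lee.mem_iff.2 ⟨m, w ∘ σ, comp_mem h hw, fun i => h1 _, by rwa [← Equiv.sum_comp σ x] at h2⟩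

/-- the coordinate permutations -/
def prm : M24 →* Co0 := (MonoidHom.toHomPerm
  { toFun := fun (σ : M24) (x : Λ) => ⟨x.1 ∘ (σ⁻¹ : M24).1, lee_comp (σ⁻¹).2 x.2⟩
    map_one' := rfl
    map_mul' := fun _ _ => rfl }).codRestrict Co0 fun σ =>
      ⟨fun _ _ => rfl, fun x => Equiv.sum_comp σ.1⁻¹ fun p => x.1 p ^ 2⟩

theorem prm_apply (σ : M24) (x : Λ) (i : GolayPt) : ((prm σ).1 x).1 i = x.1 (σ.1⁻¹ i) := rfl

theorem cext {g h : Co0} (e : ∀ x i, (g.1 x).1 i = (h.1 x).1 i) : g = h :=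
  Subtype.ext (Equiv.ext fun x => Subtype.ext (funext (e x)))

theorem mul_app (g h : Co0) (x : Λ) : (g * h).1 x = g.1 (h.1 x) := rfl

theorem eps_add (hu : u ∈ golayCode) (hv : v ∈ golayCode) : eps (u + v) = eps u * eps v :=
  cext fun x i => by rw [mul_app, eps_apply hu, eps_apply hv, eps_apply (add_mem hu hv), sg_add, mul_assoc]

theorem eps_zero : eps 0 = 1 := cext fun x i => (eps_apply (zero_mem _) x i).trans (one_mul _)

theorem eps_one : eps 1 = neg := cext fun x i => (eps_apply Lee.one_mem x i).trans (neg_one_mul _)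

theorem eps_sq (hu : u ∈ golayCode) : eps u * eps u = 1 := by rw [← eps_add hu hu, add_self, eps_zero]

theorem eps_prm (hu : u ∈ golayCode) (σ : M24) : eps u * prm σ = prm σ * eps (u ∘ σ.1) :=
  cext fun x i => by
    rw [mul_app, mul_app, eps_apply hu, prm_apply, prm_apply, eps_apply (comp_mem σ.2 hu)]
    simp [sg]

theorem prm_eps (hu : u ∈ golayCode) (σ : M24) : prm σ * eps u = eps (u ∘ σ⁻¹.1) * prm σ := by
  rw [eps_prm (comp_mem σ⁻¹.2 hu)]
  congr 2; ext; simp

theorem mono_mul (hu : u ∈ golayCode) (hv : v ∈ golayCode) (π ρ : M24) :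
    eps u * prm π * (eps v * prm ρ) = eps (u + v ∘ π⁻¹.1) * prm (π * ρ) := by
  rw [mul_assoc, ← mul_assoc (prm π), prm_eps hv, eps_add hu (comp_mem π⁻¹.2 hv), map_mul]
  simp only [mul_assoc]

/-- the monomial group -/
def N0 : Subgroup Co0 where
  carrier := {g | ∃ u ∈ golayCode, ∃ π, g = eps u * prm π}
  one_mem' := ⟨0, zero_mem _, 1, by rw [eps_zero, map_one, one_mul]⟩
  mul_mem' := by
    rintro _ _ ⟨u, hu, π, rfl⟩ ⟨v, hv, ρ, rfl⟩
    exact ⟨_, add_mem hu (comp_mem π⁻¹.2 hv), _, mono_mul hu hv π ρ⟩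
  inv_mem' := by
    rintro _ ⟨u, hu, π, rfl⟩
    exact ⟨_, comp_mem π⁻¹⁻¹.2 hu, π⁻¹, by
      rw [← prm_eps hu, mul_inv_rev, inv_eq_of_mul_eq_one_right (eps_sq hu), map_inv]⟩

theorem mono_e8 (hu : u ∈ golayCode) (π : M24) (j : GolayPt) :
    (eps u * prm π).1 (e8 j) = sg u (π.1 j) • e8 (π.1 j) := Subtype.ext (funext fun i => by
  rw [mul_app, eps_apply hu, prm_apply]
  change _ * v8 j _ = _ * v8 _ i
  simp only [v8, Equiv.Perm.inv_eq_iff_eq]
  split_ifs with h
  · rw [h]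
  · rw [mul_zero, mul_zero])

theorem e8_inj {s t : ℤ} {j k : GolayPt} (hs : s * s = 1) (h : s • e8 j = t • e8 k) : j = k ∧ s = t := by
  have : s * v8 j j = t * v8 k j := congrFun (congrArg Subtype.val h) j
  simp only [v8, if_true] at this
  split_ifs at this with e
  · exact ⟨e, by omega⟩
  · rw [show s = 0 by omega] at hs; omega

theorem mono_inj (hu : u ∈ golayCode) (hv : v ∈ golayCode) {π ρ : M24}
    (h : eps u * prm π = eps v * prm ρ) : u = v ∧ π = ρ := by
  have k := fun j => e8_inj (sg_sq _ _) ((mono_e8 hu π j).symm.trans (h ▸ mono_e8 hv ρ j))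
  refine ⟨funext fun i => ?_, Subtype.ext (Equiv.ext fun j => (k j).1)⟩
  obtain ⟨j, rfl⟩ := π.1.surjective i
  exact (sg_inj (k j).2).trans (congrArg v (k j).1.symm)

theorem cw_inj {m n : ℕ} (hm : m < 4096) (hn : n < 4096) (h : wv (cw m) = wv (cw n)) : m = n := by
  have := low_eq h
  have := (chkA m hm).1
  have := (chkA n hn).1
  omega

theorem card_N0 : Nat.card N0 = 4096 * 244823040 := by
  refine (Nat.card_eq_of_bijective (fun p : Fin 4096 × M24 => (⟨_, _, cw_mem p.1, p.2, rfl⟩ : N0))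
    ⟨fun p q e => ?_, ?_⟩).symm.trans (by rw [Nat.card_prod, Nat.card_fin, cardM24])
  · have := mono_inj (cw_mem _) (cw_mem _) (congrArg Subtype.val e)
    exact Prod.ext (Fin.ext (cw_inj p.1.2 q.1.2 this.1)) this.2
  · rintro ⟨_, u, hu, π, rfl⟩
    obtain ⟨n, hn, rfl⟩ := ex_cw hu
    exact ⟨(⟨n, hn⟩, π), rfl⟩

theorem mem_N0 (h : ∀ i, ∃ j, ∃ s : ℤ, s * s = 1 ∧ g.1 (e8 i) = s • e8 j) : g ∈ N0 := by
  choose σ s h1 h2 using h
  have inj : Function.Injective σ := fun i k e => (e8_inj (s := s i) (t := s k) (h1 i) (g.1.injective (by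
    change hom g _ = hom g _
    rw [map_zsmul, map_zsmul]
    change s i • g.1 _ = s k • g.1 _
    rw [h2, h2, smul_smul, smul_smul, h1, h1, e]))).1
  obtain ⟨m, w, hw, h3, -⟩ := Lee.mem_iff.1 (g.1 ⟨g0, ChkL.mem (by decide +kernel)⟩).2
  have h4 : ∀ i, s i % 4 = (m + 2 * (w (σ i)).val) % 4 := fun i => by
    have := expand g ⟨g0, ChkL.mem (by decide +kernel)⟩ (σ i)
    simp only [h2] at this
    rw [Finset.sum_eq_single i (fun j _ hj => by
      change s j * v8 _ _ * _ = 0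
      rw [v8, if_neg (inj.ne hj.symm), mul_zero, zero_mul]) (by simp)] at this
    change _ = s i * v8 _ _ * g0 i at this
    rw [← h3]
    simp only [v8, if_true, g0] at this
    split_ifs at this <;> omega
  obtain ⟨u, hu, h5⟩ : ∃ u ∈ golayCode, ∀ i, sg u (σ i) = s i := by
    by_cases hm : m % 4 = 1
    · refine ⟨w, hw, fun i => ?_⟩
      have := h4 i
      rcases val01 (w (σ i)) with ⟨a, b⟩ | ⟨a, b⟩ <;> rcases Int.eq_one_or_neg_one_of_mul_eq_one (h1 i)
        with c | c <;> simp [sg, a, c] <;> omega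
    · refine ⟨w + 1, add_mem hw Lee.one_mem, fun i => ?_⟩
      have := h4 i
      rw [sg_add]
      rcases val01 (w (σ i)) with ⟨a, b⟩ | ⟨a, b⟩ <;> rcases Int.eq_one_or_neg_one_of_mul_eq_one (h1 i)
        with c | c <;> simp [sg, a, c] <;> omega
  have h6 : ∀ k, (eps u * g).1 (e8 k) = e8 (σ k) := fun k => by
    have := mono_e8 hu 1 (σ k)
    rw [map_one, mul_one] at this
    rw [mul_app, h2]
    change hom (eps u) _ = _
    rw [map_zsmul]
    change s k • (eps u).1 _ = _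
    rw [this, smul_smul]
    change (s k * sg u (σ k)) • e8 (σ k) = _
    rw [h5, h1, one_smul]
  obtain ⟨π, hπ, rfl⟩ := perm_of _ σ h6
  refine ⟨u, hu, ⟨π, hπ⟩, ?_⟩
  rw [← inv_eq_of_mul_eq_one_right (eps_sq hu), eq_inv_mul_iff_mul_eq]
  refine ext8 fun j => ?_
  have := mono_e8 (zero_mem _) ⟨π, hπ⟩ j
  rw [eps_zero, one_mul] at this
  rw [h6, this]
  exact (one_smul _ _).symm

instance : Finite Co0 := card_Co0.1

theorem neg_ne : neg ≠ 1 := fun h => absurd (mono_inj Lee.one_mem (zero_mem _) (π := 1) (ρ := 1)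
  (by rw [eps_one, eps_zero, h])).1 (by decide)

theorem card_center : Nat.card (center Co0) = 2 ∧ Nat.card Co0 = 8315553613086720000 := by
  have h1 := card_eq_card_quotient_mul_card_subgroup (center Co0)
  have h2 : Nontrivial (center Co0) := ⟨⟨neg, neg_center⟩, 1, fun h => neg_ne (congrArg Subtype.val h)⟩
  have h3 : 2 ≤ Nat.card (center Co0) := Finite.one_lt_card
  have h4 := card_Co0.2
  rw [cardCo1] at h1
  omega

theorem center_eq (h : g ∈ center Co0) : g = 1 ∨ g = neg := by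
  obtain ⟨y, -, hy⟩ := (Nat.card_eq_two_iff' (1 : center Co0)).1 card_center.1
  exact or_iff_not_imp_left.2 fun h1 => congrArg Subtype.val ((hy ⟨g, h⟩ fun e =>
    h1 (congrArg Subtype.val e)).trans (hy ⟨neg, neg_center⟩ fun e => neg_ne (congrArg Subtype.val e)).symm)

theorem sq_mono (hu : u ∈ golayCode) (hv : v ∈ golayCode) {π : M24}
    (h : eps u * prm π * (eps u * prm π) = eps v) : π * π = 1 ∧ u + u ∘ π.1 = v := by
  have := mono_inj (add_mem hu (comp_mem π⁻¹.2 hu)) hv (ρ := 1) ((mono_mul hu hu π π).symm.trans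
    (by rw [h, map_one, mul_one]))
  exact ⟨this.2, by rw [← this.1, inv_eq_of_mul_eq_one_right this.2]⟩

theorem red (hv : v = 0 ∨ v = 1) (h : g * g = eps v) : ∃ u ∈ golayCode, ∃ π ∈ [1, pl p1, pl p2],
    IsConj g (eps u * prm π) ∧ u + u ∘ π.1 = v := by
  have h0 : v ∈ golayCode := hv.elim (· ▸ zero_mem _) (· ▸ Lee.one_mem)
  have h1 : ∀ g', IsConj g g' → g' * g' = eps v := fun g' e => by
    obtain ⟨c, rfl⟩ := isConj_iff.1 e
    rw [conj_mul, h, mem_center_iff.1 (show eps v ∈ center Co0 by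
      rcases hv with rfl | rfl
      exacts [eps_zero ▸ one_mem _, eps_one ▸ neg_center]), mul_inv_cancel_right]
  obtain ⟨S, hS⟩ := exists_sylIn 2 N0
  have h2 := card_mul_relIndex (le_top (a := N0))
  rw [card_N0, card_top, card_center.2] at h2
  obtain ⟨c, -, hc⟩ := (hS.trans le_top (by omega)).exists_conj_mem (mem_top g) (k := 2) (by
    rw [show 2 ^ 2 = 2 * 2 from rfl, pow_mul, sq g, h, sq, eps_sq h0])
  obtain ⟨u, hu, π, e⟩ := hS.le hc
  have h3 : IsConj g (eps u * prm π) := isConj_iff.2 ⟨c, e⟩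
  have h4 := sq_mono hu h0 (h1 _ h3)
  have h5 : ∀ ρ, IsConj π ρ → ∃ u ∈ golayCode, IsConj g (eps u * prm ρ) ∧ u + u ∘ ρ.1 = v := fun ρ e => by
    obtain ⟨σ, rfl⟩ := isConj_iff.1 e
    have : IsConj g (eps (u ∘ σ⁻¹.1) * prm (σ * π * σ⁻¹)) := h3.trans (isConj_iff.2 ⟨prm σ, by
      rw [← mul_assoc, prm_eps hu, map_mul, map_mul, map_inv]; simp only [mul_assoc]⟩)
    exact ⟨_, comp_mem σ⁻¹.2 hu, this, (sq_mono (comp_mem σ⁻¹.2 hu) h0 (h1 _ this)).2⟩
  rcases inv_cls h4.1 with rfl | e | e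
  · exact ⟨u, hu, 1, by simp, h3, h4.2⟩
  all_goals
    obtain ⟨u, hu, h6⟩ := h5 _ e
    exact ⟨u, hu, _, by simp, h6⟩

theorem conj_eps {d : Wd} (hu : u ∈ golayCode) (hd : d ∈ golayCode) {π : M24} (h : π * π = 1) :
    IsConj (eps u * prm π) (eps (u + d + d ∘ π.1) * prm π) := isConj_iff.2 ⟨eps d, by
  have := mono_mul (add_mem hu hd) hd π 1
  rw [map_one, mul_one, mul_one, inv_eq_of_mul_eq_one_right h] at this
  rw [inv_eq_of_mul_eq_one_right (eps_sq hd), ← this, add_comm u, eps_add hd hu, ← mul_assoc]⟩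

theorem mat_mono {X : ℕ} (h : Φ g = sem X) (hu : u ∈ golayCode) (π : M24) (i j : GolayPt) :
    ((g * (eps u * prm π)).1 (e8 j)).1 i = sg u (π.1 j) * A X i (π.1 j) := by
  rw [mul_app, mono_e8 hu, ← col_eq h]
  exact congrFun (congrArg Subtype.val (map_zsmul (hom g) _ _)) i

theorem diag {l : List ℕ} (hl : Good l) {r d : ℕ} (h : cw (r % 4096) = r ∧ cw (d % 4096) = d ∧
    ∀ i j, sg (wv r) (fl l j) * A mX i (fl l j) = sg (wv d) i * A mX i j) :
    ∃ u ∈ golayCode, IsConj (eps (wv r) * prm (pl l)) (eps u) := by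
  obtain ⟨ξ, e⟩ := xX
  refine ⟨_, mem_of_cw h.2.1, isConj_iff.2 ⟨ξ, mul_inv_eq_iff_eq_mul.2 (ext8 fun j =>
    Subtype.ext (funext fun i => ?_))⟩⟩
  rw [mat_mono e (mem_of_cw h.1), hl.coe, h.2.2, mul_app, eps_apply (mem_of_cw h.2.1), col_eq e]

theorem sq1 : pl p1 * pl p1 = 1 := Subtype.ext (Equiv.ext fun p => by
  change (pl p1).1 ((pl p1).1 p) = p
  rw [g1.coe]; revert p; decide +kernel)

theorem sq2 : pl p2 * pl p2 = 1 := Subtype.ext (Equiv.ext fun p => by
  change (pl p2).1 ((pl p2).1 p) = p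
  rw [g2.coe]; revert p; decide +kernel)

theorem eq_of_add (h : u + v = 0) : v = u := by rw [← zero_add v, ← add_self u, add_assoc, h, add_zero]

/-- involutions of `Co₀` are conjugate to sign changes -/
theorem clsA (h : g * g = 1) : ∃ u ∈ golayCode, IsConj g (eps u) := by
  obtain ⟨u, hu, π, hπ, h1, h2⟩ := red (.inl rfl) (h.trans eps_zero.symm)
  simp only [List.mem_cons, List.not_mem_nil, or_false] at hπ
  rcases hπ with rfl | rfl | rfl
  · exact ⟨u, hu, by rwa [map_one, mul_one] at h1⟩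
  · obtain ⟨d, hd, q, hq, r, hr, e⟩ := fix1 hu (g1.coe ▸ eq_of_add h2)
    obtain ⟨D, -, h3⟩ := (show ∀ r ∈ [0, 16777215, r0, r0 ^^^ 16777215], ∃ d ∈ [1090380, 15686835, 9626467, 7150748],
      cw (r % 4096) = r ∧ cw (d % 4096) = d ∧
      ∀ i j, sg (wv r) (fl p1 j) * A mX i (fl p1 j) = sg (wv d) i * A mX i j by decide +kernel) r hr
    obtain ⟨w, hw, h4⟩ := diag g1 h3
    refine ⟨w, hw, h1.trans ((conj_eps hu hd sq1).trans (IsConj.trans (isConj_iff.2 ⟨prm (pl q)⁻¹, ?_⟩) h4))⟩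
    have c : (pl q)⁻¹ * pl p1 * pl q = pl p1 := by
      rw [mul_assoc, inv_mul_eq_iff_eq_mul]
      refine Subtype.ext (Equiv.ext fun p => ?_)
      change (pl p1).1 ((pl q).1 p) = (pl q).1 ((pl p1).1 p)
      rw [g1.coe, (gQ q hq).1.coe, (gQ q hq).2]
    rw [← mul_assoc, prm_eps (add_mem (add_mem hu hd) (comp_mem (pl p1).2 hd)), inv_inv, g1.coe,
      (gQ q hq).1.coe, e, mul_assoc, mul_assoc, ← map_inv, inv_inv, ← map_mul, ← map_mul, ← mul_assoc, c]
  · obtain ⟨d, hd, e⟩ := fix2 hu (g2.coe ▸ eq_of_add h2)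
    obtain ⟨w, hw, h4⟩ := diag g2 (r := 0) (d := 11068124) (by decide +kernel)
    have := conj_eps hu hd sq2
    rw [g2.coe, add_assoc, ← e, add_self, ← wv_zero] at this
    exact ⟨w, hw, h1.trans (this.trans h4)⟩

theorem cB_mem : wv cB ∈ golayCode := mem_of_cw (by decide +kernel)

/-- the elements with square `-1` are conjugate -/
theorem clsB (h : g * g = neg) : IsConj g (eps (wv cB) * prm (pl p2)) := by
  obtain ⟨u, hu, π, hπ, h1, h2⟩ := red (.inr rfl) (h.trans eps_one.symm)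
  simp only [List.mem_cons, List.not_mem_nil, or_false] at hπ
  rcases hπ with rfl | rfl | rfl
  · exact absurd ((add_self u).symm.trans h2) (by decide)
  · have := congrFun h2 (pt 4)
    rw [g1.coe, Pi.add_apply, Function.comp, show fl p1 (pt 4) = pt 4 from rfl,
      CharTwo.add_self_eq_zero] at this
    exact absurd this (by decide)
  rw [g2.coe] at h2
  obtain ⟨d, hd, e⟩ := fix2 (add_mem hu cB_mem) (eq_of_add (by
    rw [Pi.add_comp, add_add_add_comm, h2, show wv cB + wv cB ∘ fl p2 = 1 by decide +kernel, add_self]))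
  have := conj_eps hu hd sq2
  rw [g2.coe, add_assoc, ← e, ← add_assoc, add_self, zero_add] at this
  exact h1.trans this

theorem ex13 : ∃ h : Co0, eps (wv cB) * prm (pl p2) * h = h * (eps (wv cB) * prm (pl p2)) ∧
    h ^ 13 = 1 ∧ h ∉ center Co0 := by
  have hs : ∀ x < 1, ∃ g, Φ g = sem (lget [mH] 0 x) := fun x hx => by interval_cases x; exact xH
  have e : Φ (liftS Φ sem [mH] 0) = sem mH := liftS_spec (hs 0 one_pos)
  refine ⟨liftS Φ sem [mH] 0, ext8 fun j => Subtype.ext (funext fun i => ?_), ?_, fun h => ?_⟩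
  · rw [mat_mono e cB_mem, mul_app, mul_app, eps_apply cB_mem, prm_apply, col_eq e,
      show (pl p2).1⁻¹ = (pl p2).1 from congrArg Subtype.val (inv_eq_of_mul_eq_one_right sq2), g2.coe]
    revert i j; decide +kernel
  · rw [← List.prod_replicate, ← List.map_replicate (f := liftS Φ sem [mH])]
    exact Φ_inj ((D.liftW (lget_all (by decide +kernel)) hs (w := List.replicate 13 0) (Y := PM.one)
      (by decide) (by decide +kernel)).trans (D.sem1.trans Φ.map_one.symm))
  · have := col_eq e (pt 0) (pt 0)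
    rw [show A mH (pt 0) (pt 0) = 0 by decide +kernel] at this
    rcases center_eq h with h | h <;> rw [h] at this <;> exact absurd this (by decide)

end CfH9.CoFin
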