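import Cfsg.Agent.H9.CoFin1
import Cfsg.Agent.H9.CoFin3
/-! The class argument that finishes the recognition of `Co₁`. -/
set_option autoImplicit false
set_option maxRecDepth 100000
namespace CfH9.CoFin
open Cfsg Cfsg.Spor CfH4.Gol CfH6 CfH6.Lee Subgroup

variable {u v : Wd} {g : Co0}

theorem d0_mem : wv d0 ∈ golayCode := mem_of_cw (by decide +kernel)

/-- vectors supported on a dodecad or on its complement -/
def Sup (s : ZMod 2) (x : V) : Prop := ∀ j, wv d0 j ≠ s → x j = 0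

/-- commuting with the sign change on the dodecad modulo the centre -/
def Cm (g : Co0) : Prop := ∃ z ∈ center Co0, g * eps (wv d0) = z * (eps (wv d0) * g)

theorem Cm.inv (h : Cm g) : Cm g⁻¹ := by
  obtain ⟨z, hz, e⟩ := h
  refine ⟨z⁻¹, inv_mem hz, ?_⟩
  rw [eq_inv_mul_iff_mul_eq, ← mul_assoc, ← mem_center_iff.1 hz, mul_assoc, inv_mul_eq_iff_eq_mul,
    ← mul_assoc g, e]
  simp only [mul_assoc, mul_inv_cancel, mul_one]

theorem Cm.sup (h : Cm g) {s : ZMod 2} {x : Λ} (hx : Sup s x.1) : ∃ t, Sup t (g.1 x).1 := by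
  obtain ⟨z, hz, e⟩ := h
  have h1 : (eps (wv d0)).1 x = sg (fun _ => s) none • x := Subtype.ext (funext fun j => by
    rw [eps_apply d0_mem]
    change _ = _ * x.1 j
    by_cases c : wv d0 j = s
    · simp only [sg, c]
    · rw [hx j c, mul_zero, mul_zero])
  obtain ⟨t, ht⟩ : ∃ t : ZMod 2, z = eps fun _ => t :=
    (center_eq hz).elim (fun e => ⟨0, e.trans eps_zero.symm⟩) fun e => ⟨1, e.trans eps_one.symm⟩
  have h0 : (fun _ => t) ∈ golayCode := by
    rcases val01 t with ⟨rfl, -⟩ | ⟨rfl, -⟩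
    exacts [zero_mem _, Lee.one_mem]
  refine ⟨s + t, fun j hj => ?_⟩
  have h2 := congrArg (fun k : Co0 => (k.1 x).1 j) e
  simp only [mul_app, ht, eps_apply h0, eps_apply d0_mem, h1] at h2
  rw [show g.1 (sg (fun _ => s) none • x) = _ from map_zsmul (hom g) _ _] at h2
  change _ * (g.1 x).1 j = _ at h2
  unfold sg at h2
  generalize wv d0 j = a at hj h2
  rcases val01 s with ⟨rfl, -⟩ | ⟨rfl, -⟩ <;> rcases val01 t with ⟨rfl, -⟩ | ⟨rfl, -⟩ <;>
    rcases val01 a with ⟨rfl, -⟩ | ⟨rfl, -⟩ <;> first | exact absurd rfl hj | (simp at h2; omega)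

theorem big {x : V} {s : ZMod 2} {c : ℤ} (h : ∀ j, wv d0 j = s → c ≤ x j ^ 2) : c * 12 ≤ sqNorm x := by
  rw [← (show ∀ s, ∑ j, (if wv d0 j = s then 1 else 0 : ℤ) = 12 by decide +kernel) s, Finset.mul_sum]
  refine Finset.sum_le_sum fun j _ => ?_
  split_ifs with e
  exacts [(mul_one c).symm ▸ h j e, (mul_zero c).symm ▸ sq_nonneg _]

theorem Sup.mod4 {s : ZMod 2} {x : Λ} (hx : Sup s x.1) (h : sqNorm x.1 = 32) (i : GolayPt) :
    x.1 i % 4 = 0 := by
  obtain ⟨m, w, hw, h1, -⟩ := Lee.mem_iff.1 x.2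
  obtain ⟨j, hj⟩ := (show ∀ s, ∃ j, wv d0 j ≠ s by decide +kernel) s
  obtain ⟨u, hu, h2⟩ : ∃ u ∈ golayCode, ∀ i, x.1 i % 4 = 2 * (u i).val := by
    have h3 := h1 j
    rw [hx j hj] at h3
    rcases val01 (w j) with ⟨-, b⟩ | ⟨-, b⟩
    · refine ⟨w, hw, fun i => ?_⟩
      have := h1 i
      rcases val01 (w i) with ⟨-, c⟩ | ⟨-, c⟩ <;> omega
    · refine ⟨w + 1, add_mem hw Lee.one_mem, fun i => ?_⟩
      have := h1 i
      have := val_add2 (w i) 1
      rw [Pi.add_apply, Pi.one_apply]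
      rcases val01 (w i + 1) with ⟨-, c⟩ | ⟨-, c⟩ <;> rw [show ((1 : ZMod 2).val : ℤ) = 1 from rfl] at this <;>
        omega
  rcases sub_dod hu (s := s) (fun j hj => by
    have := h2 j
    rw [hx j hj] at this
    rcases val01 (u j) with ⟨a, -⟩ | ⟨-, b⟩
    exacts [a, by omega]) with e | e
  · rw [h2, e]; rfl
  · have := big (x := x.1) (c := 4) fun j hj => by
      have := h2 j
      rw [e j hj, show ((1 : ZMod 2).val : ℤ) = 1 from rfl] at this
      rcases (by omega : x.1 j ≤ -2 ∨ 2 ≤ x.1 j) with c | c <;> nlinarith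
    omega

def w4 (k l : GolayPt) (e : ℤ) : V := fun i => (if i = k then 4 else 0) + e * if i = l then 4 else 0

theorem w4_ok : ∀ k l, k ≠ l → ∀ e ∈ [(1 : ℤ), -1], ((∀ i, w4 k l e i % 4 = 0) ∧
    (∑ i, w4 k l e i) % 8 = 0) ∧ sqNorm (w4 k l e) = 32 := by decide +kernel

theorem cent_dod (h : Cm g) : g ∈ N0 := mem_N0 fun i => by
  obtain ⟨s, hs⟩ := h.sup (s := wv d0 i) (x := e8 i) fun j hj => if_neg fun e => hj (congrArg _ e)
  have hn : sqNorm (g.1 (e8 i)).1 = 64 := (g.2.2 _).trans (sq_v8 i)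
  have hb := fun j => col_bd g j i
  generalize hy : g.1 (e8 i) = y at hs hn hb
  have h1 : ∀ k l, k ≠ l → wv d0 k = s → wv d0 l = s → ∀ e ∈ [(1 : ℤ), -1], (y.1 k + e * y.1 l) % 8 = 0 := by
    intro k l c hk hl e he
    have a1 : w4 k l e ∈ leechLattice := Lee.mem_iff.2 ⟨0, 0, zero_mem _, (w4_ok k l c e he).1⟩
    obtain ⟨t, ht⟩ := h.inv.sup (s := s) (x := ⟨_, a1⟩) fun j hj => by
      change w4 k l e j = 0
      rw [w4, if_neg fun (e : j = k) => hj (e ▸ hk), if_neg fun (e : j = l) => hj (e ▸ hl)]; simp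
    have a3 := ht.mod4 ((g⁻¹.2.2 _).trans (w4_ok k l c e he).2) i
    have a4 := dot_pres g.2 (g⁻¹.1 ⟨_, a1⟩) (e8 i)
    rw [← mul_app, mul_inv_cancel, hy] at a4
    change dotInt (w4 k l e) _ = dotInt _ (v8 i) at a4
    simp only [dotInt, w4, v8, add_mul, mul_assoc, ← Finset.mul_sum, Finset.sum_add_distrib, ite_mul, mul_ite,
      zero_mul, mul_zero, Finset.sum_ite_eq', Finset.mem_univ, if_true] at a3 a4
    simp only [List.mem_cons, List.not_mem_nil, or_false] at he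
    rcases he with rfl | rfl <;> omega
  obtain ⟨l, hl, h2⟩ : ∃ l, wv d0 l = s ∧ y.1 l ^ 2 < 16 := by
    by_contra hc
    push Not at hc
    have := big hc
    omega
  have h3 : y.1 l = 0 := by
    obtain ⟨k, c, hk⟩ := (show ∀ l, ∃ k, k ≠ l ∧ wv d0 k = wv d0 l by decide +kernel) l
    have := h1 k l c (hk.trans hl) hl 1 (by simp)
    have := h1 k l c (hk.trans hl) hl (-1) (by simp)
    rcases (by omega : y.1 l = 0 ∨ y.1 l ≤ -4 ∨ 4 ≤ y.1 l) with c | c | c
    exacts [c, by nlinarith, by nlinarith]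
  obtain ⟨k, hk⟩ : ∃ k, y.1 k ≠ 0 := by
    by_contra hc
    push Not at hc
    simp [sqNorm, hc] at hn
  have h4 := h1 k l (fun e => hk (e ▸ h3)) (by_contra fun e => hk (hs k e)) hl 1 (by simp)
  obtain ⟨t, t1, t2⟩ : ∃ t : ℤ, t * t = 1 ∧ y.1 k = t * 8 := by
    have := hb k
    rcases (by omega : y.1 k = 8 ∨ y.1 k = -8) with c | c
    exacts [⟨1, rfl, c⟩, ⟨-1, rfl, by omega⟩]
  refine ⟨k, t, t1, Subtype.ext (funext fun j => ?_)⟩
  change _ = t * v8 k j
  unfold v8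
  split_ifs with c
  · rw [c, t2]
  · have := Finset.add_le_sum (f := fun j => y.1 j ^ 2) (s := Finset.univ) (fun _ _ => sq_nonneg _)
      (Finset.mem_univ j) (Finset.mem_univ k) c
    change _ ≤ sqNorm y.1 at this
    rw [t2, mul_pow, sq t, t1, hn] at this
    rw [mul_zero, ← pow_eq_zero_iff two_ne_zero]
    linarith [sq_nonneg (y.1 j)]

/-- the image of a sign change in `Co₁` -/
noncomputable def ep (u : Wd) : Co1 := QuotientGroup.mk (eps u)

theorem ep_add (hu : u ∈ golayCode) (hv : v ∈ golayCode) : ep (u + v) = ep u * ep v :=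
  congrArg QuotientGroup.mk (eps_add hu hv)

theorem ep_zero : ep 0 = 1 := congrArg QuotientGroup.mk eps_zero

theorem ep_one : ep 1 = 1 := (QuotientGroup.eq_one_iff _).2 (eps_one ▸ neg_center)

theorem ep_add_one (hu : u ∈ golayCode) : ep (u + 1) = ep u := by
  rw [ep_add hu Lee.one_mem, ep_one, mul_one]

theorem ep_sq (hu : u ∈ golayCode) : ep u * ep u = 1 := by rw [← ep_add hu hu, add_self, ep_zero]

theorem ep_eq (hu : u ∈ golayCode) (hv : v ∈ golayCode) (h : ep u = ep v) : u = v ∨ u + 1 = v := by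
  refine (center_eq (QuotientGroup.eq.1 h)).imp (fun e => (mono_inj hu hv (π := 1) (ρ := 1) ?_).1)
    fun e => (mono_inj (add_mem hu Lee.one_mem) hv (π := 1) (ρ := 1) ?_).1
  · rw [inv_mul_eq_one.1 e]
  · rw [inv_mul_eq_iff_eq_mul.1 e, eps_add hu Lee.one_mem, eps_one]

def E1 : Subgroup Co1 where
  carrier := {b | ∃ u ∈ golayCode, b = ep u}
  one_mem' := ⟨0, zero_mem _, ep_zero.symm⟩
  mul_mem' := by
    rintro _ _ ⟨u, hu, rfl⟩ ⟨v, hv, rfl⟩
    exact ⟨_, add_mem hu hv, (ep_add hu hv).symm⟩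
  inv_mem' := by
    rintro _ ⟨u, hu, rfl⟩
    exact ⟨u, hu, inv_eq_of_mul_eq_one_right (ep_sq hu)⟩

theorem ex_ph {b : Co1} (hb : b ∈ E1) : ∃ n < 2048, b = ep (wv (cw (2 * n))) := by
  obtain ⟨u, hu, rfl⟩ := hb
  have k : ∀ u ∈ golayCode, u (pt 0) = 0 → ∃ n < 2048, u = wv (cw (2 * n)) := fun u hu h => by
    obtain ⟨n, hn, rfl⟩ := ex_cw hu
    have := (show ∀ n < 4096, wv (cw n) (pt 0) = 0 → n % 2 = 0 by decide +kernel) n hn h
    exact ⟨n / 2, by omega, by rw [show 2 * (n / 2) = n by omega]⟩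
  rcases val01 (u (pt 0)) with ⟨a, -⟩ | ⟨a, -⟩
  · obtain ⟨n, hn, e⟩ := k u hu a
    exact ⟨n, hn, congrArg ep e⟩
  · obtain ⟨n, hn, e⟩ := k (u + 1) (add_mem hu Lee.one_mem) (by rw [Pi.add_apply, a]; rfl)
    exact ⟨n, hn, (ep_add_one hu).symm.trans (congrArg ep e)⟩

theorem ph_inj {m n : ℕ} (hm : m < 2048) (hn : n < 2048)
    (h : ep (wv (cw (2 * m))) = ep (wv (cw (2 * n)))) : m = n := by
  rcases ep_eq (cw_mem _) (cw_mem _) h with e | e
  · have := cw_inj (by omega) (by omega) e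
    omega
  · have k : ∀ n < 2048, wv (cw (2 * n)) (pt 0) = 0 := by decide +kernel
    have := congrFun e (pt 0)
    rw [Pi.add_apply, k m hm, k n hn] at this
    exact absurd this (by decide)

theorem cntE {P : Set Co1} {Q : ℕ → Prop} [DecidablePred Q] (h1 : ∀ b ∈ P, b ∈ E1)
    (h2 : ∀ n, ep (wv (cw (2 * n))) ∈ P ↔ Q n) : P.ncard = ((Finset.range 2048).filter Q).card := by
  rw [← Set.ncard_coe_finset, ← Set.InjOn.ncard_image (f := fun n => ep (wv (cw (2 * n)))) fun m hm n hn =>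
    ph_inj (Finset.mem_range.1 (Finset.mem_filter.1 hm).1) (Finset.mem_range.1 (Finset.mem_filter.1 hn).1)]
  refine congrArg _ (Set.ext fun b => ⟨fun hb => ?_, ?_⟩)
  · obtain ⟨n, hn, rfl⟩ := ex_ph (h1 b hb)
    exact ⟨n, Finset.mem_filter.2 ⟨Finset.mem_range.2 hn, (h2 n).1 hb⟩, rfl⟩
  · rintro ⟨n, hn, rfl⟩
    exact (h2 n).2 (Finset.mem_filter.1 hn).2

theorem eps_cj (hu : u ∈ golayCode) (σ : M24) : prm σ⁻¹ * eps u * (prm σ⁻¹)⁻¹ = eps (u ∘ σ.1) := by
  rw [prm_eps hu, inv_inv σ, mul_inv_cancel_right]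

theorem ep_cj (hu : u ∈ golayCode) (σ : M24) :
    (prm σ⁻¹ : Co1) * ep u * (prm σ⁻¹ : Co1)⁻¹ = ep (u ∘ σ.1) := congrArg QuotientGroup.mk (eps_cj hu σ)

theorem N0_norm (h : g ∈ N0) : (g : Co1) ∈ Nm(E1) := mem_normalizer_fintype (by
  rintro _ ⟨v, hv, rfl⟩
  obtain ⟨u, hu, π, rfl⟩ := h
  have := comp_mem π⁻¹.2 hv
  exact ⟨_, this, congrArg QuotientGroup.mk (show eps u * prm π * eps v * (eps u * prm π)⁻¹ = _ by
    rw [mul_inv_eq_iff_eq_mul, mul_assoc, prm_eps hv, ← mul_assoc, ← mul_assoc, ← eps_add hu this,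
      ← eps_add this hu, add_comm])⟩)

theorem pdvd {p : ℕ} [Fact p.Prime] {h : Co0} {t : Co1} (hc : t * h = h * t) (hp : h ^ p = 1)
    (hz : h ∉ center Co0) : p ∣ Nat.card Cx(t) := by
  rw [← orderOf_eq_prime (x := (h : Co1)) (congrArg QuotientGroup.mk hp) fun e =>
    hz ((QuotientGroup.eq_one_iff _).1 e)]
  exact Subgroup.orderOf_dvd_natCard _ (mem_centralizer_singleton_iff.2 hc.symm)

theorem cent_le : Cx(ep (wv d0)) ≤ N0.map (QuotientGroup.mk' _) := fun t h => by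
  obtain ⟨g, rfl⟩ := QuotientGroup.mk_surjective t
  have hz : (eps (wv d0) * g)⁻¹ * (g * eps (wv d0)) ∈ center Co0 :=
    QuotientGroup.eq.1 (mem_centralizer_singleton_iff.1 h).symm
  exact ⟨g, cent_dod ⟨_, hz, by rw [← mem_center_iff.1 hz, mul_inv_cancel_left]⟩, rfl⟩

theorem dvd11 : 11 ∣ Nat.card Cx(ep (wv d0)) := by
  haveI : Fact (Nat.Prime 11) := ⟨by norm_num⟩
  refine pdvd (h := prm (pl m11)) (congrArg QuotientGroup.mk (show eps _ * prm _ = prm _ * eps _ by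
    rw [eps_prm d0_mem, g11.coe, show wv d0 ∘ fl m11 = wv d0 by decide +kernel])) ?_ fun h => ?_
  · rw [← map_pow, show pl m11 ^ 11 = 1 from Subtype.ext (Equiv.ext fun p => ?_), map_one]
    rw [Subgroup.coe_pow, Equiv.Perm.coe_pow, g11.coe]
    revert p; decide +kernel
  · have : pl m11 = 1 := (center_eq h).elim (fun e => (mono_inj (zero_mem _) (zero_mem _) (by
      rw [e, map_one])).2) fun e => (mono_inj (zero_mem _) Lee.one_mem (by
        rw [e, map_one, eps_zero, eps_one, one_mul, mul_one])).2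
    have h2 := g11.coe
    rw [this] at h2
    exact absurd (congrFun h2 (pt 1)) (by decide +kernel)

theorem tr_eps (hu : u ∈ golayCode) : (Φ (eps u)).trace = 24 - 2 * (wt u : ZMod 17) := by
  rw [wt, support₂, Finset.card_filter, Nat.cast_sum, Finset.mul_sum,
    show (24 : ZMod 17) = ∑ _i : GolayPt, 1 by decide +kernel, ← Finset.sum_sub_distrib]
  refine Finset.sum_congr rfl fun i _ => ?_
  change 15 * ((((eps u).1 (e8 i)).1 i : ℤ) : ZMod 17) = _
  rw [eps_apply hu]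
  change 15 * ((_ * v8 i i : ℤ) : ZMod 17) = _
  rw [v8, if_pos rfl, sg]
  by_cases h : u i = 0
  · rw [if_pos h, if_neg (not_not.2 h)]; decide
  · rw [if_neg h, if_pos h]; decide

/-- the class argument -/
theorem surj {G : Type*} [Group G] [Finite G] (ψ : Co1 →* G) (hψ : Function.Injective ψ) (a : Co0)
    (O : Finset GolayPt) (hO : O.card = 8) (ha : ∀ j, a.1 (e8 j) = if j ∈ O then -e8 j else e8 j)
    (hz : Subgroup.centralizer {ψ (a : Co1)} ≤ ψ.range)
    (hc : Nat.card (Subgroup.centralizer {ψ (a : Co1)}) = 2 ^ 9 * 174182400) : Function.Surjective ψ := by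
  have ha' : ∀ j, a.1 (e8 j) = (if j ∈ O then -1 else 1 : ℤ) • e8 j := fun j => by
    rw [ha]; split_ifs <;> simp
  obtain ⟨u, hu, π, rfl⟩ := mem_N0 (g := a) fun j => ⟨j, _, by split_ifs <;> rfl, ha' j⟩
  have k := fun j => e8_inj (sg_sq _ _) ((mono_e8 hu π j).symm.trans (ha' j))
  obtain rfl : π = 1 := Subtype.ext (Equiv.ext fun j => (k j).1)
  have w8 : wt u = 8 := hO ▸ congrArg Finset.card (Finset.ext fun j => by
    have : sg u j = _ := (k j).2
    rw [support₂, Finset.mem_filter_univ]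
    unfold sg at this
    split_ifs at this <;> simp_all)
  rw [map_one, mul_one] at hz hc
  change Cx(ψ (ep u)) ≤ _ at hz
  change Nat.card Cx(ψ (ep u)) = _ at hc
  have n11 : ¬ 11 ∣ Nat.card Cx(ψ (ep u)) := by rw [hc]; norm_num
  have ne : ∀ v ∈ golayCode, wt v = 8 ∨ wt v = 12 → ep v ≠ 1 := fun v hv h e => by
    rcases ep_eq (zero_mem _) hv (ep_zero.trans e.symm) with rfl | rfl <;> exact absurd h (by decide +kernel)
  have cj : ∀ v ∈ golayCode, wt v = 8 ∨ wt v = 12 → ∃ n ∈ Nm(E1), n * ep v * n⁻¹ =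
      ep (wv (if wt v = 8 then o0 else d0)) := fun v hv h => by
    obtain ⟨σ, e⟩ := trans_wt hv h
    exact ⟨_, N0_norm ⟨0, zero_mem _, σ⁻¹, by rw [eps_zero, one_mul]⟩, e ▸ ep_cj hv σ⟩
  have c8 : ∀ v ∈ golayCode, wt v = 8 → IsConj (ep v) (ep (wv o0)) := fun v hv h => by
    obtain ⟨n, -, e⟩ := cj v hv (.inl h)
    exact isConj_iff.2 ⟨n, e.trans (by rw [if_pos h])⟩
  have hm : ∀ v ∈ golayCode, ep v ∈ {b | b ∈ E1 ∧ IsConj (ep u) b} ↔ wt v = 8 ∨ wt v = 16 := fun v hv => by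
    refine ⟨fun h => ?_, fun h => ⟨⟨v, hv, rfl⟩, (c8 u hu w8).trans ?_⟩⟩
    · rcases (wt_cases hv).2 with rfl | rfl | e | e | e
      · exact absurd (isConj_one_left.1 (ep_zero ▸ h.2)) (ne u hu (.inl w8))
      · exact absurd (isConj_one_left.1 (ep_one ▸ h.2)) (ne u hu (.inl w8))
      · exact .inl e
      · exact .inr e
      obtain ⟨n, -, e2⟩ := cj v hv (.inr e)
      rw [if_neg (by omega)] at e2
      exact absurd (dvd11.trans (card_Cx_cj (h.2.trans (isConj_iff.2 ⟨n, e2⟩)) ▸ card_Cx_dvd hψ _)) n11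
    · rcases h with h | h
      · exact (c8 v hv h).symm
      · exact ep_add_one hv ▸ (c8 _ (add_mem hv Lee.one_mem) (by rw [(wt_cases hv).1, h])).symm
  refine pure hψ (E := E1) (z := ep u) (v := ep (wv d0)) (O := {b | b ∈ E1 ∧ IsConj (ep u) b})
    (B := {t | ∃ g : Co0, t = g ∧ g * g = neg}) ?_ ?_ ⟨u, hu, rfl⟩ (ne u hu (.inl w8)) ⟨_, d0_mem, rfl⟩
    (ne _ d0_mem (.inr (by decide +kernel))) (fun _ => Iff.rfl) ?_ ?_ ?_ ?_ dvd11 ?_ ?_ ?_ ?_ hz n11
    (by rw [hc]; norm_num)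
  · rintro _ ⟨v, hv, rfl⟩
    exact ep_sq hv
  · refine (Nat.card_le_card_of_surjective (fun n : Fin 2048 => (⟨_, _, cw_mem (2 * n), rfl⟩ : E1))
      fun b => ?_).trans (Nat.card_fin _).le
    obtain ⟨n, hn, e⟩ := ex_ph b.2
    exact ⟨⟨n, hn⟩, Subtype.ext e.symm⟩
  · exact (cntE (fun _ h => h.1) fun n => by rw [hm _ (cw_mem _), wt_wv]).trans cnt1
  · refine (cntE (fun _ h => h.1.1) fun n => ?_).trans cnt2
    rw [Set.mem_sep_iff, ← ep_add (cw_mem _) d0_mem, hm _ (cw_mem _), hm _ (add_mem (cw_mem _) d0_mem),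
      ← wv_xor, wt_wv, wt_wv]
  · rintro _ ⟨v, hv, rfl⟩ h1 h2
    rw [hm v hv, not_or] at h2
    rcases (wt_cases hv).2 with rfl | rfl | e | e | e
    exacts [absurd ep_zero h1, absurd ep_one h1, absurd e h2.1, absurd e h2.2,
      by simpa only [if_neg h2.1] using cj v hv (.inr e)]
  · exact cent_le.trans (map_le_iff_le_comap.2 fun g => N0_norm)
  · intro h
    have := h.trans ((card_dvd_of_le cent_le).trans (card_map_dvd _ _))
    rw [card_N0] at this
    norm_num at this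
  · intro t ht
    obtain ⟨g, rfl⟩ := QuotientGroup.mk_surjective t
    refine (center_eq ((QuotientGroup.eq_one_iff (g * g)).1 ht)).symm.imp (fun e => ⟨g, rfl, e⟩) fun e => ?_
    obtain ⟨v, hv, h⟩ := clsA e
    obtain ⟨c, e⟩ := isConj_iff.1 h
    exact ⟨c, v, hv, congrArg QuotientGroup.mk e⟩
  · rintro _ ⟨g, rfl, e⟩
    haveI : Fact (Nat.Prime 13) := ⟨by norm_num⟩
    obtain ⟨h, h1, h2, h3⟩ := ex13
    rw [card_Cx_cj (s := (g : Co1)) (t := (eps (wv cB) * prm (pl p2) : Co0))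
      ((QuotientGroup.mk' _).map_isConj (clsB e))]
    exact pdvd (congrArg QuotientGroup.mk h1) h2 h3
  · rintro _ ⟨g, rfl, e⟩ h
    refine ⟨eps u * g, rfl, ?_⟩
    rcases center_eq (QuotientGroup.eq.1 (show ((g * eps u : Co0) : Co1) = (eps u * g : Co0) from h.symm))
      with c | c
    · rw [mul_assoc, ← mul_assoc g, inv_mul_eq_one.1 c, mul_assoc, e, ← mul_assoc, eps_sq hu, one_mul]
    · have h1 : eps u * g = g * eps (u + 1) := by
        rw [inv_mul_eq_iff_eq_mul.1 c, eps_add hu Lee.one_mem, eps_one, mul_assoc]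
      have h2 : (Φ (eps u)).trace = (Φ (eps (u + 1))).trace := by
        rw [eq_mul_inv_of_mul_eq h1, map_mul, Matrix.trace_mul_comm, ← map_mul, inv_mul_cancel_left]
      rw [tr_eps hu, tr_eps (add_mem hu Lee.one_mem), (wt_cases hu).1, w8] at h2
      exact absurd h2 (by decide)

end CfH9.CoFin
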