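import Cfsg.Agent.H6.N23a
import Cfsg.Agent.OD.Helper9xe8adf26a43
/-! Step `Q3` in the recognition of `M₂₃`: the subgroup `2⁴ : A₇`. -/
set_option autoImplicit false
open Subgroup CfH6 CfH1.MB2 CfH6.M23
namespace CfH9.M23
universe u

def mX : Mt := (1, 2, 8, 12)
def mY : Mt := (2, 3, 4, 8)
def mU : Mt := (5, 14, 4, 8)
def mV : Mt := (1, 2, 5, 10)
def mP : Mt := (1, 3, 4, 8)
def sw (M : Mt) : Mt := mm mP (mm M mP)
def wd (M : Mt) : List ℕ → Mt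
  | [] => I4
  | x :: w => mm (if x = 0 then mX else if x = 1 then mY else M) (wd M w)
def ws : List (List ℕ × List ℕ) := [([1, 2, 1, 1, 0, 2, 1, 0, 2, 1, 2], [1, 2, 1, 0, 2, 1, 1, 0, 2, 1, 0]),
  ([1, 2, 1, 1, 0, 2, 1, 0, 2, 1, 0], [2, 1, 2, 1, 1, 2, 2, 1, 1, 2, 0]),
  ([1, 2, 2, 1, 2, 1, 1, 0, 0, 2, 0], [0, 2, 1, 1, 0, 2, 1, 0, 2, 1]),
  ([0, 2, 1, 0, 2, 1, 1, 0, 2, 1], [2, 1, 1, 2, 1, 2, 2, 1, 2, 0]),
  ([0, 2, 1, 1, 2, 1, 2, 2, 1, 2], [0, 2, 1, 0, 2, 1, 1, 0, 2, 1]),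
  ([1, 2, 1, 2, 1, 0, 2, 1, 1, 0, 2], [1, 2, 1, 1, 0, 2, 1, 0, 2, 1, 0]),
  ([2, 1, 1, 0, 2, 1, 0, 2, 1, 0], [1, 2, 2, 1, 2, 1, 1, 0, 0, 2, 0]),
  ([2, 1, 0, 2, 1, 1, 0, 2, 1, 1, 0], [1, 2, 1, 1, 0, 2, 1, 0, 2, 1, 2]),
  ([0, 2, 1, 1, 2, 2, 1, 1, 2, 1, 2], [2, 1, 0, 2, 1, 1, 0, 2, 1, 1, 0]),
  ([2, 1, 1, 0, 2, 1, 0, 2, 1, 1, 0], [2, 1, 2, 1, 0, 2, 1, 1, 0, 2, 1]),
  ([0, 2, 1, 2, 2, 1, 2, 1, 1, 2], [2, 1, 1, 0, 2, 1, 0, 2, 1, 0]),
  ([2, 1, 0, 2, 1, 1, 0, 2, 1, 0], [1, 2, 1, 1, 2, 2, 1, 0, 2, 0, 0]),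
  ([1, 2, 1, 1, 0, 2, 1, 0, 2, 0], [0, 2, 1, 2, 2, 1, 2, 1, 1, 2]),
  ([1, 1, 2, 1, 0, 2, 1, 1, 0, 2, 0], [0, 2, 1, 1, 2, 2, 1, 1, 2, 1, 2]),
  ([2, 1, 1, 2, 1, 2, 2, 1, 2, 0], [2, 1, 0, 2, 1, 1, 0, 2, 1, 0]),
  ([2, 1, 2, 1, 1, 2, 2, 1, 1, 2, 0], [2, 1, 1, 0, 2, 1, 0, 2, 1, 1, 0]),
  ([1, 1, 2, 1, 1, 0, 2, 1, 0, 2, 0], [1, 2, 1, 2, 1, 0, 2, 1, 1, 0, 2]),
  ([2, 1, 1, 2, 2, 1, 1, 2, 1, 2, 0], [1, 1, 2, 1, 0, 2, 1, 1, 0, 2, 0]),
  ([1, 2, 1, 0, 2, 1, 1, 0, 2, 0], [0, 2, 1, 1, 2, 1, 2, 2, 1, 2]),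
  ([2, 1, 2, 2, 1, 2, 1, 1, 2, 0], [1, 2, 1, 1, 0, 2, 1, 0, 2, 0]),
  ([1, 2, 1, 1, 2, 2, 1, 0, 2, 0, 0], [1, 2, 1, 0, 2, 1, 1, 0, 2, 0]),
  ([2, 1, 2, 1, 0, 2, 1, 1, 0, 2, 1], [1, 1, 2, 1, 1, 0, 2, 1, 0, 2, 0]),
  ([0, 2, 1, 1, 0, 2, 1, 0, 2, 1], [2, 1, 2, 2, 1, 2, 1, 1, 2, 0]),
  ([1, 2, 1, 0, 2, 1, 1, 0, 2, 1, 0], [2, 1, 1, 2, 2, 1, 1, 2, 1, 2, 0])]
def Key (M : Mt) : Prop := mm mX M = mm (mp M 2) mX ∨ mm mX M = mm (mp M 4) mX → mp M 7 = I4 → M ≠ I4 →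
  ∃ t ∈ ws, (wd M t.1 = mU ∧ wd M t.2 = mV) ∨ (sw (wd M t.1) = mU ∧ sw (wd M t.2) = mV)
set_option synthInstance.maxSize 2000 in
instance (M : Mt) : Decidable (Key M) := by unfold Key; infer_instance

theorem key : ∀ a < 16, ∀ b < 16, ∀ c < 16, Key (1, a, b, c) := by decide +kernel

variable {G : Type*} [Group G] {p q r s : G}

theorem el_sw (h : E4 p q r s) (c : ℕ) : el p (p * q) r s c = el p q r s (app mP c) := by
  have : el p (p * q) r s c = el p q r s 1 ^ (c % 2) * el p q r s 3 ^ (c / 2 % 2) * el p q r s 4 ^ (c / 4 % 2) *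
      el p q r s 8 ^ (c / 8 % 2) := by rw [el1, el3, el4, el8]; rfl
  have b : ∀ {a : ℕ} (k : ℕ) (_ : a < 16 := by norm_num), a * (k % 2) < 16 := fun k ha => m16 ha k
  rw [this, h.pw2, h.pw2, h.pw2, h.pw2, h.mul (b _) (b _), h.mul (x16 (b _) (b _)) (b _),
    h.mul (x16 (x16 (b _) (b _)) (b _)) (b _)]
  rfl

theorem clo : closure ({p, p * q, r, s} : Set G) = closure {p, q, r, s} := by
  have m : ∀ {x : G} {S : Set G}, x ∈ S → x ∈ closure S := fun h => subset_closure h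
  refine le_antisymm ((closure_le _).2 ?_) ((closure_le _).2 ?_) <;> rintro x (h | h | h | h) <;> rw [h]
  exacts [m (.inl rfl), mul_mem (m (.inl rfl)) (m (.inr (.inl rfl))), m (.inr (.inr (.inl rfl))),
    m (.inr (.inr (.inr rfl))), m (.inl rfl), (mul_mem_cancel_left (m (.inl rfl))).1 (m (.inr (.inl rfl))),
    m (.inr (.inr (.inl rfl))), m (.inr (.inr (.inr rfl)))]

theorem act_sw (h : E4 p q r s) {k : G} {M : Mt} (a : Act p q r s k M) : Act p (p * q) r s k (sw M) := by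
  have bP : Bd mP := by unfold Bd mP; decide
  have k1 : ∀ c, k * el p q r s c * k⁻¹ = el p (p * q) r s (app mP (app M c)) := fun c => by
    rw [el_sw h, (by decide : ∀ c < 16, app mP (app mP c) = c) _ (app_lt a.1 _), h.act a]
  have a1 := k1 1
  have a3 := k1 3
  have a4 := k1 4
  have a8 := k1 8
  rw [el1] at a1; rw [el3] at a3; rw [el4] at a4; rw [el8] at a8
  exact ⟨⟨app_lt bP _, app_lt bP _, app_lt bP _, app_lt bP _⟩, a1, a3, a4, a8⟩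

theorem ee_sw (e : EE p q r s) : EE p (p * q) r s := by
  have h := e.e4
  have h' : E4 p (p * q) r s := ⟨h.p2, by rw [h.pq.symm.mul_mul_mul_comm, h.p2, h.q2, one_mul], h.r2, h.s2,
    (Commute.refl p).mul_right h.pq, h.pr, h.ps, h.pr.mul_left h.qr, h.ps.mul_left h.qs, h.rs, by rw [clo, h.card]⟩
  refine ⟨h', fun k a => ?_, fun k hk => (e.nor k hk).elim fun M a => ⟨_, act_sw h a⟩⟩
  obtain ⟨a1, a2, a3, a4⟩ := h'.aI.1 a
  rw [← mul_assoc, a1, mul_assoc, mul_assoc, mul_left_cancel_iff] at a2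
  rw [clo]
  exact e.self k (h.aI.2 ⟨a1, a2, a3, a4⟩)

theorem fpf (e : EE p q r s) {g k : G} {M : Mt} (a : Act p q r s g M) (f : ∀ c < 16, app M c = c → c = 0)
    (hk : Act p q r s k I4) (c : g * k = k * g) : k = 1 := by
  obtain ⟨d, hd, rfl⟩ := e.e4.ex (e.self k hk)
  have := e.e4.act a d
  rw [c, mul_inv_cancel_right] at this
  rw [f d hd (e.e4.inj (app_lt a.1 _) hd this.symm), el0]

theorem adj (e : EE p q r s) {a c : G} {A C : Mt} (ha : Act p q r s a A) (hc : Act p q r s c C)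
    (h1 : mm A A = I4) (h2 : mm C (mp C 2) = I4) (h3 : mm (mm (mm A C) A) (mp C 2) = I4) (h4 : mm I4 A = A)
    (f : ∀ c < 16, app C c = c → c = 0) (o : ∀ d < 16, ∃ t < 16, t ^^^ d ^^^ app C t = 0) :
    ∃ b, Act p q r s b A ∧ b * c = c * b ∧ b * b = 1 := by
  have h := e.e4
  obtain ⟨d, hd, e1⟩ := h.ex (e.self _ (h3 ▸ h.amul (h.amul (h.amul ha hc) (h.ainv ha ha.1 h1))
    (h.ainv hc (mp_bd hc.1 2) h2)))
  obtain ⟨t, ht, e2⟩ := o d hd
  have ab : Act p q r s (el p q r s t * a) A := h4 ▸ h.amul (h.aE (E4.mem t)) ha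
  have k : el p q r s t * a * c = c * (el p q r s t * a) := by
    have := h.mul (x16 ht hd) (app_lt hc.1 t)
    rw [e2, el0, ← h.mul ht hd, ← e1, ← h.act hc, ← inv_eq_of_mul_eq_one_right (h.sq ht)] at this
    have i := inv_eq_of_mul_eq_one_right (h.sq ht)
    generalize el p q r s t = v at this i
    rw [← mul_inv_eq_one, ← this, i, mul_inv_rev, mul_inv_rev, i]
    group
  exact ⟨_, ab, k, fpf e hc f (h1 ▸ h.amul ab ab) ((Commute.symm k).mul_right (Commute.symm k))⟩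

theorem fin (e : EE p q r s) {x y a0 b0 : G} (ax : Act p q r s x mX) (ay : Act p q r s y mY) (x3 : x ^ 3 = 1)
    (y3 : y ^ 3 = 1) (xy : x * y = y * x) (ha : Act p q r s a0 mU) (hb : Act p q r s b0 mV) :
    ∃ ev : ℕ → G, Fr3 ev := by
  have h := e.e4
  have ac := h.amul ax (h.ainv ay (mp_bd ay.1 2) (by decide))
  have ad := h.amul ax ay
  obtain ⟨a, aa, a1, a2⟩ := adj e ha ac (by decide) (by decide) (by decide) (by decide) (by decide) (by decide)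
  obtain ⟨b, ab, b1, b2⟩ := adj e hb ad (by decide) (by decide) (by decide) (by decide) (by decide) (by decide)
  have pw : ∀ {g M} (n : ℕ), Act p q r s g M → mp M n = I4 → (∀ c < 16, app M c = c → c = 0) → g ^ n = 1 :=
    fun n a k f => fpf e a f (k ▸ h.apow a n) (Commute.self_pow _ n)
  have f1 := pw 3 (h.amul aa ad) (by decide) (by decide)
  have f2 := pw 3 (h.amul ab ac) (by decide) (by decide)
  have f3 := pw 3 (h.amul (h.amul aa ab) (h.amul aa ab)) (by decide) (by decide)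
  have f4 := pw 5 (h.amul ax (h.amul aa ab)) (by decide) (by decide)
  have f5 := pw 5 (h.amul ay (h.amul aa ab)) (by decide) (by decide)
  have ai : a⁻¹ = a := inv_eq_of_mul_eq_one_right a2
  have bi : b⁻¹ = b := inv_eq_of_mul_eq_one_right b2
  have cc : ∀ {x y : G}, x * x = 1 → y * y = 1 → Commute x y → x * (y * (x * y)) = 1 := fun {x y} a b c => by
    rw [c.eq, ← mul_assoc y, b, one_mul, a]
  have fn : ∀ {g x y : G} {c : ℕ}, c < 16 → g * x * g⁻¹ = el p q r s c → y = el p q r s c → g * (x * (g⁻¹ * y)) = 1 :=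
    fun hc a b => by rw [← mul_assoc, ← mul_assoc, a, b, h.sq hc]
  have fn' : ∀ {g x y : G} {c : ℕ}, g⁻¹ = g → c < 16 → g * x * g⁻¹ = el p q r s c → y = el p q r s c →
      g * (x * (g * y)) = 1 := fun i hc a b => by simpa only [i] using fn hc a b
  have cm : ∀ {g c : G}, g * c = c * g → g * g = 1 → g * c * g * c⁻¹ = 1 := fun k1 k2 => by
    rw [k1, mul_assoc _ _ _, mul_assoc, ← mul_assoc _ _ _⁻¹, k2, one_mul, mul_inv_cancel]
  refine ⟨fun i => [x, x⁻¹, y, y⁻¹, a, b, p, q, r, s].getD i 1, fun i hi => ?_, fun w hw => ?_, e⟩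
  · interval_cases i
    exacts [rfl, (inv_inv x).symm, rfl, (inv_inv y).symm, ai.symm, bi.symm, eq_inv_of_mul_eq_one_right h.p2,
      eq_inv_of_mul_eq_one_right h.q2, eq_inv_of_mul_eq_one_right h.r2, eq_inv_of_mul_eq_one_right h.s2]
  simp only [rN, rA, rE, rM, List.mem_append, List.mem_cons, List.not_mem_nil, or_false] at hw
  rcases hw with ((rfl | rfl | rfl | rfl | rfl | rfl | rfl | rfl | rfl | rfl) | rfl | rfl | rfl | rfl | rfl | rfl) |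
    rfl | rfl | rfl | rfl | rfl | rfl | rfl | rfl | rfl | rfl | rfl | rfl | rfl | rfl | rfl | rfl <;>
    simp only [evw_cons, evw_nil, List.getD_cons_succ, List.getD_cons_zero, mul_one]
  · rw [← x3]; simp only [pow_succ, pow_zero, one_mul, mul_assoc]
  · rw [← y3]; simp only [pow_succ, pow_zero, one_mul, mul_assoc]
  · rw [← mul_assoc, xy]; simp
  · simpa only [mul_assoc, mul_inv_rev, inv_inv] using cm a1 a2
  · simpa only [mul_assoc, mul_inv_rev, inv_inv] using cm b1 b2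
  · rw [← f1]; simp only [pow_succ, pow_zero, one_mul, mul_assoc]
  · rw [← f2]; simp only [pow_succ, pow_zero, one_mul, mul_assoc]
  · rw [← f3]; simp only [pow_succ, pow_zero, one_mul, mul_assoc]
  · rw [← f4]; simp only [pow_succ, pow_zero, one_mul, mul_assoc]
  · rw [← f5]; simp only [pow_succ, pow_zero, one_mul, mul_assoc]
  · exact cc h.p2 h.q2 h.pq
  · exact cc h.p2 h.r2 h.pr
  · exact cc h.p2 h.s2 h.ps
  · exact cc h.q2 h.r2 h.qr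
  · exact cc h.q2 h.s2 h.qs
  · exact cc h.r2 h.s2 h.rs
  · exact fn (by decide) ax.2.1 el1.symm
  · exact fn (by decide) ax.2.2.1 el2.symm
  · exact fn (by decide) ax.2.2.2.1 el8.symm
  · exact fn (by decide) ax.2.2.2.2 (by simp [el, mX])
  · exact fn (by decide) ay.2.1 el2.symm
  · exact fn (by decide) ay.2.2.1 el3.symm
  · exact fn (by decide) ay.2.2.2.1 el4.symm
  · exact fn (by decide) ay.2.2.2.2 el8.symm
  · exact fn' ai (by decide) aa.2.1 (by simp [el, mU])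
  · exact fn' ai (by decide) aa.2.2.1 (by simp [el, mU, mul_assoc])
  · exact fn' ai (by decide) aa.2.2.2.1 el4.symm
  · exact fn' ai (by decide) aa.2.2.2.2 el8.symm
  · exact fn' bi (by decide) ab.2.1 el1.symm
  · exact fn' bi (by decide) ab.2.2.1 el2.symm
  · exact fn' bi (by decide) ab.2.2.2.1 (by simp [el, mV])
  · exact fn' bi (by decide) ab.2.2.2.2 (by simp [el, mV])

theorem q3 : Q3.{u} := fun {G} _ _ p q r s x y g F => by
  have h := F.ee.e4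
  obtain ⟨⟨m, a, b, c⟩, aM⟩ := F.ee.nor g F.gp
  obtain rfl : m = 1 := h.inj aM.1.1 (by norm_num) (by rw [← aM.2.1, F.gp, el1, mul_inv_cancel_right])
  have aW : ∀ w, Act p q r s (evw (fun i => if i = 0 then x else if i = 1 then y else g) w) (wd (1, a, b, c) w) := by
    intro w
    induction w with
    | nil => exact h.aE (one_mem _)
    | cons i w ih =>
      rw [evw_cons]
      refine h.amul ?_ ih
      split_ifs
      exacts [F.ax, F.ay, aM]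
  obtain ⟨t, -, ⟨k1, k2⟩ | ⟨k1, k2⟩⟩ := key a aM.1.2.1 b aM.1.2.2.1 c aM.1.2.2.2
    (F.xg.imp (fun k => h.uniq (h.amul F.ax aM) (by rw [mul_inv_eq_iff_eq_mul.1 k]; exact h.amul (h.apow aM 2) F.ax))
      fun k => h.uniq (h.amul F.ax aM) (by rw [mul_inv_eq_iff_eq_mul.1 k]; exact h.amul (h.apow aM 4) F.ax))
    (h.uniq (h.apow aM 7) (h.aE (by rw [← F.g7, pow_orderOf_eq_one]; exact one_mem _)))
    (fun k => by
      obtain ⟨d, hd, e⟩ := h.ex (F.ee.self g (k ▸ aM))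
      have := orderOf_dvd_of_pow_eq_one (show g ^ 2 = 1 by rw [sq, e, h.sq hd])
      rw [F.g7] at this
      exact absurd this (by norm_num))
  · exact fin F.ee F.ax F.ay F.x3 F.y3 F.xy (k1 ▸ aW t.1) (k2 ▸ aW t.2)
  · exact fin (ee_sw F.ee) (y := y⁻¹) (act_sw h F.ax) (act_sw h (h.ainv F.ay (mp_bd F.ay.1 2) (by decide))) F.x3
      (by rw [inv_pow, F.y3, inv_one]) (Commute.inv_right F.xy) (k1 ▸ act_sw h (aW t.1)) (k2 ▸ act_sw h (aW t.2))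

end CfH9.M23
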