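import Cfsg.Agent.H6.N23Q0
import Cfsg.Agent.L.M23b
import Cfsg.Agent.H1.MG1
import Cfsg.Agent.H8.MG5
/-! A lower bound for the class number of a group of order `10200960`. -/
set_option autoImplicit false
open Cfsg CfH4 CfH4.GA CfH9 CfH4.D1 CfH4.PA CfH6.QC Subgroup Finset
namespace CfH9.M23
universe u

theorem k16 {P : Type*} [Group P] [Finite P] (h : Nat.card P = 16) : 6 ≤ Nat.card (ConjClasses P) := by
  classical
  haveI := Fintype.ofFinite P
  haveI := Fintype.ofFinite (ConjClasses P)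
  haveI : Nontrivial P := Finite.one_lt_card_iff_nontrivial.1 (by omega)
  haveI := (IsPGroup.of_card (p := 2) (n := 4) h).center_nontrivial
  obtain ⟨⟨z, hz⟩, z1⟩ := exists_ne (1 : center P)
  replace z1 : z ≠ 1 := fun c => z1 (Subtype.ext c)
  have c : ∀ {a b : P}, a ∈ center P → ConjClasses.mk b = ConjClasses.mk a → b = a := fun ha e => by
    obtain ⟨g, rfl⟩ := isConj_iff.1 (ConjClasses.mk_eq_mk_iff_isConj.1 e.symm)
    rw [mem_center_iff.1 ha, mul_inv_cancel_right]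
  have a := card_le_mul_card_image (f := ConjClasses.mk) ({1, z}ᶜ : Finset P) 4 fun b hb => by
    obtain ⟨a, ha, rfl⟩ := mem_image.1 hb
    rw [Finset.mem_compl, Finset.mem_insert, Finset.mem_singleton, not_or] at ha
    have e1 := card_mul_index Cx(a)
    have e2 : ({1, z, a} : Finset P).card ≤ Nat.card Cx(a) := by
      rw [Nat.card_eq_fintype_card, Fintype.card_subtype]
      refine card_le_card fun t ht => mem_filter.2 ⟨mem_univ _, ?_⟩
      simp only [mem_insert, Finset.mem_singleton] at ht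
      rcases ht with rfl | rfl | rfl
      exacts [one_mem _, mem_Cx.2 (mem_center_iff.1 hz _).symm, mem_Cx.2 rfl]
    rw [card_eq_three.2 ⟨_, _, _, z1.symm, Ne.symm ha.1, Ne.symm ha.2, rfl⟩] at e2
    have e3 : Cx(a).index ≤ 4 := by
      rw [h] at e1
      have : Cx(a).index < 6 := by nlinarith
      have : Cx(a).index ≠ 5 := fun e => by rw [e] at e1; omega
      omega
    rw [← CfH5.natCard_isConj, Nat.card_eq_fintype_card, Fintype.card_subtype] at e3
    exact (card_le_card fun t ht => mem_filter.2 ⟨mem_univ _, ConjClasses.mk_eq_mk_iff_isConj.1 (mem_filter.1 ht).2.symm⟩).trans e3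
  rw [card_compl, card_pair z1.symm, ← Nat.card_eq_fintype_card, h] at a
  have b := card_le_card (s := image ConjClasses.mk ({1, z}ᶜ : Finset P)) (t := {ConjClasses.mk 1, ConjClasses.mk z}ᶜ) fun t ht => by
    obtain ⟨a, ha, rfl⟩ := mem_image.1 ht
    simp only [mem_compl, mem_insert, Finset.mem_singleton, not_or] at ha ⊢
    exact ⟨fun e => ha.1 (c (one_mem _) e), fun e => ha.2 (c hz e)⟩
  rw [card_compl, card_pair fun e => z1.symm (c hz e), ← Nat.card_eq_fintype_card] at b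
  omega

theorem oc {G : Type*} [Group G] {a b : G} (h : IsConj a b) : orderOf a = orderOf b := by
  obtain ⟨g, rfl⟩ := isConj_iff.1 h
  exact ((MulAut.conj g).orderOf_eq a).symm

theorem r2 : R2.{u} := fun {G} _ _ hG c23 c11 c5 y hy hC he => by
  haveI : Fact (Nat.Prime 3) := ⟨by norm_num⟩
  obtain ⟨P, hP⟩ := Sylow.exists_subgroup_card_pow_prime (G := Cx(y)) 2 (n := 4) (by rw [hC]; norm_num)
  have yy : y ∈ Cx(y) := mem_Cx.2 rfl
  have y7 : y ^ 7 = 1 := hy ▸ pow_orderOf_eq_one y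
  have cen : (⟨y, yy⟩ : Cx(y)) ∈ center Cx(y) := mem_center_iff.2 fun g => Subtype.ext (mem_Cx.1 g.2)
  have le : zpowers (⟨y, yy⟩ : Cx(y)) ≤ center _ := zpowers_le.2 cen
  haveI : (zpowers (⟨y, yy⟩ : Cx(y))).Normal := ⟨fun n hn g => by rwa [mem_center_iff.1 (le hn), mul_inv_cancel_right]⟩
  have top : zpowers (⟨y, yy⟩ : Cx(y)) ⊔ P = ⊤ := by
    refine eq_top_of_le_card _ (Nat.le_of_dvd Nat.card_pos ?_)
    rw [hC]
    refine Nat.Coprime.mul_dvd_of_dvd_of_dvd (m := 7) (n := 2 ^ 4) (by norm_num) ?_ (hP ▸ card_dvd_of_le le_sup_right)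
    have := card_dvd_of_le (le_sup_left : zpowers (⟨y, yy⟩ : Cx(y)) ≤ _ ⊔ P)
    rwa [Nat.card_zpowers, ← orderOf_coe, hy] at this
  have p64 : ∀ a : G, a ∈ zpowers y → ∀ k : P, (a * k.1.1) ^ 64 = a := fun a ha k => by
    have k1 : k.1.1 ^ 16 = 1 := by exact_mod_cast congrArg (fun t : P => t.1.1) (hP ▸ pow_card_eq_one' (x := k))
    have a7 : a ^ 7 = 1 := orderOf_dvd_iff_pow_eq_one.1 (hy ▸ orderOf_dvd_of_mem_zpowers ha)
    obtain ⟨n, rfl⟩ := mem_zpowers_iff.1 ha
    rw [(Commute.zpow_left (mem_Cx.1 k.1.2).symm n).mul_pow, show 64 = 16 * 4 from rfl, pow_mul k.1.1, k1, one_pow, mul_one,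
      show 16 * 4 = 7 * 9 + 1 from rfl, pow_succ, pow_mul, a7, one_pow, one_mul]
  have same : ∀ a : G, a = y ∨ a = y⁻¹ → ∀ k k' : ConjClasses P, IsConj (a * k.out.1.1) (a * k'.out.1.1) → k = k' :=
    fun a ha k k' e => by
      have az : a ∈ zpowers y := by rcases ha with rfl | rfl; exacts [mem_zpowers _, inv_mem (mem_zpowers _)]
      obtain ⟨g, hg⟩ := isConj_iff.1 e
      have e1 : g * a * g⁻¹ = a := by
        have := p64 a az k'.out
        rwa [← hg, conj_pow, p64 a az] at this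
      have gy : g ∈ Cx(y) := by
        rcases ha with rfl | rfl
        · exact mem_Cx.2 (mul_inv_eq_iff_eq_mul.1 e1)
        · exact mem_Cx.2 (Commute.inv_right_iff.1 (mul_inv_eq_iff_eq_mul.1 e1))
      have e2 : g * k.out.1.1 * g⁻¹ = k'.out.1.1 := mul_left_cancel (a := a) (by rw [← hg]; nth_rw 1 [← e1]; group)
      obtain ⟨s, hs, q, hq, e3⟩ := mem_sup_of_normal_left.1 (top ▸ mem_top (⟨g, gy⟩ : Cx(y)))
      rw [← k.out_eq, ← k'.out_eq]
      refine ConjClasses.mk_eq_mk_iff_isConj.2 (isConj_iff.2 ⟨⟨q, hq⟩, Subtype.ext ?_⟩)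
      have e4 : (⟨g, gy⟩ : Cx(y)) * k.out.1 * (⟨g, gy⟩ : Cx(y))⁻¹ = k'.out.1 := Subtype.ext e2
      rw [← e4, ← e3, mul_inv_rev, mul_assoc s, mul_assoc s, ← mul_assoc _ _ s⁻¹, ← mul_assoc s, ← mem_center_iff.1 (le hs),
        mul_inv_cancel_right]
      rfl
  have S : Syl 7 y := ⟨hy, CfH1.MG.sylz hy (by rw [hG]; norm_num) (mem_top y)⟩
  have ny : ¬ IsConj y y⁻¹ := fun c => by
    have := (CfLm.E_iff S (-1)).1 (by rwa [E, S.xp_neg, S.xp_one])
    rw [he] at this
    revert this; decide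
  have dif : ∀ k k' : P, ¬ IsConj (y * k.1.1) (y⁻¹ * k'.1.1) := fun k k' e => ny (by
    have := e.pow 64
    rwa [p64 _ (mem_zpowers y), p64 _ (inv_mem (mem_zpowers y))] at this)
  have o7 : ∀ a : G, a = y ∨ a = y⁻¹ → ∀ k : P, 7 ∣ orderOf (a * k.1.1) := fun a ha k => by
    have := orderOf_pow_dvd (x := a * k.1.1) 64
    rcases ha with rfl | rfl
    · rwa [p64 _ (mem_zpowers _), hy] at this
    · rwa [p64 _ (inv_mem (mem_zpowers _)), orderOf_inv, hy] at this
  obtain ⟨t2, h2⟩ := exists_prime_orderOf_dvd_card' (G := G) 2 (by rw [hG]; norm_num)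
  obtain ⟨t5, h5⟩ := exists_prime_orderOf_dvd_card' (G := G) 5 (by rw [hG]; norm_num)
  obtain ⟨t11, h11⟩ := exists_prime_orderOf_dvd_card' (G := G) 11 (by rw [hG]; norm_num)
  obtain ⟨x, hx⟩ := exists_prime_orderOf_dvd_card' (G := G) 23 (by rw [hG]; norm_num)
  obtain ⟨⟨t3, m3⟩, h3⟩ := exists_prime_orderOf_dvd_card' (G := Cx(t5)) 3 (by rw [(c5 t5 h5).1]; norm_num)
  replace h3 : orderOf t3 = 3 := (orderOf_coe _).trans h3
  have h15 : orderOf (t3 * t5) = 15 := by
    rw [Commute.orderOf_mul_eq_mul_orderOf_of_coprime (mem_Cx.1 m3) (by rw [h3, h5]; norm_num), h3, h5]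
  have nx : ¬ IsConj x x⁻¹ := fun c => by
    have X : Syl 23 x := ⟨hx, CfH1.MG.sylz hx (by rw [hG]; norm_num) (mem_top x)⟩
    have := (CfLm.E_iff X (-1)).1 (by rwa [E, X.xp_neg, X.xp_one])
    have e1 := CfH8.MG.card_Nm_zp (by norm_num) hx
    rw [(c23 x hx).1, (c23 x hx).2] at e1
    rw [show e 23 x = 11 from by unfold e; omega] at this
    revert this; decide
  let t : Fin 8 → G := ![1, t2, t3, t5, t3 * t5, t11, x, x⁻¹]
  have ot : ∀ i, orderOf (t i) = ![1, 2, 3, 5, 15, 11, 23, 23] i := fun i => by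
    fin_cases i
    exacts [orderOf_one, h2, h3, h5, h15, h11, hx, (orderOf_inv x).trans hx]
  have n7 : ∀ i, ¬ 7 ∣ orderOf (t i) := fun i => by rw [ot]; revert i; decide
  have ti : ∀ i j, IsConj (t i) (t j) → i = j := fun i j e => by
    have := oc e
    rw [ot, ot] at this
    rcases (by decide : ∀ i j : Fin 8, ![1, 2, 3, 5, 15, 11, 23, 23] i = ![1, 2, 3, 5, 15, 11, 23, 23] j →
      i = j ∨ (i = 6 ∧ j = 7) ∨ (i = 7 ∧ j = 6)) i j this with h | ⟨rfl, rfl⟩ | ⟨rfl, rfl⟩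
    exacts [h, (nx e).elim, (nx e.symm).elim]
  have := Nat.card_le_card_of_injective (fun s : (ConjClasses P ⊕ ConjClasses P) ⊕ Fin 8 => ConjClasses.mk (Sum.elim
    (Sum.elim (fun k => y * k.out.1.1) fun k => y⁻¹ * k.out.1.1) t s)) fun a b e => by
      replace e := ConjClasses.mk_eq_mk_iff_isConj.1 e
      rcases a with (a | a) | a <;> rcases b with (b | b) | b <;> simp only [Sum.elim_inl, Sum.elim_inr] at e
      · rw [same y (.inl rfl) _ _ e]
      · exact (dif _ _ e).elim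
      · exact (n7 b (oc e ▸ o7 _ (.inl rfl) _)).elim
      · exact (dif _ _ e.symm).elim
      · rw [same _ (.inr rfl) _ _ e]
      · exact (n7 b (oc e ▸ o7 _ (.inr rfl) _)).elim
      · exact (n7 a (oc e ▸ o7 _ (.inl rfl) _)).elim
      · exact (n7 a (oc e ▸ o7 _ (.inr rfl) _)).elim
      · rw [ti _ _ e]
  rw [Nat.card_sum, Nat.card_sum, Nat.card_fin] at this
  have := k16 hP
  omega

end CfH9.M23
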