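import Cfsg.Agent.H6.N23Q0
import Cfsg.Agent.H8.PA4
import Cfsg.Agent.H8.MG5
/-! Assembly of the local data at `5` and `7` for a simple group of order `10200960`. -/
set_option autoImplicit false
open Cfsg CfH4 CfH4.GA CfH9 CfH4.D1 CfH4.PA CfH6.QC CfH8.PA Subgroup Finset
open scoped Pointwise
namespace CfH9.M23
universe u

def okq (p e K : ℕ) : Prop := p * e * K ∣ 10200960 ∧ 10200960 / (p * e * K) % p = 1 ∧ 1 < 10200960 / (p * e * K)
instance (p e K : ℕ) : Decidable (okq p e K) := by unfold okq; infer_instance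
theorem l5 : ∀ a ∈ [2, 4], ∀ K ∈ Nat.divisors 128 * Nat.divisors 63, okq 5 a K → (a, K) ∈ CfH6.QC.O5 := by decide +kernel
theorem l7 : ∀ a ∈ [3, 6], ∀ K < 1153, 1152 % K = 0 → okq 7 a K → (a, K) ∈ CfH6.QC.O7 := by decide +kernel

variable {G : Type u} [Group G] [Finite G]

theorem optq [IsSimpleGroup G] (hG : Nat.card G = 10200960) {p : ℕ} [hp : Fact p.Prime] (h2 : ¬ p ^ 2 ∣ 10200960)
    (h3 : 10200960 ≠ p) {x : G} (hx : orderOf x = p) : ∃ K, Syl p x ∧ Nat.card Cx(x) = p * K ∧ e p x ∣ p - 1 ∧ 1 < e p x ∧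
      K ∣ 10200960 ∧ K.Coprime p ∧ okq p (e p x) K := by
  obtain ⟨K, a1, a2, a3, a4, a5, a6, a7, -, a8⟩ := CfH8.MG.g5 hp.out (hG ▸ h2) (hG ▸ h3) hx
  rw [hG] at a5 a6 a7
  exact ⟨K, ⟨hx, a8⟩, a1, a3, a4, (Dvd.intro_left _ rfl).trans a5, ((Nat.Prime.coprime_iff_not_dvd hp.out).2 a2).symm, a5, a6, a7⟩

theorem copq {p q K : ℕ} [hp : Fact p.Prime] {x y : G} (h : Syl p x) (o : orderOf y = q) (hK : Nat.card Cx(y) = q * K)
    (n : ¬ q ∣ Nat.card Cx(x)) : K.Coprime p :=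
  ((Nat.Prime.coprime_iff_not_dvd hp.out).2 fun d => n (swp h o (hK ▸ d.mul_left q))).symm

theorem r5 : R5.{u} := fun r1 r2 r3 r4 na nb G _ _ hs hG c23 c11 => by
  obtain ⟨x, hx⟩ := exists_prime_orderOf_dvd_card' (G := G) 23 (by rw [hG]; norm_num)
  obtain ⟨z, hz⟩ := exists_prime_orderOf_dvd_card' (G := G) 11 (by rw [hG]; norm_num)
  obtain ⟨B, R⟩ := r4 hs hG c23 c11 x z hx hz
  have X : Syl 23 x := ⟨hx, CfH1.MG.sylz hx (by rw [hG]; norm_num) (mem_top x)⟩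
  have Z : Syl 11 z := ⟨hz, CfH1.MG.sylz hz (by rw [hG]; norm_num) (mem_top z)⟩
  have x1 := (c23 x hx).1
  have z1 := (c11 z hz).1
  have five : ∀ w : G, orderOf w = 5 → Syl 5 w ∧ Nat.card Cx(w) = 5 * 3 ∧ e 5 w = 4 := fun w hw => by
    obtain ⟨K, W, w1, w2, w3, w4, w5, w6⟩ := optq hG (by norm_num) (by norm_num) hw
    have ew : e 5 w = 2 ∨ e 5 w = 4 := by
      have := Nat.le_of_dvd (by norm_num) w2
      generalize e 5 w = a at *
      interval_cases a <;> omega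
    have d : K ∣ 8064 := ((w5.mul_right (copq Z hw w1 (by rw [z1]; norm_num))).mul_right
      (copq X hw w1 (by rw [x1]; norm_num))).dvd_of_dvd_mul_right w4
    rcases na _ _ _ _ _ _ _ _ _ B (R 5 2 w K (.inl rfl) (by decide) W w1 w2 (by omega)).1 (l5 _ (by simpa using ew) K
      (Nat.divisors_mul 128 63 ▸ Nat.mem_divisors.2 ⟨d, by norm_num⟩) w6) with h0 | ⟨h0, -⟩ <;>
      obtain ⟨h, rfl⟩ := Prod.mk.inj h0
    · exact (r1 hs hG c23 c11 w hw w1).elim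
    · exact ⟨W, w1, h⟩
  have c5 : CfLm.CN G 5 15 60 := fun w hw => by
    obtain ⟨-, a, b⟩ := five w hw
    refine ⟨a, ?_⟩
    rw [CfH8.MG.card_Nm_zp (by norm_num) hw, a]
    exact congrArg (· * (5 * 3)) b
  obtain ⟨w, hw⟩ := exists_prime_orderOf_dvd_card' (G := G) 5 (by rw [hG]; norm_num)
  obtain ⟨W, w1, ew⟩ := five w hw
  obtain ⟨P5, W5, C5⟩ := R 5 2 w 3 (.inl rfl) (by decide) W w1 (by rw [ew]) (by rw [ew]; norm_num)
  rw [ew] at P5 C5
  have k : Nat.card (ConjClasses G) = Fintype.card (Ir G) + 1 := by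
    have := sum_Ir (G := G) fun _ => 1
    simp only [sum_const, card_univ, smul_eq_mul, mul_one] at this
    rw [← card_irr_eq_card_conjClasses, Nat.card_eq_fintype_card, this, add_comm]
  have seven : ∀ y : G, orderOf y = 7 → Nat.card Cx(y) = 7 * 2 ∧ e 7 y = 3 ∧ Fintype.card (Ir G) = 16 := fun y hy => by
    obtain ⟨K, Y, y1, y2, y3, y4, y5, y6⟩ := optq hG (by norm_num) (by norm_num) hy
    have ey : e 7 y = 3 ∨ e 7 y = 6 := by
      have := r3 hs hG c23 c11 c5 y hy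
      have := Nat.le_of_dvd (by norm_num) y2
      generalize e 7 y = a at *
      interval_cases a <;> omega
    have d : K ∣ 1152 := (((y5.mul_right (copq Z hy y1 (by rw [z1]; norm_num))).mul_right
      (copq X hy y1 (by rw [x1]; norm_num))).mul_right (copq W hy y1 (by rw [w1]; norm_num))).dvd_of_dvd_mul_right y4
    obtain ⟨P7, W7, C7⟩ := R 7 3 y K (.inr rfl) (by decide) Y y1 y2 (by omega)
    rcases nb _ _ _ _ _ _ _ _ _ _ _ _ _ B P5 C5 P7 C7 (bt W Y (by norm_num) (by rw [w1]; norm_num) (by decide) (by decide))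
      (l7 _ (by simpa using ey) K (Nat.lt_succ_of_le (Nat.le_of_dvd (by norm_num) d)) (Nat.mod_eq_zero_of_dvd d) y6) with
      ⟨h0, h'⟩ | ⟨h0, h'⟩ <;> obtain ⟨h, rfl⟩ := Prod.mk.inj h0
    · exact ⟨y1, h, h'⟩
    · have := r2 hG c23 c11 c5 y hy y1 h
      omega
  obtain ⟨y, hy⟩ := exists_prime_orderOf_dvd_card' (G := G) 7 (by rw [hG]; norm_num)
  refine ⟨fun y hy => ?_, c5, by rw [k, (seven y hy).2.2]⟩
  obtain ⟨a, b, -⟩ := seven y hy
  refine ⟨a, ?_⟩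
  rw [CfH8.MG.card_Nm_zp (by norm_num) hy, a]
  exact congrArg (· * (7 * 2)) b

end CfH9.M23
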