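import Cfsg.Agent.H9.CoFin4
import Cfsg.Agent.H6.LeC2
/-! The centralizer of a dodecad involution of `Co₂` in an overgroup. -/
set_option autoImplicit false
set_option maxRecDepth 100000
namespace CfH9.C2c
open Cfsg Cfsg.Spor CfH4.Gol CfH6 CfH6.Lee Subgroup CfH9.CoFin

section
variable {M G : Type*} [Group M] [Group G] [Finite G] {ψ : M →* G}

/-- the dihedral argument for an elementary abelian subgroup -/
theorem key (hψ : Function.Injective ψ) {E : Subgroup M} {c : M} {O : Set M}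
    (hE : ∀ e ∈ E, e * e = 1) (OE : ∀ b ∈ O, b ∈ E) (cE : c ∈ E) (hN : Cx(c) ≤ Nm(E))
    (hC : ∀ g, ∀ b ∈ O, g * ψ b * g⁻¹ ∈ ψ.range → g ∈ ψ.range) (hn : ¬ Cx(ψ c) ≤ ψ.range) :
    ∃ U : Subgroup M, c ∈ U ∧ (∀ w ∈ U, w ∉ O) ∧
      ∀ b ∈ O, ∀ b' ∈ O, ∃ k ∈ Cz(U), ∃ w ∈ U, k * b * k⁻¹ = b' * w := by
  haveI := Finite.of_injective ψ hψ
  have cm : ∀ a ∈ E, ∀ b ∈ E, a * b = b * a := fun a ha b hb => by
    rw [← inv_eq_of_mul_eq_one_right (hE _ (mul_mem ha hb)), mul_inv_rev,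
      inv_eq_of_mul_eq_one_right (hE a ha), inv_eq_of_mul_eq_one_right (hE b hb)]
  obtain ⟨U, ⟨U1, U3⟩, U2, hU⟩ := exists_maximal_ge (fun U : Subgroup M => U ≤ E ∧
    ¬ Cz(U.map ψ) ≤ ψ.range) (A := zpowers c) ⟨zpowers_le.2 cE, by
      rwa [MonoidHom.map_zpowers, Cz_zpowers]⟩
  obtain ⟨g, g1, g2⟩ := SetLike.not_le_iff_exists.1 U3
  set L := Cz(U.map ψ) with hL
  have mL : ∀ {x}, x ∈ L ↔ ∀ w ∈ U, ψ w * x = x * ψ w :=
    ⟨fun h w hw => h _ ⟨w, hw, rfl⟩, fun h _ ⟨w, hw, e⟩ => e ▸ h w hw⟩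
  have kL : ∀ k, ψ k ∈ L → k ∈ Cz(U) := fun k hk w hw =>
    hψ ((map_mul ψ w k).trans ((mL.1 hk w hw).trans (map_mul ψ k w).symm))
  have EL : ∀ e ∈ E, ψ e ∈ L := fun e he => mL.2 fun w hw => by
    rw [← map_mul, ← map_mul, cm _ (U1 hw) _ he]
  have k0 : ∀ k, ψ k ∈ L → k ∈ Nm(E) := fun k hk => hN (mem_Cx.2 (kL k hk c (zpowers_le.1 U2)).symm)
  refine ⟨U, zpowers_le.1 U2, fun w hw h => g2 (hC g w h (by
    rw [← mL.1 g1 w hw, mul_inv_cancel_right]; exact ⟨w, rfl⟩)), fun b hb b' hb' => ?_⟩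
  have bE := OE b hb
  have bE' := OE b' hb'
  have s2 : ψ b' * ψ b' = 1 := by rw [← map_mul, hE _ bE', map_one]
  have t2 : g * ψ b * g⁻¹ * (g * ψ b * g⁻¹) = 1 := by
    rw [conj_mul, ← map_mul, hE _ bE, map_one, mul_one, mul_inv_cancel]
  have tL : g * ψ b * g⁻¹ ∈ L := mul_mem (mul_mem g1 (EL _ bE)) (inv_mem g1)
  have xL := pow_mem (mul_mem tL (EL _ bE'))
  have fin : ∀ h ∈ L, ∀ w ∈ U, g * ψ b * g⁻¹ = h * ψ (b' * w) * h⁻¹ →
      ∃ k ∈ Cz(U), ∃ w ∈ U, k * b * k⁻¹ = b' * w := fun h hh w hw e => by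
    have e' : h⁻¹ * g * ψ b * (h⁻¹ * g)⁻¹ = ψ (b' * w) := by
      rw [mul_inv_rev, inv_inv, mul_assoc h⁻¹, mul_assoc h⁻¹, ← mul_assoc (g * ψ b), e]; group
    obtain ⟨k, hk⟩ := hC _ b hb ⟨_, e'.symm⟩
    exact ⟨k, kL k (hk ▸ mul_mem (inv_mem hh) g1), w, hw, hψ (by rw [← e', ← hk, map_mul, map_mul, map_inv])⟩
  have inE : ∀ i : ℕ, (g * ψ b * g⁻¹ * ψ b') ^ i ∈ ψ.range →
      ∃ e ∈ E, ψ e = (g * ψ b * g⁻¹ * ψ b') ^ i := fun i hi => by
    have a : ∀ h ∈ L, ∀ c ∈ O, h * ψ c * h⁻¹ = (g * ψ b * g⁻¹ * ψ b') ^ i * ψ b' →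
        ∃ e ∈ E, ψ e = (g * ψ b * g⁻¹ * ψ b') ^ i := fun h hh c hc e => by
      obtain ⟨k, rfl⟩ := hC h c hc (e ▸ mul_mem hi ⟨b', rfl⟩)
      exact ⟨_, mul_mem (conj_mem_of_mem_normalizer (k0 k hh) (OE c hc)) (inv_mem bE'), by
        rw [map_mul, map_mul, map_mul, map_inv, map_inv, e, mul_inv_cancel_right]⟩
    rcases Nat.even_or_odd' i with ⟨j, rfl | rfl⟩
    · exact a _ (xL j) b' hb' (dih_even s2 t2 j)
    · exact a _ (mul_mem (xL j) g1) b hb (by rw [← dih_odd s2 t2 j]; group)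
  rcases dih_cases s2 t2 with ⟨j, e⟩ | ⟨m, m1, m2, m3, m4⟩
  · exact fin _ (xL j) 1 (one_mem _) (by rwa [mul_one])
  obtain ⟨w, hw, e⟩ := inE m (hC _ b' hb' (by rw [m3, mul_inv_cancel_right]; exact ⟨b', rfl⟩))
  have wU : w ∈ U := hU (U ⊔ zpowers w) ⟨sup_le U1 (zpowers_le.2 hw),
    fun h => g2 (hC g b hb (h (by
      rw [Subgroup.map_sup, Cz_sup, MonoidHom.map_zpowers, Cz_zpowers]
      exact ⟨tL, mem_Cx.2 (e ▸ m4.symm)⟩)))⟩ le_sup_left ▸ mem_sup_right (mem_zpowers w)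
  rcases Nat.even_or_odd' m with ⟨j, rfl | rfl⟩
  · obtain ⟨y, hy, e'⟩ := inE j (hC _ b' hb' (by
      rw [dih_even s2 t2, ← e]; exact mul_mem ⟨w, rfl⟩ ⟨b', rfl⟩))
    exact absurd (by rw [two_mul, pow_add, ← e', ← map_mul, hE y hy, map_one]) m1
  · refine fin _ (xL (j + 1)) w wU ?_
    rw [map_mul, e]
    exact dih_last s2 t2 m2 m3

end

variable {u v : Wd}

/-- a short vector fixed by the dodecad involution -/
theorem two4 {y : Λ} (hy : (eps (wv d0)).1 y = y) (hn : sqNorm y.1 = 32) :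
    ∃ k l, k ≠ l ∧ ∀ i, y.1 i ≠ 0 ↔ i = k ∨ i = l := by
  have hs : Sup 0 y.1 := fun j hj => by
    have := congrFun (congrArg Subtype.val hy) j
    rw [eps_apply d0_mem, sg, if_neg hj] at this
    omega
  have h4 := hs.mod4 hn
  set S := Finset.univ.filter fun i => y.1 i ≠ 0 with hS
  have h1 : ∑ i ∈ S, y.1 i ^ 2 = 32 := hn ▸ Finset.sum_filter_of_ne fun i _ h e => h (by rw [e]; rfl)
  have h2 := Finset.card_nsmul_le_sum S (fun i => y.1 i ^ 2) 16 fun i hi => by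
    have := h4 i
    have := (Finset.mem_filter.1 hi).2
    rcases (by omega : y.1 i ≤ -4 ∨ 4 ≤ y.1 i) with c | c <;> nlinarith
  rw [h1, nsmul_eq_mul] at h2
  rcases (by omega : S.card = 0 ∨ S.card = 1 ∨ S.card = 2) with c | c | c
  · rw [Finset.card_eq_zero.1 c] at h1
    exact absurd h1 (by simp)
  · obtain ⟨a, e⟩ := Finset.card_eq_one.1 c
    rw [e, Finset.sum_singleton] at h1
    have := h4 a
    rcases (by omega : y.1 a ≤ -8 ∨ 8 ≤ y.1 a ∨ (-4 ≤ y.1 a ∧ y.1 a ≤ 4)) with c | c | c <;> nlinarith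
  · obtain ⟨k, l, h, e⟩ := Finset.card_eq_two.1 c
    exact ⟨k, l, h, fun i => by simpa [hS] using Finset.ext_iff.1 e i⟩

theorem eps_fix (hu : u ∈ golayCode) {y : Λ} : (eps u).1 y = y ↔ ∀ i, y.1 i ≠ 0 → u i = 0 := by
  refine ⟨fun h i hi => ?_, fun h => Subtype.ext (funext fun i => ?_)⟩
  · have := congrFun (congrArg Subtype.val h) i
    rw [eps_apply hu, sg] at this
    split_ifs at this with e
    exacts [e, by omega]
  · rw [eps_apply hu]
    by_cases e : y.1 i = 0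
    · rw [e, mul_zero]
    · rw [sg, if_pos (h i e), one_mul]

theorem eps_inj (hu : u ∈ golayCode) (hv : v ∈ golayCode) (h : eps u = eps v) : u = v :=
  (mono_inj hu hv (π := 1) (ρ := 1) (by rw [h])).1

theorem mono_cj (hu : u ∈ golayCode) (hv : v ∈ golayCode) (π : M24) :
    eps u * prm π * eps v * (eps u * prm π)⁻¹ = eps (v ∘ π⁻¹.1) := by
  have := comp_mem π⁻¹.2 hv
  rw [mul_inv_eq_iff_eq_mul, mul_assoc, prm_eps hv, ← mul_assoc, ← mul_assoc, ← eps_add hu this,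
    ← eps_add this hu, add_comm]

theorem cx_le : Cx(eps (wv d0)) ≤ N0 := fun _ h => cent_dod ⟨1, one_mem _, by rw [mem_Cx.1 h, one_mul]⟩

theorem fix5 {π : M24} (h7 : π ^ 7 = 1) (h : wv d0 ∘ π.1 = wv d0) : π = 1 := by
  haveI : Fact (Nat.Prime 7) := ⟨by norm_num⟩
  let f : Function.End {i // wv d0 i = 1} := fun i => ⟨π.1 i, (congrFun h i).trans i.2⟩
  have hf : ∀ n : ℕ, ∀ i, ((f ^ n) i).1 = (π ^ n).1 i.1 := fun n => by
    induction n with
    | zero => exact fun _ => rfl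
    | succ n ih => exact fun i => by rw [pow_succ, pow_succ]; exact ih (f i)
  have := Equiv.Perm.card_fixedPoints_modEq (f := f) (p := 7) (n := 1) (funext fun i => Subtype.ext (by
    rw [pow_one, hf, h7]; rfl))
  rw [show Fintype.card {i // wv d0 i = 1} = 12 by decide +kernel, Nat.ModEq] at this
  obtain ⟨e⟩ := Function.Embedding.nonempty_of_card_le (α := Fin 5) (β := f.fixedPoints)
    (by rw [Fintype.card_fin]; omega)
  obtain ⟨σ, hσ⟩ := five (e.trans ((Function.Embedding.subtype _).trans (Function.Embedding.subtype _)))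
  obtain ⟨l, hl, e1⟩ := K5 (σ := σ⁻¹ * π * σ) fun i hi => σ.1.symm_apply_eq.2 (by
    have h1 := hσ ⟨i, by simp at hi; omega⟩
    change π.1 (σ.1 (pt i)) = σ.1 (pt i)
    rw [h1]
    exact congrArg Subtype.val (e _).2)
  have e2 : (pl l) ^ 7 = 1 := by rw [← e1, ← inv_inv σ, inv_inv σ⁻¹, conj_pow, h7]; simp
  have e3 := (show ∀ l ∈ L48, (∀ p, (fl l)^[7] p = p) → ∀ p, fl l p = p by decide +kernel) l hl fun p => by
    rw [← (gL l hl).1.coe, ← Equiv.Perm.coe_pow, ← Subgroup.coe_pow, e2]; rfl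
  rw [show pl l = 1 from Subtype.ext (Equiv.ext fun p => (congrFun (gL l hl).1.coe p).trans (e3 p))] at e1
  simpa [mul_assoc, inv_mul_eq_one] using e1

theorem n7 : ¬ 7 ∣ Nat.card Cx(eps (wv d0)) := fun h => by
  haveI : Fact (Nat.Prime 7) := ⟨by norm_num⟩
  obtain ⟨⟨x, hx⟩, o⟩ := exists_prime_orderOf_dvd_card' 7 h
  rw [Subgroup.orderOf_mk] at o
  obtain ⟨u, hu, π, rfl⟩ := cx_le hx
  have hp : ∀ n : ℕ, ∃ v ∈ golayCode, (eps u * prm π) ^ n = eps v * prm (π ^ n) := fun n => by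
    induction n with
    | zero => exact ⟨0, zero_mem _, by simp [eps_zero]⟩
    | succ n ih =>
      obtain ⟨v, hv, e⟩ := ih
      exact ⟨_, add_mem hv (comp_mem (π ^ n)⁻¹.2 hu), by rw [pow_succ, e, mono_mul hv hu, pow_succ]⟩
  obtain ⟨v, hv, e⟩ := hp 7
  have h1 := pow_orderOf_eq_one (eps u * prm π)
  have h2 := fix5 (π := π⁻¹) (by
    rw [inv_pow, inv_eq_one]
    exact (mono_inj hv (zero_mem _) (by rw [← e, ← o, h1, eps_zero, map_one, one_mul])).2)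
    (eps_inj (comp_mem π⁻¹.2 d0_mem) d0_mem ((mono_cj hu d0_mem π).symm.trans (mem_Cx'.1 hx)))
  rw [inv_eq_one.1 h2, map_one, mul_one] at o
  have := orderOf_dvd_of_pow_eq_one (n := 2) ((sq _).trans (eps_sq hu))
  rw [o] at this
  exact absurd this (by decide)

def SL : List ℕ :=
  [3927223, 4120552, 5951421, 6290658, 7068909, 7270322, 7536302, 7851505, 7921395, 8055275, 8060276, 8093601,
  8101306, 8114118, 8120056, 8252844, 8277246, 8302309, 8312231, 8322201, 8375851, 8379060, 10219434, 10411253,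
  11205882, 11521957, 11787961, 11988454, 12189412, 12214198, 12238253, 12240623, 12251089, 12306940, 12311907,
  12373435, 12512828, 12516003, 12545257, 12553970, 12573838, 12580272, 13361136, 13561007, 13827507, 14143212,
  14212590, 14346998, 14351977, 14384316, 14392999, 14404827, 14411237, 14544561, 14569443, 14593528, 14603962,
  14614404, 14667062, 14670249, 14937827, 15130044, 15322814, 15364076, 15371767, 15392651, 15398581, 15461689,
  15464870, 15531489, 15649529, 15654502, 15686835, 15711912, 15713770, 15723732, 15789309, 15912826, 15916005,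
  15945135, 15970228, 15979766, 15990216, 16113570, 16154352, 16162027, 16174743, 16181161, 16246970, 16251941,
  16314151, 16317368, 16346610, 16355305, 16375189, 16381099, 16395963, 16406009, 16415943, 16424668, 16431074,
  16439359, 16442782, 16469621, 16472810, 16493678, 16496881, 16499635, 16504620, 16509581, 16514578, 16539309,
  16563382, 16566260, 16576202, 16632039, 16637048, 16673205, 16678186, 16681902, 16686897, 16698701, 16701906,
  16704627, 16707820, 16719332, 16732056, 16737958, 16745661, 16756099, 16766657, 16771936]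

theorem chkS : (∀ a ∈ SL, cw (a % 4096) = a ∧ pc a = 16 ∧ pc (a ^^^ d0) = 16) ∧
    ∀ k l, k ≠ l → wv d0 k = 0 → wv d0 l = 0 → ∃ a ∈ SL, wv a k = 0 ∧ wv a l = 0 ∧
      ∀ b ∈ SL, wv b k = 0 → wv b l = 0 → b = a ∨ b = a ^^^ d0 := by decide +kernel

theorem uniq {k l : GolayPt} (hkl : k ≠ l) (hd : ∀ i, i = k ∨ i = l → wv d0 i = 0) :
    ∃ u ∈ golayCode, wt u = 16 ∧ wt (u + wv d0) = 16 ∧ (∀ i, i = k ∨ i = l → u i = 0) ∧
      ∀ v ∈ golayCode, wt v = 16 → wt (v + wv d0) = 16 → (∀ i, i = k ∨ i = l → v i = 0) →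
        v = u ∨ v = u + wv d0 := by
  obtain ⟨a, ha, a1, a2, a3⟩ := chkS.2 k l hkl (hd k (.inl rfl)) (hd l (.inr rfl))
  obtain ⟨h1, h2, h3⟩ := chkS.1 a ha
  refine ⟨wv a, mem_of_cw h1, (wt_wv a).trans h2, by rw [← wv_xor, wt_wv, h3],
    by rintro _ (rfl | rfl) <;> assumption, fun v hv v1 v2 v3 => ?_⟩
  obtain ⟨n, hn, rfl⟩ := ex_cw hv
  rw [← wv_xor, wt_wv] at v2
  exact (a3 _ ((show ∀ n < 4096, pc (cw n) = 16 → pc (cw n ^^^ d0) = 16 → cw n ∈ SL by decide +kernel) n hn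
    ((wt_wv _).symm.trans v1) v2) (v3 k (.inl rfl)) (v3 l (.inr rfl))).imp (congrArg wv)
      fun e => (congrArg wv e).trans (wv_xor _ _)

theorem five16 {k l : GolayPt} (hkl : k ≠ l) : ∃ f : Fin 5 → Wd, (∀ j, f j ∈ golayCode ∧ wt (f j) = 16 ∧
    ∀ i, i = k ∨ i = l → f j i = 0) ∧ f 0 + f 1 + (f 2 + f 3) = f 4 := by
  obtain ⟨a, -, b, -, c, -, h⟩ := (show ∀ k l : GolayPt, k ≠ l → ∃ a ∈ [pt 0, pt 1, pt 2], ∃ b ∈ [pt 3, pt 4, pt 5],
    ∃ c ∈ [pt 6, pt 7, pt 8], [k, l, a, b, c].Nodup by decide +kernel) k l hkl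
  obtain ⟨σ, hσ⟩ := five ⟨![k, l, a, b, c], List.nodup_ofFn.1 h⟩
  have h1 : ∀ j : Fin 5, let w := [2060276, 2883484, 3652860, 4060028, 4120552].getD j 0
    cw (w % 4096) = w ∧ pc w = 16 ∧ wv w (pt 0) = 0 ∧ wv w (pt 1) = 0 := by decide +kernel
  refine ⟨fun j => wv ([2060276, 2883484, 3652860, 4060028, 4120552].getD j 0) ∘ σ⁻¹.1, fun j =>
    ⟨comp_mem σ⁻¹.2 (mem_of_cw (h1 j).1), by rw [wt_comp, wt_wv, (h1 j).2.1], ?_⟩, ?_⟩
  · rintro _ (rfl | rfl)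
    · exact (congrArg _ (σ.1.symm_apply_eq.2 (hσ 0).symm)).trans (h1 j).2.2.1
    · exact (congrArg _ (σ.1.symm_apply_eq.2 (hσ 1).symm)).trans (h1 j).2.2.2
  · exact congrArg (· ∘ σ⁻¹.1) (show wv 2060276 + wv 2883484 + (wv 3652860 + wv 4060028) = wv 4120552 by
      rw [← wv_xor, ← wv_xor, ← wv_xor]; rfl)

theorem tr_wt (hu : u ∈ golayCode) : ((Φ (eps u)).trace = -8 ↔ wt u = 16) ∧ ((Φ (eps u)).trace = 0 → wt u = 12) := by
  rw [tr_eps hu]
  rcases (wt_cases hu).2 with rfl | rfl | e | e | e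
  · rw [show wt 0 = 0 by decide +kernel]; decide
  · rw [show wt 1 = 24 by decide +kernel]; decide
  all_goals rw [e]; decide

theorem tr_cj (g h : Co0) : (Φ (g * h * g⁻¹)).trace = (Φ h).trace := by
  rw [map_mul, Matrix.trace_mul_comm, ← map_mul, inv_mul_cancel_left]

/-- the group of sign changes -/
def E0 : Subgroup Co0 where
  carrier := {b | ∃ u ∈ golayCode, b = eps u}
  one_mem' := ⟨0, zero_mem _, eps_zero.symm⟩
  mul_mem' := by
    rintro _ _ ⟨u, hu, rfl⟩ ⟨v, hv, rfl⟩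
    exact ⟨_, add_mem hu hv, (eps_add hu hv).symm⟩
  inv_mem' := by
    rintro _ ⟨u, hu, rfl⟩
    exact ⟨u, hu, inv_eq_of_mul_eq_one_right (eps_sq hu)⟩

noncomputable def tr2 (g : Co2) : ZMod 17 := (Φ (Subgroup.inclusion inf_le_left g)).trace

theorem cen {G : Type*} [Group G] [Finite G] (ψ : Co2 →* G) (hψ : Function.Injective ψ)
    (hC : ∀ b : Co2, b * b = 1 → tr2 b = -8 → ∀ g, g * ψ b * g⁻¹ ∈ ψ.range → g ∈ ψ.range)
    (c : Co2) (c2 : c * c = 1) (hc : tr2 c = 0) :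
    Subgroup.centralizer {ψ c} ≤ ψ.range ∧ ¬ 7 ∣ Nat.card (Subgroup.centralizer {ψ c}) := by
  haveI := Finite.of_injective ψ hψ
  obtain ⟨h, hh⟩ : ∃ h : Co0, h * inclusion inf_le_left c * h⁻¹ = eps (wv d0) := by
    obtain ⟨u, hu, e⟩ := clsA (g := inclusion inf_le_left c) (Subtype.ext (congrArg Subtype.val c2 :))
    obtain ⟨h, e⟩ := isConj_iff.1 e
    have w := (tr_wt hu).2 (by rw [← e, tr_cj]; exact hc)
    obtain ⟨σ, e'⟩ := trans_wt hu (.inr w)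
    rw [if_neg (by omega)] at e'
    exact ⟨prm σ⁻¹ * h, by rw [← e', ← eps_cj hu, ← e]; group⟩
  let j : Co2 →* Co0 := (MulAut.conj h).toMonoidHom.comp (inclusion inf_le_left)
  have jc : j c = eps (wv d0) := hh
  have ji : Function.Injective j := (MulAut.conj h).injective.comp (inclusion_injective _)
  have jt : ∀ e, tr2 e = (Φ (j e)).trace := fun e => (tr_cj h _).symm
  have jy : ∀ e, (j e).1 (h.1 leechU) = h.1 leechU := fun e => by
    change h.1 (e.1 (h.1.symm (h.1 leechU))) = _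
    rw [h.1.symm_apply_apply, show e.1 leechU = leechU from e.2.2]
  have js : ∀ g : Co0, g.1 (h.1 leechU) = h.1 leechU → ∃ e, j e = g := fun g hg =>
    ⟨⟨(h⁻¹ * g * h).1, (h⁻¹ * g * h).2, h.1.symm_apply_eq.2 hg⟩, show h * (h⁻¹ * g * h) * h⁻¹ = g by group⟩
  obtain ⟨k, l, hkl, hy⟩ := two4 (jc ▸ jy c) ((h.2.2 _).trans (show sqNorm vecU = 32 by decide +kernel))
  have fx : ∀ {u}, u ∈ golayCode → ((∃ e, j e = eps u) ↔ ∀ i, i = k ∨ i = l → u i = 0) := fun hu =>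
    ⟨fun ⟨e, he⟩ i hi => (eps_fix hu).1 (he ▸ jy e) i ((hy i).2 hi),
      fun H => js _ ((eps_fix hu).2 fun i hi => H i ((hy i).1 hi))⟩
  have hE : ∀ e ∈ E0.comap j, e * e = 1 := fun e ⟨u, hu, he⟩ => ji (by rw [map_mul, he, eps_sq hu, map_one])
  have cN : ∀ x ∈ Cx(c), j x ∈ N0 := fun x hx => cx_le (jc ▸ map_Cx_le c ⟨x, hx, rfl⟩)
  have hN : Cx(c) ≤ Nm(E0.comap j) := fun x hx => mem_normalizer_fintype fun e ⟨v, hv, he⟩ => by
    obtain ⟨u, hu, π, e'⟩ := cN x hx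
    exact ⟨_, comp_mem π⁻¹.2 hv, by rw [map_mul, map_mul, map_inv, he, e', mono_cj hu hv]⟩
  have main : Cx(ψ c) ≤ ψ.range := by
    by_contra hn
    obtain ⟨U, cU, UO, hU⟩ := key hψ (O := {e | e ∈ E0.comap j ∧ tr2 e = -8}) hE (fun _ h => h.1)
      ⟨_, d0_mem, jc⟩ hN (fun g b hb => hC b (hE b hb.1) hb.2 g) hn
    have mO : ∀ {e u}, u ∈ golayCode → j e = eps u → (e ∈ {e | e ∈ E0.comap j ∧ tr2 e = -8} ↔ wt u = 16) :=
      fun hu he => by
        rw [← (tr_wt hu).1, ← he, ← jt]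
        exact and_iff_right ⟨_, hu, he⟩
    obtain ⟨u, hu, u1, u2, u3, u4⟩ := uniq hkl ((fx d0_mem).1 ⟨c, jc⟩)
    obtain ⟨b, hb⟩ := (fx hu).2 u3
    have all : ∀ b' ∈ {e | e ∈ E0.comap j ∧ tr2 e = -8}, b⁻¹ * b' ∈ U := fun b' hb' => by
      obtain ⟨x, hx, w, hw, e⟩ := hU b ((mO hu hb).2 u1) b' hb'
      have xc := mem_Cx.2 (hx c cU).symm
      obtain ⟨v, hv, e'⟩ := conj_mem_of_mem_normalizer (hN xc) (show b ∈ E0.comap j from ⟨u, hu, hb⟩)
      have e1 : eps v = j x * eps u * (j x)⁻¹ := by rw [← e', map_mul, map_mul, map_inv, hb]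
      have e2 : eps (v + wv d0) = j x * eps (u + wv d0) * (j x)⁻¹ := by
        rw [eps_add hv d0_mem, eps_add hu d0_mem, ← conj_mul, ← e1, ← jc, ← map_inv, ← map_mul, ← map_mul,
          mem_Cx'.1 xc]
      rw [← U.mul_mem_cancel_right hw, mul_assoc, ← e]
      rcases u4 v hv ((tr_wt hv).1.1 (by rw [e1, tr_cj, (tr_wt hu).1.2 u1]))
        ((tr_wt (add_mem hv d0_mem)).1.1 (by rw [e2, tr_cj, (tr_wt (add_mem hu d0_mem)).1.2 u2]))
        ((fx hv).1 ⟨_, e'⟩) with rfl | rfl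
      · rw [ji (e'.trans hb.symm), inv_mul_cancel]; exact one_mem _
      · rwa [ji (e'.trans (show _ = j (b * c) by rw [map_mul, hb, jc, eps_add hu d0_mem])), inv_mul_cancel_left]
    obtain ⟨f, hf, hs⟩ := five16 hkl
    choose g hg using fun i => (fx (hf i).1).2 (hf i).2.2
    have gO := fun i => (mO (hf i).1 (hg i)).2 (hf i).2.1
    have pr : ∀ i i', g i * g i' ∈ U := fun i i' => by
      have := mul_mem (inv_mem (all _ (gO i))) (all _ (gO i'))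
      rwa [mul_inv_rev, inv_inv, mul_assoc, mul_inv_cancel_left, inv_eq_of_mul_eq_one_right (hE _ (gO i).1)] at this
    refine UO (g 4) (ji (show j (g 0 * g 1 * (g 2 * g 3)) = j (g 4) from ?_) ▸ mul_mem (pr 0 1) (pr 2 3)) (gO 4)
    simp only [map_mul, hg]
    rw [← hs, eps_add (add_mem (hf 0).1 (hf 1).1) (add_mem (hf 2).1 (hf 3).1), eps_add (hf 0).1 (hf 1).1,
      eps_add (hf 2).1 (hf 3).1]
  refine ⟨main, fun h7 => n7 ?_⟩
  change 7 ∣ Nat.card Cx(ψ c) at h7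
  rw [card_Cx_eq hψ main] at h7
  exact jc ▸ h7.trans (card_Cx_dvd ji c)

end CfH9.C2c
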