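import Cfsg.Agent.H8.DW
import Cfsg.Agent.H6.Lee
/-! Automorphisms of the Leech lattice given by matrices. -/
set_option autoImplicit false
set_option maxRecDepth 100000
set_option Elab.async false
namespace CfH9.C2f
open CfH6 CfH6.Lee CfH8.C2
theorem k12 : Ok (lget ms17 0 12) := by decide +kernel
theorem k13 : Ok (lget ms17 0 13) := by decide +kernel
theorem k14 : Ok (lget ms17 0 14) := by decide +kernel
theorem k15 : Ok (lget ms17 0 15) := by decide +kernel
theorem k16 : Ok (lget ms17 0 16) := by decide +kernel
end CfH9.C2f
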