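import Cfsg.Agent.H9.C2fA
import Cfsg.Agent.H9.C2fB
import Cfsg.Agent.H9.C2fC
import Cfsg.Agent.H8.DF
import Cfsg.Agent.H6.LeC2
import Cfsg.Agent.H6.Big2
import Cfsg.Agent.OD.Helper9x2e930f4fb1
/-! A presentation of `Co₂` over the centralizer of an involution. -/
set_option autoImplicit false
set_option maxRecDepth 100000
set_option Elab.async false
namespace CfH9.C2f
open CfH6 CfH6.Lee CfH8 CfH8.C2 Cfsg Cfsg.Spor

def rels : List (List ℕ) := DN.rels ++ (DF.bws ++ DF.gws)
abbrev Γ : Type := WP 17 (List.range 17) rels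
def el : ℕ → Γ := wel 17 (List.range 17) rels
theorem hrel : ∀ r ∈ rels, evw el r = 1 := wp_rel _ _ _
theorem htop : gensub el 17 = ⊤ := wp_top _ _ _
theorem hsq (x : ℕ) (hx : x < 17) : el x = (el x)⁻¹ :=
  (congrArg el ((show ∀ x < 17, x = (List.range 17).getD x 0 by decide) x hx)).trans (wp_inv _ _ _ x hx)
theorem hhom {G : Type*} [Group G] (ev : ℕ → G) (h1 : ∀ x < 17, ev ((List.range 17).getD x 0) = (ev x)⁻¹)
    (h2 : ∀ r ∈ rels, evw ev r = 1) : ∃ ρ : Γ →* G, ∀ x < 17, ρ (el x) = ev x :=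
  wp_hom _ _ _ (by decide +kernel) ev h1 h2

theorem exν : ∃ ν : DN.G →* Γ, ∀ x < 16, ν (DN.el x) = el x :=
  DN.hhom _ (fun x hx => (congrArg el ((show ∀ x < 16, DN.il.getD x 0 = x by decide) x hx)).trans (hsq x (by omega)))
    fun r hr => hrel r (List.mem_append_left _ hr)
noncomputable def ν : DN.G →* Γ := Classical.choose exν
theorem hν : ∀ x < 16, ν (DN.el x) = el x := Classical.choose_spec exν
theorem hν' : ∀ x < 16, ν (DN.el x) = byW el DF.σ x := fun x hx => by
  rw [hν x hx, byW, (show ∀ x < 16, DF.σ.getD x [] = [x] by decide) x hx]; exact (mul_one _).symm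
theorem hg : ∀ w ∈ DF.gws, evw el w = 1 := fun w h => hrel w (List.mem_append_right _ (List.mem_append_right _ h))
theorem hw : ∀ w ∈ DF.bws, evw el w = 1 := fun w h => hrel w (List.mem_append_right _ (List.mem_append_left _ h))
theorem hH (n : DN.G) : ν n ∈ ν.range := ⟨n, rfl⟩
noncomputable abbrev C := DF.C el ν hν' ν.range hH hg (DF.hbp el ν hν' (hsq 16 (by decide)) hw)
theorem hK : C.K = ⊤ := C.K_top (σ := DF.σ) (nc := 16) (fun x hx => (congrArg ν (DD.cdx x hx)).trans (hν' x hx))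
  rfl (hsq 16 (by decide)) htop (by decide)
theorem finΓ : Finite Γ ∧ Nat.card Γ ≤ 42305421312000 :=
  fin_top (fin_cast ((show Covers ν.range ⊤ 56925 from hK ▸ DF.covers _ _ _ _ _ _ _).card_le
    (card_range_le _ ⟨DD.fin, DD.card.le⟩)) (by decide))

theorem hs (x : ℕ) (hx : x < 17) : ∃ g, Φ g = sem (lget ms17 0 x) := by
  have t := (show ∀ x < 17, ∀ i j, A (lget ms17 0 x) i j = A (lget ms17 0 x) j i by decide +kernel) x hx
  interval_cases x
  exacts [ex_aut k0 k0 t, ex_aut k1 k1 t, ex_aut k2 k2 t, ex_aut k3 k3 t, ex_aut k4 k4 t, ex_aut k5 k5 t,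
    ex_aut k6 k6 t, ex_aut k7 k7 t, ex_aut k8 k8 t, ex_aut k9 k9 t, ex_aut k10 k10 t, ex_aut k11 k11 t,
    ex_aut k12 k12 t, ex_aut k13 k13 t, ex_aut k14 k14 t, ex_aut k15 k15 t, ex_aut k16 k16 t]

theorem hm : ∀ a < 17, PM.okb (lget ms17 0 a) = true := lget_all (by decide +kernel)

theorem rel0 (rs : List (List ℕ)) (h : (rs.all fun w => allLt 17 w && chkM PM.mm PM.one ms17 w PM.one) = true) :
    ∀ r ∈ rs, evw (liftS Φ sem ms17) r = 1 := fun r hr => by
  have := List.all_eq_true.1 h r hr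
  rw [Bool.and_eq_true] at this
  exact Φ_inj ((D.liftW hm hs this.1 (Nat.eq_of_beq_eq_true this.2)).trans (D.sem1.trans Φ.map_one.symm))

theorem exχ : ∃ χ : Γ ≃* Co2, ∀ x < 17, Subgroup.inclusion inf_le_left (χ (el x)) = liftS Φ sem ms17 x := by
  have := finΓ.1
  obtain ⟨ρ, hρ⟩ := hhom _ (inv_of_rels (rel0 _ (by decide +kernel))) (rel0 _ (by decide +kernel))
  have h1 : ∀ g, Co0.subtype.comp ρ g ∈ Co2 := mem_of_gens htop _ Co2.toSubmonoid fun x hx =>
    ⟨(ρ _).2, act (X := lget ms17 0 x) (by rw [hρ x hx, liftS_spec (hs x hx)])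
      ((show ∀ x < 17, ∀ i, mv (lget ms17 0 x) leechU.1 i = 8 * leechU.1 i by decide +kernel) x hx)⟩
  have h2 : Function.Surjective ((Co0.subtype.comp ρ).codRestrict _ h1) := by
    obtain ⟨φ, hφ⟩ := isoCo2'
    refine MonoidHom.range_eq_top.1 (eq_top_iff.2 ?_)
    rw [← Subgroup.map_top_of_surjective φ.toMonoidHom φ.surjective, ← C2B.htop, Subgroup.map_le_iff_le_comap]
    refine gensub_le fun x hx => ?_
    obtain ⟨g, e, e'⟩ := hφ x hx
    have k := (show ∀ x < 8, allLt 17 (sw8.getD x []) = true ∧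
      chkM PM.mm PM.one ms17 (sw8.getD x []) (lget msCo2 0 x) = true by decide +kernel) x hx
    have k2 : ρ (evw el (sw8.getD x [])) = g := Φ_inj (by
      rw [hom_evw hρ _ (allLt_sound k.1), D.liftW hm hs k.1 (Nat.eq_of_beq_eq_true k.2), e'])
    exact ⟨evw el (sw8.getD x []), Subtype.ext ((congrArg Subtype.val k2).trans e)⟩
  exact ⟨MulEquiv.ofBijective _ ((Nat.bijective_iff_surjective_and_card _).2 ⟨h2,
    le_antisymm (cardCo2 ▸ finΓ.2) (Nat.card_le_card_of_surjective _ h2)⟩), fun x hx => (hρ x hx :)⟩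

noncomputable def χ : Γ ≃* Co2 := Classical.choose exχ
/-- the representation on the Leech lattice -/
noncomputable def τ : Γ →* Co0 := (Subgroup.inclusion inf_le_left).comp χ.toMonoidHom
theorem hτ : ∀ x < 17, τ (el x) = liftS Φ sem ms17 x := Classical.choose_spec exχ
theorem τ_inj : Function.Injective τ := (Subgroup.inclusion_injective inf_le_left).comp χ.injective

theorem rel (rs : List (List ℕ)) (h : (rs.all fun w => allLt 17 w && chkM PM.mm PM.one ms17 w PM.one) = true) :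
    ∀ r ∈ rs, evw el r = 1 := fun r hr => τ_inj (by
  have := List.all_eq_true.1 h r hr
  rw [Bool.and_eq_true] at this
  rw [hom_evw hτ r (allLt_sound this.1), rel0 rs h r hr, map_one])

theorem evw_rev {w : List ℕ} (h : ∀ x ∈ w, x < 17) : evw el w.reverse = (evw el w)⁻¹ := by
  induction w with
  | nil => simp
  | cons a w ih =>
    rw [List.reverse_cons, evw_append, ih fun x hx => h x (List.mem_cons_of_mem _ hx), evw_cons, evw_cons,
      evw_nil, mul_one, mul_inv_rev, ← hsq a (h a List.mem_cons_self)]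

theorem cj (fs : List (List ℕ × List ℕ × List ℕ)) (h : ((fs.all fun f => allLt 17 f.1 && allLt 17 f.2.2) &&
    ((fs.map fun f => f.2.2 ++ (f.2.1 ++ (f.2.2.reverse ++ f.1.reverse))).all
      fun w => allLt 17 w && chkM PM.mm PM.one ms17 w PM.one)) = true) :
    ∀ f ∈ fs, IsConj (evw el f.2.1) (evw el f.1) := fun f hf => by
  rw [Bool.and_eq_true] at h
  have a := List.all_eq_true.1 h.1 f hf
  rw [Bool.and_eq_true] at a
  have b := rel _ h.2 _ (List.mem_map_of_mem hf)
  rw [evw_append, evw_append, evw_append, evw_rev (allLt_sound a.1), evw_rev (allLt_sound a.2)] at b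
  exact isConj_iff.2 ⟨evw el f.2.2, by rw [← mul_inv_eq_one, ← b]; group⟩

theorem hfus : ∀ f ∈ ([0] ++ wa, wa, [6]) :: (we2 ++ [0], we2, [8]) :: fus, IsConj (evw el f.2.1) (evw el f.1) :=
  cj _ (by decide +kernel)

theorem h7 : ∀ r ∈ [wpow w7 7, w7 ++ wa ++ w7.reverse ++ wa, wa ++ wa, [0] ++ wa ++ [0] ++ wa,
    [3, 12] ++ wa ++ [12, 3] ++ wa, wtd ++ wtd], evw el r = 1 := rel _ (by decide +kernel)

theorem hz : ∀ r ∈ (List.range 16).map fun x => [x, 0, x, 0], evw el r = 1 := rel _ (by decide +kernel)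

theorem ne7 : evw el w7 ≠ 1 := fun e => by
  have h := congrArg (fun g => Φ (τ g)) e
  obtain ⟨Y, h1, h2⟩ : ∃ Y, CfH6.mW PM.mm ms17 w7 PM.one = Y + 1 ∧ sem Y none none ≠ 1 :=
    ⟨CfH6.mW PM.mm ms17 w7 PM.one - 1, by decide +kernel⟩
  simp only [map_one] at h
  rw [hom_evw hτ _ (by decide), D.liftW hm hs (by decide) h1] at h
  exact h2 (by rw [h]; rfl)

theorem trs : (Φ (τ (evw el wa))).trace = 8 ∧ (Φ (τ (evw el wtd))).trace = 0 ∧ (Φ (τ (el 0))).trace = -8 := by
  simp only [wa, wtd, evw_cons, evw_nil, mul_one, map_mul, hτ 0 (by decide), hτ 5 (by decide), hτ 12 (by decide),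
    liftS_spec (hs 0 (by decide)), liftS_spec (hs 5 (by decide)), liftS_spec (hs 12 (by decide))]
  decide +kernel

end CfH9.C2f
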