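import Cfsg.Agent.H9.C2f1
import Cfsg.Agent.H9.C2f2
import Cfsg.Agent.H9.C2c
/-! The last step of the recognition of `Co₂`. -/
set_option autoImplicit false
set_option maxRecDepth 100000
namespace CfH9.C2f
open CfH6 CfH6.Lee CfH8 CfH8.C2 Cfsg Cfsg.Spor Subgroup CoFin

theorem fu {r b : List ℕ} (h : ∃ f ∈ ([0] ++ wa, wa, [6]) :: (we2 ++ [0], we2, [8]) :: fus, f.1 = r ∧ f.2.1 = b := by
    decide +kernel) : IsConj (evw el b) (evw el r) := by
  obtain ⟨f, hf, rfl, rfl⟩ := h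
  exact hfus f hf

theorem e0 : evw el [0] = el 0 := mul_one _

theorem tr_cj {x y : Γ} (h : IsConj x y) : (Φ (τ x)).trace = (Φ (τ y)).trace := by
  obtain ⟨c, rfl⟩ := isConj_iff.1 h
  rw [map_mul τ, map_mul τ, map_inv τ, C2c.tr_cj]

theorem tr_one : (Φ (τ 1)).trace = 24 := by rw [map_one, map_one]; decide +kernel

theorem zc (n : DN.G) : ν n * el 0 = el 0 * ν n := by
  have := DD.fin
  refine mem_Cx.1 (mem_of_gens DN.htop ν Cx(el 0).toSubmonoid (fun x hx => mem_Cx.2 ?_) n)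
  have := hz _ (List.mem_map_of_mem (List.mem_range.2 hx))
  simp only [evw_cons, evw_nil, mul_one, ← mul_assoc _ (el 0)] at this
  rw [hν x hx, eq_inv_of_mul_eq_one_left this, mul_inv_rev, ← hsq 0 (by decide), ← hsq x (by omega)]

theorem cjν {r : List ℕ} (hr : allLt 16 r = true) {y : DN.G} (h : IsConj (evw DN.el r) y) :
    IsConj (evw el r) (ν y) ∧ IsConj (evw el (r ++ [0])) (ν y * el 0) := by
  obtain ⟨c, rfl⟩ := isConj_iff.1 h
  rw [map_mul, map_mul, map_inv, hom_evw hν r (allLt_sound hr), evw_append, e0]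
  exact ⟨isConj_iff.2 ⟨_, rfl⟩, isConj_iff.2 ⟨ν c, by rw [← conj_mul, zc c, mul_inv_cancel_right]⟩⟩

theorem clsR : ∀ r ∈ RP, allLt 16 r = true ∧ (r = [] ∨ ((r = [0] ∨ r = C2.wd ∨ r = ws) ∧ IsConj (el 0) (evw el r)) ∨
    IsConj (evw el wa) (evw el r) ∨ IsConj (evw el wtd) (evw el r)) := by
  simp only [RP, List.forall_mem_cons, List.not_mem_nil, false_imp_iff, implies_true, and_true, true_or, or_true,
    true_and, ← e0]
  exact ⟨rfl, ⟨rfl, .inr (.inl (.refl _))⟩, ⟨rfl, .inr (.inr (.inl (.refl _)))⟩, ⟨rfl, .inr (.inl fu)⟩,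
    ⟨rfl, .inr (.inr (.inr (.refl _)))⟩, ⟨rfl, .inr (.inr (.inl fu))⟩, ⟨rfl, .inr (.inr (.inr fu))⟩,
    ⟨rfl, .inr (.inr (.inl fu))⟩, ⟨rfl, .inr (.inl fu)⟩, ⟨rfl, .inr (.inr (.inr fu))⟩, rfl, .inr (.inr (.inr fu))⟩

theorem cls (i1 : InvN) (hi : Function.Injective ν) (x : Γ) (h : x * x = 1) :
    x = 1 ∨ IsConj (el 0) x ∨ IsConj (evw el wa) x ∨ IsConj (evw el wtd) x := by
  have := finΓ.1
  obtain ⟨S, hS⟩ := exists_sylIn 2 ν.range
  have h1 := ν.range.card_mul_index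
  rw [← Nat.card_congr (MonoidHom.ofInjective hi).toEquiv, DD.card, Nat.card_congr χ.toEquiv, cardCo2] at h1
  obtain ⟨c, -, hc⟩ := (hS.trans le_top (by rw [relIndex_top_right]; omega)).exists_conj_mem (mem_top x)
    (k := 1) (by rw [pow_one, sq, h])
  obtain ⟨y, e⟩ := hS.le hc
  obtain ⟨r, hr, h2⟩ := i1 y (hi (by rw [map_mul, e, conj_mul, h, map_one]; simp))
  have h3 := (cjν (clsR r hr).1 h2).1.trans (e ▸ isConj_iff.2 ⟨c, rfl⟩ : IsConj x (ν y)).symm
  exact (clsR r hr).2.imp (fun e => by simpa [e, eq_comm] using h3)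
    (Or.imp (·.2.trans h3) (Or.imp (·.trans h3) (·.trans h3)))

theorem key (i1 : InvN) (i2 : CosS) (hi : Function.Injective ν) : ∀ y ∈ ν.range, IsConj (el 0) y → y ≠ el 0 →
    y * evw el wa = evw el wa * y → ¬ IsConj (el 0) (y * evw el wa) → IsConj (evw el wtd) (y * el 0) ∨
      IsConj (el 0) (y * evw el wa * el 0) ∨ IsConj (evw el wtd) (y * evw el wa * el 0) := by
  rintro _ ⟨y, rfl⟩ h1 h2 h3 h4
  have t2 := eq_inv_iff_mul_eq_one.1 (hsq 0 (by decide))
  obtain ⟨r, hr, h5⟩ := i1 y (hi (by rw [map_mul, sq_cj h1 t2, map_one]))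
  obtain ⟨k1, k2⟩ := cjν (clsR r hr).1 h5
  have t := (tr_cj (h1.trans k1.symm)).symm.trans trs.2.2
  have ea : ν (evw DN.el wa) = evw el wa := hom_evw hν _ (by decide)
  rcases (clsR r hr).2 with rfl | ⟨rfl | rfl | rfl, -⟩ | e | e
  · exact absurd (tr_one.symm.trans t) (by decide)
  · rw [evw_append, e0, t2, isConj_one_right] at k2
    exact absurd (mul_right_cancel (k2.trans t2.symm)) h2
  · exact .inl k2
  · obtain ⟨r, hr, h6⟩ := i2 y _ h5 (.refl _) (hi (by rw [map_mul, map_mul, ea, h3]))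
    simp only [List.mem_cons, List.not_mem_nil, or_false] at hr
    rcases hr with rfl | rfl | rfl <;> obtain ⟨k3, k4⟩ := cjν rfl h6 <;> rw [map_mul, ea] at k3 k4
    exacts [.inr (.inl (e0 ▸ (fu (r := ws)).trans k4)), absurd (e0 ▸ (fu (r := ws)).trans k3) h4,
      .inr (.inr ((fu (r := we2)).trans ((fu (r := we2 ++ [0]) (b := we2)).trans k4)))]
  · exact absurd (trs.1.symm.trans ((tr_cj e).trans t)) (by decide)
  · exact absurd (trs.2.1.symm.trans ((tr_cj e).trans t)) (by decide)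

theorem fin6 (i1 : InvN) (i2 : CosS) {G : Type*} [Group G] [Finite G] (ev : ℕ → G) (ρ : DN.G →* G)
    (hρ : ∀ x < 16, ρ (DN.el x) = ev x) (inj : Function.Injective ρ)
    (hC : ∀ g, g * ev 0 = ev 0 * g → g ∈ ρ.range) (hb : ∀ w ∈ DF.bws, evw ev w = 1)
    (hg : ∀ w ∈ DF.gws, evw ev w = 1) (n1 : ¬ IsConj (ev 0) (evw ev wa)) (n2 : ¬ IsConj (ev 0) (evw ev wtd)) :
    Nonempty (G ≃* Co2) := by
  obtain ⟨ψ, hψ⟩ := hhom ev (fun x hx => by
    rw [← (show ∀ x < 17, x = (List.range 17).getD x 0 by decide) x hx]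
    rcases Nat.lt_succ_iff_lt_or_eq.1 hx with h | rfl
    · rw [← hρ x h, ← map_inv, ← DN.hinv x h, (show ∀ x < 16, DN.il.getD x 0 = x by decide) x h]
    · simpa [eq_inv_iff_mul_eq_one] using hg [16, 16] (by decide)) fun r hr => by
      rcases List.mem_append.1 hr with h | h
      · rw [← hom_evw hρ r (allLt_all (by decide +kernel) r h), DN.hrel r h, map_one]
      · exact (List.mem_append.1 h).elim (hb r) (hg r)
  have e : ψ.comp ν = ρ := MonoidHom.eq_of_eqOn_dense DN.htop (by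
    rintro _ ⟨x, hx, rfl⟩
    rw [hρ x hx, MonoidHom.comp_apply, hν x hx, hψ x (hx.trans (by decide))])
  have hi : Function.Injective ν := Function.Injective.of_comp (f := ψ) (e ▸ inj : Function.Injective (ψ.comp ν))
  rw [← hψ 0 (by decide)] at hC n1 n2
  rw [← hom_evw hψ _ (by decide)] at n1 n2
  have hinj : Function.Injective ψ := by
    have := simpleCo2
    have := χ.isSimpleGroup
    exact inj_of_simple ψ (g := el 0 * (evw el wa)⁻¹) fun h => n1 (by
      rw [map_mul, map_inv, mul_inv_eq_one] at h; rw [h])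
  have t2 := eq_inv_iff_mul_eq_one.1 (hsq 0 (by decide))
  have t1 : el 0 ≠ 1 := fun h => absurd (tr_one.symm.trans (h ▸ trs.2.2)) (by decide)
  have hC' : ∀ g ∈ Cx(ψ (el 0)), ∃ y ∈ ν.range, ψ y = g := fun g hg =>
    (hC g (mem_Cx.1 hg)).elim fun n h => ⟨_, ⟨n, rfl⟩, by rw [← h, ← e]; rfl⟩
  have r := h7
  simp only [List.forall_mem_cons, evw_append, evw_wpow, evw_rev (show ∀ x ∈ w7, x < 17 by decide), e0,
    show evw el [12, 3] = (evw el [3, 12])⁻¹ from evw_rev (w := [3, 12]) (by decide)] at r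
  obtain ⟨r1, r2, r3, r4, r5, r6, -⟩ := r
  have cm : ∀ x y : Γ, x * evw el wa * y * evw el wa = 1 → y = x⁻¹ → x * evw el wa = evw el wa * x := fun x y h e => by
    rw [← mul_inv_eq_iff_eq_mul, ← e, eq_inv_of_mul_eq_one_left h, inv_eq_of_mul_eq_one_right r3]
  have rg : (ψ.comp χ.symm.toMonoidHom).range = ψ.range := by
    rw [MonoidHom.range_comp, MonoidHom.range_eq_top.2 χ.symm.surjective, ← MonoidHom.range_eq_map]
  have c := C2c.cen (ψ.comp χ.symm.toMonoidHom) (hinj.comp χ.symm.injective) (fun b b2 tb g hg => by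
    obtain ⟨b, rfl⟩ := χ.surjective b
    rw [rg] at hg ⊢
    obtain ⟨y, h⟩ := hg
    replace h : g * ψ b * g⁻¹ = ψ y := by simpa using h.symm
    have k : IsConj (el 0) b := by
      rcases cls i1 hi b (χ.injective (by rw [map_mul, b2, map_one])) with rfl | k | k | k
      exacts [absurd (tr_one.symm.trans tb) (by decide), k, absurd (trs.1.symm.trans ((tr_cj k).trans tb)) (by decide),
        absurd (trs.2.1.symm.trans ((tr_cj k).trans tb)) (by decide)]
    exact back (fun g hg => (hC' g hg).imp fun _ h => h.2) k (fuse hinj t2 t1 n1 n2 (cls i1 hi)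
      ((ψ.map_isConj k).trans (isConj_iff.2 ⟨g, h⟩))) h) (χ (evw el wtd)) (by rw [← map_mul, r6, map_one]) trs.2.1
  rw [rg, show ψ.comp χ.symm.toMonoidHom (χ (evw el wtd)) = ψ (evw el wtd) by simp] at c
  have s := surj hinj t2 t1 r3 (fun h => absurd (tr_one.symm.trans (h ▸ trs.1)) (by decide)) hC' n1 n2 (fun h => c.2 (by
      haveI : Fact (Nat.Prime 7) := ⟨by norm_num⟩
      change 7 ∣ Nat.card Cx(ψ (evw el wtd))
      rw [← card_Cx_cj h, ← orderOf_eq_prime r1 ne7]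
      exact (Subgroup.orderOf_dvd_natCard _ (mem_Cx.2 (cm _ _ r2 rfl))).trans (card_Cx_dvd hinj _)))
    (cls i1 hi) c.1 (cm _ _ r4 (hsq 0 (by decide))) (e0 ▸ evw_append el [0] wa ▸ fu) (cm _ _ r5 rfl)
    (e0 ▸ fu (r := [3, 12])) (evw_append el [3, 12] wa ▸ fu) (key i1 i2 hi)
  exact ⟨(MulEquiv.ofBijective ψ ⟨hinj, s⟩).symm.trans χ⟩

/-- the rank three action on `2300` points -/
theorem rank3 {G : Type*} [Group G] (h : Nonempty (G ≃* Co2)) : ∃ H : Subgroup G, IsCoatom H ∧ H.index = 2300 ∧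
    ∃ q₁ q₂ : G ⧸ H, (MulAction.orbit H q₁).ncard = 891 ∧ (MulAction.orbit H q₂).ncard = 1408 := by
  obtain ⟨e⟩ := h
  replace e := e.trans isoCo2'.choose.symm
  have k : ∀ g, (MulAction.orbit (C2A.H.comap e.toMonoidHom) (e.symm g : G ⧸ C2A.H.comap e.toMonoidHom)).ncard =
      (MulAction.orbit C2A.H (g : C2B.G ⧸ C2A.H)).ncard := fun g => by
    have hf : ∀ a b : G, (a : G ⧸ C2A.H.comap e.toMonoidHom) = b ↔ (e a : C2B.G ⧸ C2A.H) = e b := fun a b => by
      rw [QuotientGroup.eq, QuotientGroup.eq, ← map_inv, ← map_mul]; rfl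
    refine Set.ncard_congr (fun q _ => (e q.out : C2B.G ⧸ C2A.H)) ?_ (fun a b _ _ h => ?_) ?_
    · rintro _ ⟨m, rfl⟩
      refine ⟨⟨e m, m.2⟩, ?_⟩
      change ((e m * g : C2B.G) : C2B.G ⧸ C2A.H) = _
      rw [← e.apply_symm_apply g, ← map_mul, ← hf, QuotientGroup.out_eq', e.symm_apply_apply]; rfl
    · rw [← QuotientGroup.out_eq' a, (hf _ _).2 h, QuotientGroup.out_eq']
    · rintro _ ⟨m, rfl⟩
      refine ⟨_, ⟨⟨e.symm m, by simp⟩, rfl⟩, ?_⟩
      change _ = ((m * g : C2B.G) : C2B.G ⧸ C2A.H)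
      rw [← e.apply_symm_apply (m * g), ← hf, QuotientGroup.out_eq', map_mul]; rfl
  have i : (C2A.H.comap e.toMonoidHom).index = 2300 := (index_comap_of_surjective _ e.surjective).trans C2G.stab.2
  refine ⟨_, ⟨fun h => by rw [h, index_top] at i; omega, fun L hL => ?_⟩, i, _, _,
    (k _).trans (C2A.q1 C2G.stab.1), (k _).trans (C2A.q2 C2G.stab.1)⟩
  rw [← comap_map_eq_self_of_injective (f := e.toMonoidHom) e.injective L] at hL ⊢
  rcases C2A.hmax C2G.stab.1 C2G.stab.2 (L.map e.toMonoidHom)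
    ((comap_le_comap_of_surjective e.surjective).1 hL.le) with h | h
  · exact absurd (by rw [h]) hL.ne
  · rw [h, comap_top]

end CfH9.C2f
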