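import Cfsg.Agent.H9.CoFin1
/-! The class argument that finishes the recognition of `Co₂`. -/
set_option autoImplicit false
namespace CfH9.C2f
open Subgroup CoFin

variable {Γ G : Type*} [Group Γ] [Group G] [Finite G] {ψ : Γ →* G}

omit [Finite G] in
theorem sq_cj {x y : G} (h : IsConj x y) (e : x * x = 1) : y * y = 1 := by
  obtain ⟨c, rfl⟩ := isConj_iff.1 h
  rw [conj_mul, e]; simp

omit [Finite G] in
theorem back {x y : Γ} (hx : Cx(ψ x) ≤ ψ.range) {b : Γ} (hb : IsConj x b) (hy : IsConj x y) {g : G}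
    (e : g * ψ b * g⁻¹ = ψ y) : g ∈ ψ.range := by
  obtain ⟨m, rfl⟩ := isConj_iff.1 hb
  obtain ⟨n, rfl⟩ := isConj_iff.1 hy
  have : (ψ n)⁻¹ * g * ψ m ∈ ψ.range := hx (mem_Cx'.2 (by
    simp only [map_mul, map_inv] at e
    calc _ = (ψ n)⁻¹ * (g * (ψ m * ψ x * (ψ m)⁻¹) * g⁻¹) * ψ n := by group
      _ = _ := by rw [e]; group))
  rwa [ψ.range.mul_mem_cancel_right ⟨m, rfl⟩, ψ.range.mul_mem_cancel_left (inv_mem ⟨n, rfl⟩)] at this

omit [Finite G] in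
theorem fuse (hψ : Function.Injective ψ) {t a d : Γ} (t2 : t * t = 1) (t1 : t ≠ 1)
    (n1 : ¬ IsConj (ψ t) (ψ a)) (n2 : ¬ IsConj (ψ t) (ψ d))
    (cls : ∀ x : Γ, x * x = 1 → x = 1 ∨ IsConj t x ∨ IsConj a x ∨ IsConj d x) {y : Γ}
    (h : IsConj (ψ t) (ψ y)) : IsConj t y := by
  rcases cls y (hψ (by rw [map_mul, sq_cj h (by rw [← map_mul, t2, map_one]), map_one])) with rfl | e | e | e
  · exact absurd (hψ ((isConj_one_left.1 (map_one ψ ▸ h)).trans (map_one ψ).symm)) t1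
  exacts [e, absurd (h.trans (ψ.map_isConj e).symm) n1, absurd (h.trans (ψ.map_isConj e).symm) n2]

theorem surj (hψ : Function.Injective ψ) {H : Subgroup Γ} {t a d v : Γ} (t2 : t * t = 1) (t1 : t ≠ 1)
    (a2 : a * a = 1) (a1 : a ≠ 1) (hC : ∀ g ∈ Cx(ψ t), ∃ y ∈ H, ψ y = g)
    (n1 : ¬ IsConj (ψ t) (ψ a)) (n2 : ¬ IsConj (ψ t) (ψ d)) (n3 : ¬ IsConj (ψ a) (ψ d))
    (cls : ∀ x : Γ, x * x = 1 → x = 1 ∨ IsConj t x ∨ IsConj a x ∨ IsConj d x) (cd : Cx(ψ d) ≤ ψ.range)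
    (ta : t * a = a * t) (ta' : IsConj a (t * a)) (va : v * a = a * v) (v1 : IsConj t v) (v2 : IsConj d (v * a))
    (key : ∀ y ∈ H, IsConj t y → y ≠ t → y * a = a * y → ¬ IsConj t (y * a) →
      IsConj d (y * t) ∨ IsConj t (y * a * t) ∨ IsConj d (y * a * t)) : Function.Surjective ψ := by
  have ct : Cx(ψ t) ≤ ψ.range := fun g hg => (hC g hg).imp fun _ h => h.2
  have cj : ∀ {x y}, Cx(ψ x) ≤ ψ.range → IsConj x y → Cx(ψ y) ≤ ψ.range := fun h e g hg => back h e e (mem_Cx'.1 hg)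
  have fu := fun y => fuse hψ t2 t1 n1 n2 cls (y := y)
  have s2 : ψ t * ψ t = 1 := by rw [← map_mul, t2, map_one]
  have ca : Cx(ψ a) ≤ ψ.range := fun g hg => by
    have c1 : IsConj (ψ t) (g * ψ v * g⁻¹) := (ψ.map_isConj v1).trans (isConj_iff.2 ⟨g, rfl⟩)
    have u2 := sq_cj c1 s2
    have tA : ψ t ∈ Cx(ψ a) := mem_Cx.2 (by rw [← map_mul, ta, map_mul])
    have uA : g * ψ v * g⁻¹ ∈ Cx(ψ a) :=
      mul_mem (mul_mem hg (mem_Cx.2 (by rw [← map_mul, va, map_mul]))) (inv_mem hg)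
    have xA := pow_mem (mul_mem uA tA)
    have m : ∀ h ∈ Cx(ψ a), ∀ x, IsConj (x * ψ a) (h * x * h⁻¹ * ψ a) := fun h hh x =>
      isConj_iff.2 ⟨h, by rw [← conj_mul, mem_Cx'.1 hh]⟩
    have c2 : IsConj (ψ a) (ψ t * ψ a) := map_mul ψ t a ▸ ψ.map_isConj ta'
    have c3 : IsConj (ψ d) (g * ψ v * g⁻¹ * ψ a) := (ψ.map_isConj v2).trans (map_mul ψ v a ▸ m g hg _)
    suffices h : g * ψ v * g⁻¹ ∈ ψ.range by
      obtain ⟨y, e⟩ := h
      exact back ct v1 (fu y (e ▸ c1)) e.symm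
    generalize g * ψ v * g⁻¹ = u at c1 u2 uA xA c3
    rcases dih_cases s2 u2 with ⟨j, e⟩ | ⟨i, m1, m2, m3, m4⟩
    · exact absurd ((c2.trans (m _ (xA j) _)).trans (e ▸ c3).symm) n3
    obtain ⟨y, y1, e⟩ := hC _ (mul_mem (mem_Cx.2 m3) (mem_Cx.2 rfl))
    have k1 : IsConj (ψ t) (ψ y) ∧ (IsConj (ψ a) (ψ y * ψ a) ∨ IsConj (ψ d) (ψ y * ψ a)) := by
      rw [e]
      rcases Nat.even_or_odd' i with ⟨j, rfl | rfl⟩
      · rw [← dih_even s2 u2]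
        exact ⟨isConj_iff.2 ⟨_, rfl⟩, .inl (c2.trans (m _ (xA j) _))⟩
      · rw [← dih_odd s2 u2]
        exact ⟨c1.trans (isConj_iff.2 ⟨_, rfl⟩), .inr (c3.trans (m _ (xA j) _))⟩
    have e1 : ψ (y * t) = (u * ψ t) ^ i := by rw [map_mul, e, mul_assoc, s2, mul_one]
    have e2 : u ∈ Cx(ψ (y * a * t)) := by
      rw [mul_assoc, ← ta, ← mul_assoc, map_mul, e1, mem_Cx, ← mul_assoc, ← m4, mul_assoc, mem_Cx.1 uA, mul_assoc]
    rcases key y y1 (fu y k1.1) (fun h => m1 (by rw [← e1, h, t2, map_one]))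
      (hψ (by rw [map_mul, map_mul, e]; exact mem_Cx.1 (mul_mem (xA i) tA))) (fun h => by
        have := map_mul ψ y a ▸ ψ.map_isConj h
        exact k1.2.elim (fun c => n1 (this.trans c.symm)) fun c => n2 (this.trans c.symm)) with h | h | h
    exacts [cj cd h (mem_Cx.2 (e1 ▸ m4.symm)), cj ct h e2, cj cd h e2]
  intro g
  have c1 : IsConj (ψ a) (g * ψ a * g⁻¹) := isConj_iff.2 ⟨g, rfl⟩
  have u2 := sq_cj c1 (by rw [← map_mul, a2, map_one])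
  obtain ⟨y, e⟩ : g * ψ a * g⁻¹ ∈ ψ.range := by
    rcases dih_cases s2 u2 with ⟨j, e⟩ | ⟨i, m1, m2, m3, m4⟩
    · exact absurd ((isConj_iff.2 ⟨_, e.symm⟩).trans c1.symm) n1
    obtain ⟨w, e⟩ := ct (mem_Cx.2 m3)
    rw [← e] at m1 m2 m4
    rcases cls w (hψ (by rw [map_mul, m2, map_one])) with rfl | h | h | h
    exacts [absurd (map_one ψ) m1, cj ct h (mem_Cx.2 m4.symm), cj ca h (mem_Cx.2 m4.symm), cj cd h (mem_Cx.2 m4.symm)]
  rw [← e] at c1 u2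
  rcases cls y (hψ (by rw [map_mul, u2, map_one])) with rfl | h | h | h
  · exact absurd (hψ ((isConj_one_left.1 (map_one ψ ▸ c1)).trans (map_one ψ).symm)) a1
  · exact absurd ((ψ.map_isConj h).trans c1.symm) n1
  · exact back ca (IsConj.refl a) h e.symm
  · exact absurd (c1.trans (ψ.map_isConj h).symm) n3

end CfH9.C2f
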