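import Cfsg.Agent.H8.DW
import Cfsg.Agent.H6.Lee
/-! Automorphisms of the Leech lattice given by matrices. -/
set_option autoImplicit false
set_option maxRecDepth 100000
set_option Elab.async false
namespace CfH9.C2f
open CfH6 CfH6.Lee CfH8.C2
theorem k0 : Ok (lget ms17 0 0) := by decide +kernel
theorem k1 : Ok (lget ms17 0 1) := by decide +kernel
theorem k2 : Ok (lget ms17 0 2) := by decide +kernel
theorem k3 : Ok (lget ms17 0 3) := by decide +kernel
theorem k4 : Ok (lget ms17 0 4) := by decide +kernel
theorem k5 : Ok (lget ms17 0 5) := by decide +kernel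
end CfH9.C2f
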