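import Cfsg.Agent.H9.Ree2
import Cfsg.Agent.H9.Bn3

/-! Groups `L₂(q)` (`q` odd) and `²G₂(q)` do not act quadratically. -/

set_option autoImplicit false

namespace CfH9

open Cfsg CfH7 CfH8 CfH1 CfFT Subgroup CfH5.BS.Bn
open scoped commutatorElement

/-- in a 2-subgroup, elements of order at least four commute -/
def DD (X : Type*) [Group X] : Prop :=
  ∀ T : Subgroup X, IsPGroup 2 T → ∀ x ∈ T, ∀ y ∈ T, x ^ 2 ≠ 1 → y ^ 2 ≠ 1 → Commute x y

variable {G : Type*} [Group G] {p : ℕ}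

theorem DD.of_hom {X : Type*} [Group X] (h : DD X) (f : G →* X)
    (hf : ∀ x ∈ f.ker, (∃ k, x ^ 2 ^ k = 1) → x = 1) : DD G := fun T hT x hx y hy h1 h2 => by
  have e : ∀ z ∈ T, f z = 1 → z = 1 := fun z hz h => hf z h
    ((hT ⟨z, hz⟩).imp fun k hk => congrArg Subtype.val hk)
  have := h _ (hT.map f) _ (mem_map_of_mem f hx) _ (mem_map_of_mem f hy)
    (fun h => h1 (e _ (pow_mem hx 2) (by rw [map_pow, h])))
    (fun h => h2 (e _ (pow_mem hy 2) (by rw [map_pow, h])))
  exact commutatorElement_eq_one_iff_commute.1 (e _ (by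
    rw [commutatorElement_def]; exact mul_mem (mul_mem (mul_mem hx hy) (inv_mem hx)) (inv_mem hy))
    (by rw [map_commutatorElement, this.commutator_eq]))

theorem sl2_sq {F : Type*} [Field F] (x : Matrix.SpecialLinearGroup (Fin 2) F) :
    x.1 * x.1 = x.1.trace • x.1 - 1 := by
  have h := x.2
  rw [Matrix.det_fin_two] at h
  ext i j; fin_cases i <;> fin_cases j <;>
    simp [Matrix.mul_apply, Fin.sum_univ_two, Matrix.trace_fin_two]
  · linear_combination -h
  · ring
  · ring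
  · linear_combination -h

theorem sl2_central_of_sq {F : Type*} [Field F] (h2 : (2 : F) ≠ 0)
    {x : Matrix.SpecialLinearGroup (Fin 2) F} (hx : x ^ 2 = 1) : x ∈ center _ := by
  have h := sl2_sq x
  rw [← Matrix.SpecialLinearGroup.coe_mul, ← sq, hx, Matrix.SpecialLinearGroup.coe_one,
    eq_sub_iff_add_eq] at h
  have ht : x.1.trace ≠ 0 := fun h0 => h2 (by
    have := congrFun (congrFun h 0) 0
    rw [h0] at this; simpa [one_add_one_eq_two] using this)
  refine mem_center_iff.2 fun g => Subtype.ext ((smul_right_injective _ ht) ?_)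
  simp only [Matrix.SpecialLinearGroup.coe_mul]
  rw [← Matrix.mul_smul, ← Matrix.smul_mul, ← h, mul_add, add_mul, mul_one, one_mul]

theorem nStab_of_dd [Finite G] [hp : Fact p.Prime] (h2 : p ≠ 2) (h : DD G) (X : Subgroup G) :
    NStab p X := by
  refine nStab_of_not_involves' h2 (fun hq => ?_) X
  obtain ⟨K, f, hf⟩ := involves_iff.1 (Involves.sl_of_qd hq)
  haveI : Fact (2 < p) := ⟨lt_of_le_of_ne hp.out.two_le h2.symm⟩
  obtain ⟨S, hS⟩ := exists_sylIn 2 (⊤ : Subgroup K)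
  have hK : DD K := h.of_hom K.subtype fun x hx _ => Subtype.ext hx
  have h0 : (2 : ZMod p) ≠ 0 := fun h => h2 ((Nat.prime_dvd_prime_iff_eq hp.out Nat.prime_two).1
    ((ZMod.natCast_eq_zero_iff 2 p).1 (by exact_mod_cast h)))
  have h1 : Ab (S.map f) := ⟨⟨fun ⟨_, x, hx, rfl⟩ ⟨_, y, hy, rfl⟩ => Subtype.ext (by
    change f x * f y = f y * f x
    by_cases a : x ^ 2 = 1
    · exact (mem_center_iff.1 (sl2_central_of_sq h0 (by rw [← map_pow, a, map_one])) _).symm
    by_cases b : y ^ 2 = 1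
    · exact mem_center_iff.1 (sl2_central_of_sq h0 (by rw [← map_pow, b, map_one])) _
    exact ((hK S hS.pgrp x hx y hy a b).map f).eq)⟩⟩
  have hT := hS.map_surj hf
  have h3 : (-1 : Matrix.SpecialLinearGroup (Fin 2) (ZMod p)) ∈ center _ :=
    mem_center_iff.2 fun g => by simp
  have h4 : (slU (ZMod p) * (slW _)⁻¹ * slU _) ^ 2 = -1 := Subtype.ext (by
    rw [pow_two, Matrix.SpecialLinearGroup.coe_mul, Matrix.SpecialLinearGroup.coe_mul,
      Matrix.SpecialLinearGroup.coe_mul, slU_val, slW_inv_val]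
    ext a b; fin_cases a <;> fin_cases b <;> simp)
  have h5 : (-1 : Matrix.SpecialLinearGroup (Fin 2) (ZMod p)) ∈ _root_.commutator _ := by
    rw [← Abelianization.ker_of, MonoidHom.mem_ker]
    refine CfH5.BS.eq_one_of_sq ((hp.out.odd_of_ne_two h2).of_dvd_nat (orderOf_dvd_of_pow_eq_one ?_))
      (by rw [← map_mul]; simp)
    rw [← h4, map_pow, map_mul, map_mul, map_inv, ← pow_mul, mul_comm 2, pow_mul]
    simp only [mul_pow, inv_pow, ← map_pow, slU_pow_char, slW_pow_char]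
    simp
  have h6 := mem_der_of_center hT (zpowers_le.1 (hT.le_of_le_Nm (pgrp_inv (by simp)) le_top
    fun g _ => Cz_le_Nm _ ((Cz_zpowers _).ge (mem_Cx.2 (mem_center_iff.1 h3 g))))) h3 h5
  rw [ab_iff_comm.1 h1, mem_bot] at h6
  have := congrArg (fun M : Matrix.SpecialLinearGroup (Fin 2) (ZMod p) => M.1 0 0) h6
  simp only [Matrix.SpecialLinearGroup.coe_neg, Matrix.SpecialLinearGroup.coe_one,
    Matrix.neg_apply, Matrix.one_apply_eq] at this
  exact ZMod.neg_one_ne_one this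

theorem dd_ree (h : Lie.IsoRee G) : DD G := by
  obtain ⟨F, _, _, m, -, hF, ⟨e⟩⟩ := h
  intro T hT x hx y _ h1
  obtain ⟨k, hk⟩ := hT ⟨x, hx⟩
  have hk' : (e x) ^ 2 ^ k = 1 := by
    rw [← map_pow, show x ^ 2 ^ k = 1 from congrArg Subtype.val hk, map_one]
  refine absurd (e.injective ?_) h1
  rw [map_pow, map_one]
  generalize e x = g at hk'
  clear hk
  induction k with
  | zero => rw [show g = 1 by simpa using hk', one_pow]
  | succ k ih =>
    rcases k with _ | k
    · simpa using hk'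
    · refine ih ?_
      rw [pow_succ, pow_mul]
      exact Ree.sq_eq_one hF _ (by rw [← pow_mul, ← hk']; congr 1; ring)

theorem comm_two {F : Type*} [Field F] {X Y Z : Matrix (Fin 2) (Fin 2) F} (hX : X * Z = Z * X)
    (hY : Y * Z = Z * Y) (hne : X * Y ≠ Y * X) (g : Matrix (Fin 2) (Fin 2) F) : g * Z = Z * g := by
  have a := fun i j => congrFun (congrFun hX i) j
  have b := fun i j => congrFun (congrFun hY i) j
  simp only [Matrix.mul_apply, Fin.sum_univ_two] at a b
  have a1 := a 0 0; have a2 := a 0 1; have a3 := a 1 0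
  have b1 := b 0 0; have b2 := b 0 1; have b3 := b 1 0
  have c : ∀ u : F, u * (X 0 1 * Y 1 0 - Y 0 1 * X 1 0) = 0 →
      u * ((X 0 0 - X 1 1) * Y 0 1 - X 0 1 * (Y 0 0 - Y 1 1)) = 0 →
      u * (X 1 0 * (Y 0 0 - Y 1 1) - (X 0 0 - X 1 1) * Y 1 0) = 0 → u = 0 := fun u h1 h2 h3 =>
    by_contra fun hu => hne (by
      have h1 := (mul_eq_zero.1 h1).resolve_left hu
      have h2 := (mul_eq_zero.1 h2).resolve_left hu
      have h3 := (mul_eq_zero.1 h3).resolve_left hu
      ext i j; fin_cases i <;> fin_cases j <;> simp [Matrix.mul_apply, Fin.sum_univ_two]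
      exacts [by linear_combination h1, by linear_combination h2, by linear_combination h3,
        by linear_combination -h1])
  have c1 : Z 0 1 = 0 := c _ (by grind) (by grind) (by grind)
  have c2 : Z 1 0 = 0 := c _ (by grind) (by grind) (by grind)
  have c3 : Z 0 0 = Z 1 1 := sub_eq_zero.1 (c _ (by grind) (by grind) (by grind))
  ext i j; fin_cases i <;> fin_cases j <;> simp [Matrix.mul_apply, Fin.sum_univ_two, c1, c2, c3] <;>
    ring

theorem dd_psl2 {F : Type*} [Field F] [Finite F] (h2 : (2 : F) ≠ 0) :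
    DD (Matrix.ProjectiveSpecialLinearGroup (Fin 2) F) := fun T hT x hx y hy h1 h2' => by
  have hT0 : T ≠ ⊥ := by rintro rfl; exact h1 (by rw [mem_bot.1 hx, one_pow])
  obtain ⟨z, -, hz1, hz⟩ := exists_mem_center_of_normal hT hT le_normalizer hT0
  obtain ⟨Z, rfl⟩ := QuotientGroup.mk_surjective z
  have hZ : Z ∉ center _ := fun h => hz1 ((QuotientGroup.eq_one_iff _).2 h)
  have key : ∀ X : Matrix.SpecialLinearGroup (Fin 2) F, (X : Matrix.ProjectiveSpecialLinearGroup
      (Fin 2) F) ∈ T → (X : Matrix.ProjectiveSpecialLinearGroup (Fin 2) F) ^ 2 ≠ 1 →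
      X.1 * Z.1 = Z.1 * X.1 := fun X hX hX2 => by
    have h3 : (X * Z)⁻¹ * (Z * X) ∈ center _ := QuotientGroup.eq.1 (mem_centralizer_iff.1 hz _ hX)
    obtain ⟨r, hr, e⟩ := Matrix.SpecialLinearGroup.mem_center_iff.1 h3
    have e' : Z.1 * X.1 = r • (X.1 * Z.1) := by
      rw [← Matrix.SpecialLinearGroup.coe_mul, ← mul_inv_cancel_left (X * Z) (Z * X),
        Matrix.SpecialLinearGroup.coe_mul, ← e]
      simp [Matrix.smul_eq_mul_diagonal]
    rw [Fintype.card_fin, sq_eq_one_iff] at hr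
    rcases hr with rfl | rfl
    · rw [e', one_smul]
    · refine absurd ?_ hX2
      have h4 : X.1.trace = -X.1.trace := by
        conv_lhs => rw [← inv_mul_cancel_left Z X, Matrix.SpecialLinearGroup.coe_mul,
          Matrix.SpecialLinearGroup.coe_mul, e', Matrix.mul_smul, Matrix.trace_smul,
          Matrix.trace_mul_comm, Matrix.mul_assoc, ← Matrix.SpecialLinearGroup.coe_mul,
          mul_inv_cancel, Matrix.SpecialLinearGroup.coe_one, Matrix.mul_one]
        simp
      have h5 : X.1.trace = 0 := (mul_eq_zero.1 (by linear_combination h4)).resolve_left h2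
      rw [← QuotientGroup.mk_pow, QuotientGroup.eq_one_iff]
      have h6 : X ^ 2 = -1 := Subtype.ext (by
        rw [sq, Matrix.SpecialLinearGroup.coe_mul, sl2_sq, h5]; simp)
      exact h6 ▸ mem_center_iff.2 fun g => by simp
  obtain ⟨X, rfl⟩ := QuotientGroup.mk_surjective x
  obtain ⟨Y, rfl⟩ := QuotientGroup.mk_surjective y
  have : X * Y = Y * X := Subtype.ext (by_contra fun hne => hZ (mem_center_iff.2 fun g =>
    Subtype.ext (comm_two (key X hx h1) (key Y hy h2') hne g.1)))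
  exact Commute.map this (QuotientGroup.mk' _)

theorem no_quad [Finite G] [hp : Fact p.Prime] (h2 : p ≠ 2) {V H A : Subgroup G}
    (hV : IsElementaryAbelian p V) (hHV : H ≤ Nm(V))
    (hirr : ∀ U : Subgroup G, U ≤ V → H ≤ Nm(U) → U = ⊥ ∨ U = V)
    [hn : (Cz(V).subgroupOf H).Normal] (hD : DD (H ⧸ Cz(V).subgroupOf H)) (hA : A ≤ H)
    (hq : ⁅⁅V, A⁆, A⁆ = ⊥) : ⁅V, A⁆ = ⊥ := by
  let φ : H ⧸ Cz(V).subgroupOf H →* MulAut V := QuotientGroup.lift _
    (V.normalizerMonoidHom.comp (inclusion hHV)) fun x hx => by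
      ext v
      exact conj_eq_of_mem_centralizer (mem_subgroupOf.1 hx) v.2
  have hφ : ∀ (h : H) (v : V), ((φ h v : V) : G) = h * v * (h : G)⁻¹ := fun _ _ => rfl
  let Y := V ⋊[φ] (H ⧸ Cz(V).subgroupOf H)
  haveI : Finite Y := Finite.of_equiv _ SemidirectProduct.equivProd.symm
  let i : V →* Y := SemidirectProduct.inl
  have hi : Function.Injective i := SemidirectProduct.inl_injective
  let j : H →* Y := SemidirectProduct.inr.comp (QuotientGroup.mk' _)
  have hij : ∀ (h : H) (v : V), j h * i v * (j h)⁻¹ = i (φ h v) := fun h v => by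
    rw [← map_inv]
    exact (SemidirectProduct.inl_aut (φ := φ) (h : H ⧸ Cz(V).subgroupOf H) v).symm
  have hB : i.range = (SemidirectProduct.rightHom : Y →* _).ker :=
    SemidirectProduct.range_inl_eq_ker_rightHom
  have hBn : i.range.Normal := hB ▸ MonoidHom.normal_ker _
  have hVp : ∀ v : V, v ^ p = 1 := fun v => Subtype.ext (hV.2 _ v.2)
  have hBp : IsPGroup p i.range := by
    rintro ⟨_, v, rfl⟩
    exact ⟨1, Subtype.ext (by rw [pow_one, Subgroup.coe_pow, ← map_pow, hVp, map_one]; rfl)⟩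
  have hY : DD Y := hD.of_hom SemidirectProduct.rightHom fun x hx ⟨k, hk⟩ => by
    obtain ⟨v, rfl⟩ := hB.ge hx
    refine orderOf_eq_one_iff.1 (Nat.eq_one_of_dvd_coprimes (Nat.Coprime.pow_right k
      ((Nat.coprime_primes hp.out Nat.prime_two).2 h2)) (orderOf_dvd_of_pow_eq_one ?_)
      (orderOf_dvd_of_pow_eq_one hk))
    rw [← map_pow, hVp, map_one]
  have h0 : ⁅i.range, (A.subgroupOf H).map j⁆ ≤ (⁅V, A⁆.subgroupOf V).map i := by
    rw [Subgroup.commutator_comm, Subgroup.commutator_comm V]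
    refine Subgroup.commutator_le.2 ?_
    rintro _ ⟨a, ha, rfl⟩ _ ⟨v, rfl⟩
    rw [commutatorElement_def, hij, ← map_inv, ← map_mul]
    exact mem_map_of_mem _ (commutator_mem_commutator (mem_subgroupOf.1 ha) v.2)
  have h1 := (nStab_of_dd h2 hY ⊤).le le_top (normal_iff_top_le_Nm.1 hBn) hBp
    (A := (A.subgroupOf H).map j) le_top (comm_eq_bot_right.2 (by
      rintro _ ⟨a, ha, rfl⟩
      refine Cz_anti h0 (mem_centralizer_of_conj_eq ?_)
      rintro _ ⟨v, hv, rfl⟩
      rw [hij]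
      exact congrArg i (Subtype.ext (conj_eq_of_mem_centralizer
        (comm_eq_bot_right.1 hq (mem_subgroupOf.1 ha)) (mem_subgroupOf.1 hv)))))
  set K := opm p ⊤ Cz(i.range)
  have hC : (⊤ : Subgroup Y) ≤ Nm(Cz(i.range)) :=
    (normal_iff_top_le_Nm.1 hBn).trans (Nm_le_Nm_Cz _)
  have hU : (⊤ : Subgroup Y) ≤ Nm(i.range ⊓ Cz(K)) :=
    CfH7.le_normalizer_inf (normal_iff_top_le_Nm.1 hBn) ((le_Nm_opm hC).trans (Nm_le_Nm_Cz _))
  by_cases hV0 : V = ⊥
  · rw [hV0, commutator_bot_left]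
  have h3 := inf_Cz_ne_bot_of_pResidualOf_le hBp (le_top.trans (normal_iff_top_le_Nm.1 hBn))
    (pResidualOf_opm_le hC) fun h => hV0 (eq_bot_iff.2 fun v hv =>
      congrArg Subtype.val (hi ((mem_bot.1 (h.le ⟨⟨v, hv⟩, rfl⟩)).trans (map_one i).symm)))
  rcases hirr (((i.range ⊓ Cz(K)).comap i).map V.subtype) (map_subtype_le _) (fun h hh =>
    mem_normalizer_of_conj_mem (by
      rintro _ ⟨v, hv, rfl⟩
      refine ⟨φ (⟨h, hh⟩ : H) v, ?_, rfl⟩
      rw [SetLike.mem_coe, mem_comap, ← hij]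
      exact conj_mem_of_mem_normalizer (hU (mem_top _)) hv)) with h4 | h4
  · refine absurd (eq_bot_iff.2 ?_) h3
    rintro _ ⟨⟨v, rfl⟩, hv⟩
    have : (v : G) = 1 := mem_bot.1 (h4.le ⟨v, ⟨⟨v, rfl⟩, hv⟩, rfl⟩)
    rw [show v = 1 from Subtype.ext this, map_one]; exact one_mem _
  refine comm_eq_bot_right.2 fun a ha => mem_centralizer_of_conj_eq fun v hv => ?_
  obtain ⟨w, hw, rfl⟩ := h4.ge hv
  have h5 := hij ⟨a, hA ha⟩ w
  rw [mem_centralizer_iff.1 hw.2 _ (h1 (mem_map_of_mem j (mem_subgroupOf.2 ha))),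
    mul_inv_cancel_right] at h5
  exact congrArg Subtype.val (hi h5).symm

end CfH9
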