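import Mathlib
/-! Numerical lemmas for the character table of a simple group of order `443520`. -/
set_option autoImplicit false
namespace CfH9.PA

def R (s : ℕ) (n : ℕ) (o : ℤ) : List ℤ := (List.range n).map fun i => (s * i : ℕ) - o

theorem memR {x : ℤ} (h : x ^ 2 < 1152) : x ∈ R 1 67 33 := by
  have h1 : x ≤ 33 := by nlinarith
  have h2 : -33 ≤ x := by nlinarith
  exact List.mem_map.2 ⟨(x + 33).toNat, List.mem_range.2 (by omega), by omega⟩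
theorem memR3 {x : ℤ} (h : x ^ 2 < 1152) (d : 3 ∣ x) : x ∈ R 3 23 33 := by
  have h1 : x ≤ 33 := by nlinarith
  have h2 : -33 ≤ x := by nlinarith
  exact List.mem_map.2 ⟨((x + 33) / 3).toNat, List.mem_range.2 (by omega), by omega⟩
theorem memR9 {x : ℤ} (h : x ^ 2 < 1152) (d : 9 ∣ x) : x ∈ R 9 7 27 := by
  have h1 : x ≤ 33 := by nlinarith
  have h2 : -33 ≤ x := by nlinarith
  exact List.mem_map.2 ⟨((x + 27) / 9).toNat, List.mem_range.2 (by omega), by omega⟩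

def sq (b c d f g k : ℤ) : ℤ := 2 * (1 - b + 2 * c + d) ^ 2 + b ^ 2 + 2 * c ^ 2 + d ^ 2 + (1 + f - c) ^ 2 + f ^ 2 + g ^ 2 +
  (f + g - b - 1) ^ 2 + k ^ 2 + 1

set_option synthInstance.maxSize 2000 in
set_option synthInstance.maxHeartbeats 200000 in
theorem k2 : ∀ c ∈ R 1 67 33, c % 4 = 1 → ∀ f ∈ R 1 67 33, 495 = 11 * c ^ 2 + 9 * (1 + f - c) ^ 2 - 5 * f ^ 2 →
    ∀ b ∈ R 1 67 33, b % 4 = 1 → ∀ d ∈ R 1 67 33, 2520 = 9 * (1 - b + 2 * c + d) ^ 2 + 120 * b ^ 2 - 112 * c ^ 2 - 12 * d ^ 2 →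
    ∀ g ∈ R 1 67 33, g % 4 = 2 → ∀ k ∈ R 1 67 33, 560 * (1 - b + 2 * c + d) + 21 * b + 90 * c + 210 * d + 55 * (1 + f - c) + 99 * f +
      154 * g + 231 * (f + g - b - 1) + 385 * k = -1 → 1152 % sq b c d f g k = 0 →
      c = -3 ∧ f = 3 ∧ b = 5 ∧ d = 2 ∧ g = 10 ∧ k = 1 := by decide +kernel

def k0 (b c d f : ℤ) : ℤ := 16 * (1 - b + 2 * c + d) - 5 * b + 6 * c - 2 * d - 7 * (1 + f - c) - 3 * f - 7 * (f - b - 1) - 1
def s0 (b c d f : ℤ) : ℤ := 560 * (1 - b + 2 * c + d) + 21 * b + 90 * c + 210 * d + 55 * (1 + f - c) + 99 * f +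
  231 * (f - b - 1) + 1 + 385 * k0 b c d f

set_option synthInstance.maxSize 2000 in
theorem k3 : ∀ c ∈ R 9 7 27, ∀ f ∈ R 9 7 27, ∀ b ∈ R 3 23 33, ∀ d ∈ R 3 23 33, s0 b c d f % 6160 = 0 →
    1152 % sq b c d f (s0 b c d f / 6160) (k0 b c d f - 17 * (s0 b c d f / 6160)) = 0 →
    c = 0 ∧ f = 0 ∧ d = b ∧ (b = 0 ∨ b = 3 ∨ b = -3) := by decide +kernel

/-- the linear relations satisfied by a column -/
structure Col (a a' b c c' d e f g h k : ℤ) (n : ℕ) : Prop where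
  l1 : a' + b - c - c' - d = 1
  l2 : a + b - c - c' - d = 1
  l3 : c + e - f = 1
  l4 : c' + e - f = 1
  l5 : f + g - b - h = 1
  o1 : 280 * a + 280 * a' + 21 * b + 45 * c + 45 * c' + 210 * d + 55 * e + 99 * f + 154 * g + 231 * h + 385 * k = -1
  sq : a ^ 2 + a' ^ 2 + b ^ 2 + c ^ 2 + c' ^ 2 + d ^ 2 + e ^ 2 + f ^ 2 + g ^ 2 + h ^ 2 + k ^ 2 + 1 = n
  dv : n ∣ 1152

variable {a a' b c c' d e f g h k : ℤ} {n : ℕ}

theorem Col.red (H : Col a a' b c c' d e f g h k n) : a = 1 - b + 2 * c + d ∧ a' = a ∧ c' = c ∧ e = 1 + f - c ∧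
    h = f + g - b - 1 ∧ PA.sq b c d f g k = n ∧ 1152 % PA.sq b c d f g k = 0 ∧ b ^ 2 < 1152 ∧ c ^ 2 < 1152 ∧
    d ^ 2 < 1152 ∧ f ^ 2 < 1152 ∧ g ^ 2 < 1152 ∧ k ^ 2 < 1152 := by
  obtain ⟨l1, l2, l3, l4, l5, -, s, dv⟩ := H
  obtain rfl : c' = c := by omega
  obtain rfl : a' = a := by omega
  obtain rfl : a' = 1 - b + 2 * c' + d := by omega
  obtain rfl : e = 1 + f - c' := by omega
  obtain rfl : h = f + g - b - 1 := by omega
  have e1 : PA.sq b c' d f g k = n := by rw [← s, PA.sq]; ring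
  have := Nat.le_of_dvd (by norm_num) dv
  have e2 : (n : ℤ) ≤ 1152 := by omega
  refine ⟨rfl, rfl, rfl, rfl, rfl, e1, by rw [e1]; exact Int.emod_eq_zero_of_dvd (by exact_mod_cast dv), ?_⟩
  generalize 1 - b + 2 * c' + d = x at s
  generalize 1 + f - c' = y at s
  generalize f + g - b - 1 = z at s
  have := sq_nonneg b; have := sq_nonneg c'; have := sq_nonneg d; have := sq_nonneg f; have := sq_nonneg g
  have := sq_nonneg k; have := sq_nonneg x; have := sq_nonneg y; have := sq_nonneg z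
  omega

theorem Col.two (H : Col a a' b c c' d e f g h k n) (m1 : 4 ∣ 45 - c) (m2 : 4 ∣ 21 - b) (m3 : 4 ∣ 154 - g)
    (q7 : 443520 = c ^ 2 * 9856 + e ^ 2 * 8064 - f ^ 2 * 4480)
    (q11 : 443520 = a' ^ 2 * 1584 + b ^ 2 * 21120 - c ^ 2 * 9856 - c' ^ 2 * 9856 - d ^ 2 * 2112) :
    a = -8 ∧ a' = -8 ∧ b = 5 ∧ c = -3 ∧ c' = -3 ∧ d = 2 ∧ e = 7 ∧ f = 3 ∧ g = 10 ∧ h = 7 ∧ k = 1 ∧ n = 384 := by
  obtain ⟨rfl, rfl, rfl, rfl, rfl, e1, e2, b1, b2, b3, b4, b5, b6⟩ := H.red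
  obtain ⟨rfl, rfl, rfl, rfl, rfl, rfl⟩ := k2 _ (memR b2) (by omega) _ (memR b4) (by linarith) _ (memR b1) (by omega) _
    (memR b3) (by linarith) _ (memR b5) (by omega) _ (memR b6) (by linarith [H.o1]) e2
  simp [PA.sq] at e1
  omega

theorem Col.three (H : Col a a' b c c' d e f g h k n) (m1 : 9 ∣ c) (m2 : 9 ∣ f) (m3 : 3 ∣ b) (m4 : 3 ∣ d)
    (o : -8 * a - 8 * a' + 5 * b - 3 * c - 3 * c' + 2 * d + 7 * e + 3 * f + 10 * g + 7 * h + k = -1) :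
    a = 1 ∧ a' = 1 ∧ c = 0 ∧ c' = 0 ∧ d = b ∧ e = 1 ∧ f = 0 ∧ g = 1 ∧ h = -b ∧ k = -2 ∧
      (b = 0 ∧ n = 9 ∨ (b = 3 ∨ b = -3) ∧ n = 36) := by
  obtain ⟨rfl, rfl, rfl, rfl, rfl, e1, e2, b1, b2, b3, b4, b5, b6⟩ := H.red
  have o1 := H.o1
  have e3 : s0 b c' d f = 6160 * g := by unfold s0 k0; omega
  have e4 : k0 b c' d f - 17 * g = k := by unfold k0; omega
  obtain ⟨rfl, rfl, rfl, e5⟩ := k3 _ (memR9 b2 m1) _ (memR9 b4 m2) _ (memR3 b1 m3) _ (memR3 b3 m4) (by omega)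
    (by rw [e3, Int.mul_ediv_cancel_left _ (by norm_num), e4]; exact e2)
  obtain rfl : g = 1 := by omega
  obtain rfl : k = -2 := by omega
  rcases e5 with rfl | rfl | rfl <;> simp [PA.sq] at e1 <;> omega

theorem perm_map {α β : Type*} (φ : α → β) : ∀ (L : List β) (l : List α), (l.map φ).Perm L →
    ∃ l' : List α, l'.Perm l ∧ l'.map φ = L
  | [], l, h => ⟨[], by rw [List.map_eq_nil_iff.1 h.eq_nil], rfl⟩
  | b :: L, l, h => by
    classical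
    obtain ⟨a, ha, rfl⟩ := List.mem_map.1 (h.symm.subset (List.mem_cons_self))
    obtain ⟨l', h1, h2⟩ := perm_map φ L (l.erase a) (((List.perm_cons_erase ha).map φ).symm.trans h).cons_inv
    exact ⟨a :: l', (h1.cons a).trans (List.perm_cons_erase ha).symm, by rw [List.map_cons, h2]⟩

end CfH9.PA
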