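import Cfsg.Agent.H9.QdStab
import Cfsg.Agent.H8.Quot
import Cfsg.Agent.H7.PMin
import Cfsg.Agent.H8.Gaschuetz

/-! Torus elements in groups generated by two quadratic elements; recognition of `F(p)`. -/

set_option autoImplicit false
set_option linter.unusedSectionVars false

namespace CfH9

open Subgroup Cfsg CfH7 Matrix
open scoped commutatorElement MatrixGroups IsMulCommutative

theorem exists_diag_mem {F : Type*} [Field F] [Fintype F] {p : ℕ} [hp : Fact p.Prime] [CharP F p]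
    (hp2 : p ≠ 2) {z : F} (hz : z ≠ 0) (M : Subgroup SL(2, F)) (v : SL(2, F))
    (hv : (v : Matrix (Fin 2) (Fin 2) F) = !![1, z; 0, 1]) (hu : slU F ∈ M) (hvM : v ∈ M) {c : ℕ}
    (hc : ¬ p ∣ c) :
    ∃ d ∈ M, (d : Matrix (Fin 2) (Fin 2) F) = !![(c : F)⁻¹, 0; 0, (c : F)] := by
  have hc' : (c : F) ≠ 0 := fun h => hc ((CharP.cast_eq_zero_iff F p c).1 h)
  rcases CfH3.dickson_gen p hp2 z hz M _ v rfl hv hu hvM with ⟨rfl, -, h1, -⟩ | ⟨E, -, hE⟩
  · have h3 : (3 : F) = 0 := CharP.cast_eq_zero F 3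
    have h2 : (2 : F) ≠ 0 := fun h => one_ne_zero (α := F) (by linear_combination h3 - h)
    have hcc : (c : F) = 1 ∨ (c : F) = -1 := by
      rw [← Nat.mod_add_div c 3]
      have : c % 3 = 1 ∨ c % 3 = 2 := by omega
      refine this.imp (fun h => ?_) fun h => ?_ <;> rw [h] <;> push_cast
      · linear_combination (c / 3 : ℕ) * h3
      · linear_combination ((c / 3 : ℕ) + 1) * h3
    rcases hcc with h | h
    · exact ⟨1, one_mem _, by rw [h, inv_one]; exact one_fin_two⟩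
    · obtain ⟨s, hs, ho⟩ := exists_orderOf_eq_prime (p := 2) (Q := M) (by rw [h1]; decide)
      obtain ⟨t, ht⟩ := CfH3.sl2_scalar_of_sq_eq_one h2 s (by
        rw [← pow_two]; exact pow_eq_one_of_orderOf ho)
      obtain rfl := (CfH3.scalar_sl2_cases ht).resolve_left (ne_one_of_orderOf_eq_prime ho)
      refine ⟨_, hs, ?_⟩
      rw [h, inv_neg_one]
      ext i j
      fin_cases i <;> fin_cases j <;> simp
  · have hc'' : (c : E) ≠ 0 := fun h => hc' (by simpa using congrArg E.subtype h)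
    refine ⟨_, hE ⟨!![(c : E)⁻¹, 0; 0, (c : E)], by simp [hc'']⟩, ?_⟩
    refine (SpecialLinearGroup.map_apply_coe _ _).trans ?_
    ext i j
    fin_cases i <;> fin_cases j <;> simp

theorem ring_torus {V : Type*} [AddCommGroup V] {α β : Module.End ℤ V} [Finite V] {p : ℕ}
    [hp : Fact p.Prime] (hp2 : p ≠ 2) (hV : ∀ x : V, p • x = 0)
    (hα : α * α = 0) (hβ : β * β = 0)
    (hirr : ∀ W : Submodule ℤ V, (∀ x ∈ W, α x ∈ W) → (∀ x ∈ W, β x ∈ W) → W = ⊥ ∨ W = ⊤)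
    (hne : α ≠ 0 ∨ β ≠ 0) {L : Type*} [Group L] (ρ : L →* Module.End ℤ V) {g g' : L}
    (hg : ρ g = 1 + α) (hg' : ρ g' = 1 + β) {c : ℕ} (hc : ¬ p ∣ c) :
    ∃ l : L, (∀ w, α w = 0 → ρ l w = c • w) ∧ ∃ e, α e ≠ 0 ∧ ρ l (c • e) = e := by
  classical
  have hz : α * β + β * α ≠ 0 := fun h => by
    have h1 : α * β = 0 := eq_zero_of_irr hirr (by rw [← mul_assoc, hα, zero_mul]) (by
      rw [← mul_assoc, eq_neg_of_add_eq_zero_right h, neg_mul, mul_assoc, hβ, mul_zero, neg_zero])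
      hne
    rw [h1, zero_add] at h
    exact hne.elim (absurd (eq_zero_of_irr hirr hα h hne)) (absurd (eq_zero_of_irr hirr h1 hβ hne))
  have hnt : Nontrivial (Module.End ℤ V) := ⟨⟨_, _, hz⟩⟩
  have : Finite (Module.End ℤ V) := DFunLike.finite _
  let K : Subring (Module.End ℤ V) := Subring.centralizer {α, β}
  have hK : ∀ x : K, α * x = x * α ∧ β * x = x * β := fun x =>
    ⟨x.2 α (Or.inl rfl), x.2 β (Or.inr rfl)⟩
  have : NoZeroDivisors K := ⟨fun {x y} h => by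
    by_cases hx : x = 0
    · exact Or.inl hx
    · refine Or.inr (Subtype.ext (LinearMap.ext fun w => ?_))
      refine injective_of_irr hirr (hK x).1 (hK x).2 (fun h => hx (Subtype.ext h)) ?_
      simpa using LinearMap.congr_fun (congrArg Subtype.val h) w⟩
  have : IsDomain K := NoZeroDivisors.to_isDomain K
  letI : Field K := (Finite.isDomain_to_isField K).toField
  have : Fintype K := Fintype.ofFinite K
  have : CharP K p := (CharP.charP_iff_prime_eq_zero hp.out).2 (Subtype.ext (by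
    ext x; simpa using hV x))
  let z : K := ⟨α * β + β * α, by
    rintro x (rfl | rfl) <;> simp only [mul_add, add_mul, mul_assoc, hα, hβ, mul_zero,
      ← mul_assoc x x, zero_mul, zero_add, add_zero]⟩
  have hz' : z ≠ 0 := fun h => hz (congrArg Subtype.val h)
  obtain ⟨Φ, h1, h2⟩ := exists_matHom K.subtype hα hβ (fun x => (hK x).1.symm)
    (fun x => (hK x).2.symm) hz' rfl
  let Φ' : SL(2, K) →* Module.End ℤ V := Φ.toMonoidHom.comp SpecialLinearGroup.coeMonoidHom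
  let M : Subgroup SL(2, K) :=
    { carrier := {s | ∃ l, ρ l = Φ' s}
      one_mem' := ⟨1, by rw [map_one, map_one]⟩
      mul_mem' := by
        rintro s t ⟨l, hl⟩ ⟨m, hm⟩
        exact ⟨l * m, by rw [map_mul, map_mul, hl, hm]⟩
      inv_mem' := by
        rintro s ⟨l, hl⟩
        refine ⟨l⁻¹, left_inv_eq_right_inv (a := ρ l) ?_ ?_⟩
        · rw [← map_mul, inv_mul_cancel, map_one]
        · rw [hl, ← map_mul, mul_inv_cancel, map_one] }
  obtain ⟨d, ⟨l, hl⟩, hd⟩ := exists_diag_mem hp2 hz' M ⟨!![1, z; 0, 1], by simp⟩ rfl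
    ⟨g, hg.trans h1.symm⟩ ⟨g', hg'.trans h2.symm⟩ hc
  have hc' : (c : K) ≠ 0 := fun h => hc ((CharP.cast_eq_zero_iff K p c).1 h)
  replace hl : ρ l = Φ !![(c : K)⁻¹, 0; 0, (c : K)] := hl.trans (congrArg Φ hd)
  have hA : Φ !![0, 0; 1, 0] = α := by
    rw [← add_right_inj 1, ← h1, ← map_one Φ, ← map_add Φ]
    congr 1
    ext i j
    fin_cases i <;> fin_cases j <;> simp
  set γ := Φ !![0, 1; 0, 0] with hγ
  have e1 : γ * α + α * γ = 1 := by
    rw [← hA, hγ, ← map_mul Φ, ← map_mul Φ, ← map_add Φ, ← map_one Φ]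
    congr 1
    ext i j
    fin_cases i <;> fin_cases j <;> simp
  have e2 : ρ l * α = (c : Module.End ℤ V) * α := by
    rw [hl, ← hA, ← map_natCast Φ, ← map_mul Φ, ← map_mul Φ]
    congr 1
    rw [← nsmul_eq_mul]
    ext i j
    fin_cases i <;> fin_cases j <;> simp
  have e3 : ρ l * ((c : Module.End ℤ V) * γ) = γ := by
    rw [hl, hγ, ← map_natCast Φ, ← map_mul Φ, ← map_mul Φ]
    congr 1
    rw [← nsmul_eq_mul]
    ext i j
    fin_cases i <;> fin_cases j <;> simp [hc']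
  have e4 : α * γ ≠ 0 := by
    rw [← hA, hγ, ← map_mul Φ, Ne, map_eq_zero_iff _ Φ.injective]
    intro h
    simpa using congrFun (congrFun h 1) 1
  refine ⟨l, fun w hw => ?_, ?_⟩
  · have := LinearMap.congr_fun e1 w
    simp only [LinearMap.add_apply, Module.End.mul_apply, hw, map_zero, zero_add,
      Module.End.one_apply] at this
    rw [← this]
    simpa using LinearMap.congr_fun e2 (γ w)
  · obtain ⟨x, hx⟩ : ∃ x, (α * γ) x ≠ 0 := by
      by_contra hn
      push Not at hn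
      exact e4 (LinearMap.ext hn)
    exact ⟨γ x, hx, by simpa using LinearMap.congr_fun e3 x⟩

variable {G : Type*} [Group G] {p : ℕ}

theorem exists_torus_of_irr [Finite G] [hp : Fact p.Prime] (hp2 : p ≠ 2) {V Y : Subgroup G}
    (hV : IsElementaryAbelian p V) (hY : Y ≤ Nm(V)) {g g' : G} (hg : g ∈ Y) (hg' : g' ∈ Y)
    (hq : Quad g V) (hq' : Quad g' V)
    (hirr : ∀ W, W ≤ V → g ∈ Nm(W) → g' ∈ Nm(W) → W = ⊥ ∨ W = V)
    (hne : g ∉ Cz(V) ∨ g' ∉ Cz(V)) {c : ℕ} (hc : ¬ p ∣ c) :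
    ∃ l ∈ Y, (∀ w ∈ V, w ∈ Cx(g) → l * w * l⁻¹ = w ^ c) ∧
      ∃ e ∈ V, ⁅g, e⁆ ≠ 1 ∧ l * e ^ c * l⁻¹ = e := by
  have := hV.1
  let ρ : Y →* Module.End ℤ (Additive V) :=
    (autEnd V).comp (V.normalizerMonoidHom.comp (inclusion hY))
  have hρ : ∀ n x, ((ρ n x).toMul : G) = n * x.toMul * (n : G)⁻¹ := fun n x => rfl
  have hρ' : ∀ n x, (((ρ n - 1) x).toMul : G) = ⁅(n : G), (x.toMul : G)⁆ := fun n x => by
    rw [LinearMap.sub_apply, toMul_sub, div_eq_mul_inv]; rfl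
  have hsq : ∀ n : Y, Quad n.1 V → (ρ n - 1) * (ρ n - 1) = 0 := fun n hn => by
    ext x
    change (((ρ n - 1) ((ρ n - 1) x)).toMul : G) = 1
    rw [hρ', hρ', commutatorElement_def, hn _ x.toMul.2, mul_inv_cancel]
  have hz : ∀ n : Y, n.1 ∉ Cz(V) → ρ n - 1 ≠ 0 := fun n hn h => hn <|
    mem_centralizer_of_conj_eq fun x hx => by
      have := hρ' n (Additive.ofMul ⟨x, hx⟩)
      rw [h] at this
      exact mul_inv_eq_one.1 this.symm
  have key := ring_torus hp2 (V := Additive V)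
    (fun x => Subtype.ext (hV.2 _ x.toMul.2)) (hsq ⟨g, hg⟩ hq) (hsq ⟨g', hg'⟩ hq')
    (fun W h1 h2 => ?_) (hne.imp (hz _) (hz _)) ρ (add_sub_cancel _ _).symm
    (add_sub_cancel _ _).symm hc
  · obtain ⟨l, h1, e, h2, h3⟩ := key
    refine ⟨l, l.2, fun w hw hw' => ?_, e.toMul, e.toMul.2, fun h => h2 (Subtype.ext ?_), ?_⟩
    · refine congrArg (fun x => (x.toMul : G)) (h1 (Additive.ofMul ⟨w, hw⟩) (Subtype.ext ?_))
      exact (hρ' _ _).trans (commutatorElement_eq_one_iff_mul_comm.2 (mem_Cx.1 hw').symm)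
    · exact (hρ' _ _).trans h
    · exact congrArg (fun x => (x.toMul : G)) h3
  · let W' : Subgroup G := (AddSubgroup.toSubgroup' W.toAddSubgroup).map V.subtype
    have hW : ∀ x : Additive V, (x.toMul : G) ∈ W' ↔ x ∈ W := fun x =>
      mem_map_iff_mem V.subtype_injective
    have hn : ∀ n : Y, (∀ x ∈ W, (ρ n - 1) x ∈ W) → n.1 ∈ Nm(W') := fun n hn =>
      mem_normalizer_of_conj_mem (by
        rintro _ ⟨x, hx, rfl⟩
        have := add_mem (hn (Additive.ofMul x) hx) hx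
        rw [LinearMap.sub_apply, Module.End.one_apply] at this
        erw [sub_add_cancel] at this
        exact (hW _).2 this)
    refine (hirr W' (map_subtype_le _) (hn _ h1) (hn _ h2)).imp (fun h => ?_) fun h => ?_
    · refine eq_bot_iff.2 fun x hx => ?_
      have := (hW x).2 hx
      rw [h] at this
      exact Subtype.ext this
    · exact eq_top_iff.2 fun x _ => (hW x).1 (h.ge x.toMul.2)

/-- `h` acts on a section of the `p`-group `P` as a torus element of `F(p)` -/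
structure FC (p c : ℕ) (P : Subgroup G) (h : G) : Prop where
  pgrp : IsPGroup p P
  nm : h ∈ Nm(P)
  ex : ∃ R : Subgroup G, R ≤ P ∧ P ≤ Nm(R) ∧ h ∈ Nm(R) ∧ ∃ a ∈ P, ∃ e ∈ P, ⁅a, e⁆ ∉ R ∧
    e ^ p ∈ R ∧ ⁅a, e⁆ ^ p ∈ R ∧ ⁅⁅a, e⁆, e⁆ ∈ R ∧ ⁅a, ⁅a, e⁆⁆ ∈ R ∧
    h * ⁅a, e⁆ * h⁻¹ * (⁅a, e⁆ ^ c)⁻¹ ∈ R ∧ h * e ^ c * h⁻¹ * e⁻¹ ∈ R

theorem mem_Nm_comap {G' : Type*} [Group G'] {f : G' →* G} {g : G'} {X : Subgroup G}
    (h : f g ∈ Nm(X)) : g ∈ Nm(X.comap f) := by
  rw [mem_normalizer_iff_cj, ← comap_cj, cj_eq_of_mem_normalizer h]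

theorem FC.comap {G' : Type*} [Group G'] {c : ℕ} {P : Subgroup G} {f : G' →* G} {h : G'}
    (H : FC p c P (f h)) (hP : P ≤ f.range) (hk : IsPGroup p f.ker) : FC p c (P.comap f) h := by
  obtain ⟨R, h1, h2, h3, a, ha, e, he, h4⟩ := H.ex
  obtain ⟨a, rfl⟩ := hP ha
  obtain ⟨e, rfl⟩ := hP he
  refine ⟨H.pgrp.comap_of_ker_isPGroup f hk, mem_Nm_comap H.nm, R.comap f, comap_mono h1,
    fun g hg => mem_Nm_comap (h2 hg), mem_Nm_comap h3, a, ha, e, he, ?_⟩
  simpa only [mem_comap, map_mul, map_inv, map_pow, map_commutatorElement] using h4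

theorem FC.map {G' : Type*} [Group G'] {c : ℕ} {P : Subgroup G} {f : G →* G'} {h : G}
    (H : FC p c P h) (hf : Function.Injective f) : FC p c (P.map f) (f h) := by
  obtain ⟨R, h1, h2, h3, a, ha, e, he, h4⟩ := H.ex
  refine ⟨H.pgrp.map f, le_normalizer_map f (mem_map_of_mem f H.nm), R.map f, map_mono h1,
    map_le_Nm_map h2 f, le_normalizer_map f (mem_map_of_mem f h3), f a, mem_map_of_mem f ha,
    f e, mem_map_of_mem f he, ?_⟩
  simpa only [← map_mul, ← map_inv, ← map_pow, ← map_commutatorElement, mem_map_iff_mem hf]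
    using h4

theorem FC.congr [Finite G] {c : ℕ} {P : Subgroup G} {h k : G} (H : FC p c P h)
    (hk : ∀ x ∈ P, h * x * h⁻¹ = k * x * k⁻¹) : FC p c P k := by
  obtain ⟨R, h1, h2, h3, a, ha, e, he, h4⟩ := H.ex
  refine ⟨H.pgrp, mem_normalizer_of_conj_mem fun x hx => hk x hx ▸
    conj_mem_of_mem_normalizer H.nm hx, R, h1, h2, mem_normalizer_of_conj_mem fun x hx =>
    hk x (h1 hx) ▸ conj_mem_of_mem_normalizer h3 hx, a, ha, e, he, ?_⟩
  rwa [← hk _ (pow_mem he c), ← hk _ (commutator_mem_left ha (le_normalizer he))]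

/-- the Borel subgroup of `SL₂` -/
def slBorel (F : Type*) [CommRing F] : Subgroup SL(2, F) where
  carrier := {s | s 1 0 = 0}
  one_mem' := by simp
  mul_mem' {a b} ha hb := by
    change a 1 0 = 0 at ha
    change b 1 0 = 0 at hb
    change (a.1 * b.1) 1 0 = 0
    simp [Matrix.mul_apply, Fin.sum_univ_two, ha, hb]
  inv_mem' {a} ha := by
    change a 1 0 = 0 at ha
    change (a⁻¹) 1 0 = 0
    rw [SpecialLinearGroup.SL2_inv_expl]
    simp [ha]

theorem involves_fOver_of_pairs [Finite G] [hp : Fact p.Prime] (hp2 : p ≠ 2)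
    (ψ : Multiplicative (Fin 2 → ZMod p) →* G) (hψ : Function.Injective ψ)
    (h : ∀ s ∈ slBorel (ZMod p), ∃ g, (g, s) ∈ slPairs ψ) : Involves (fOver (ZMod p)) G := by
  have := Fact.mk Nat.prime_two
  let Y := slPairs ψ ⊓ (slBorel (ZMod p)).comap (MonoidHom.snd _ _)
  let σ : Y →* SL(2, ZMod p) := (MonoidHom.snd _ _).comp Y.subtype
  let τ : Y →* G := (MonoidHom.fst _ _).comp Y.subtype
  have hσ : ∀ s ∈ slBorel (ZMod p), ∃ y, σ y = s := fun s hs =>
    (h s hs).elim fun g hg => ⟨⟨(g, s), hg, hs⟩, rfl⟩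
  have hc : ∀ g : SL(2, ZMod p), g * (-1) = (-1) * g := fun g => by simp
  have hn : (zpowers (-1 : SL(2, ZMod p))).Normal := ⟨by
    rintro _ ⟨k, rfl⟩ g
    rw [(Commute.zpow_right (hc g) k).eq, mul_inv_cancel_right]
    exact ⟨k, rfl⟩⟩
  have hfpf : ∀ x, slAct _ (-1 : SL(2, ZMod p)) x = x → x = 1 := fun x hx => by
    ext i
    have := congrFun (congrArg Multiplicative.toAdd hx) i
    change ((-1 : Matrix (Fin 2) (Fin 2) (ZMod p)) *ᵥ x.toAdd) i = _ at this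
    simp only [neg_mulVec, one_mulVec, Pi.neg_apply] at this
    have h2 : (2 : ZMod p) ≠ 0 := fun h2 => hp2 ((Nat.prime_dvd_prime_iff_eq hp.out Nat.prime_two).1
      ((ZMod.natCast_eq_zero_iff 2 p).1 (by exact_mod_cast h2)))
    have h3 : 2 * x.toAdd i = 0 := by linear_combination -this
    simpa [h2] using h3
  obtain ⟨T, hT⟩ := exists_sylIn 2 ((zpowers (-1)).comap σ)
  have hTm := hT.map σ
  rw [map_comap_eq_self (zpowers_le.2 (hσ _ (show (-1 : SL(2, ZMod p)) 1 0 = 0 by simp)))] at hTm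
  have hZ : IsPGroup 2 (zpowers (-1 : SL(2, ZMod p))) := isPGroup_zpowers (k := 1) (by simp)
  have e := hTm.eq_of_le hZ le_rfl hTm.le
  obtain ⟨t, ht, htζ⟩ : -1 ∈ T.map σ := e ▸ mem_zpowers _
  let φ : Nm(T) →* MulAut (Multiplicative (Fin 2 → ZMod p)) :=
    (slAct _).comp (σ.comp (Nm(T)).subtype)
  let π₀ : Multiplicative (Fin 2 → ZMod p) ⋊[φ] Nm(T) →* QdS (ZMod p) :=
    SemidirectProduct.map (MonoidHom.id _) (σ.comp (Nm(T)).subtype) fun n => rfl
  let π := (qdRep _).comp π₀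
  have hπ : π.range = fOver (ZMod p) := by
    refine le_antisymm ?_ ((closure_le _).2 ?_)
    · rintro _ ⟨y, rfl⟩
      refine subset_closure ?_
      have : (π₀ y).right 1 0 = 0 := y.right.1.2.2
      simp [π, qdRep_val, this]
    · rintro M ⟨h0, h1, h2, h3⟩
      obtain ⟨⟨x, s⟩, rfl⟩ : M ∈ (qdRep (ZMod p)).range :=
        (range_qdRep _).ge (subset_closure ⟨h1, h2, h3⟩)
      obtain ⟨y, rfl⟩ := hσ s (show s 1 0 = 0 by simpa [qdRep_val] using h0)
      obtain ⟨n, hn, w, hw, rfl⟩ := hT.frattini' (mem_Nm_of_normal y _)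
      obtain ⟨w', hw', e'⟩ : σ w ∈ T.map σ := e ▸ hw
      refine ⟨⟨x, ⟨n * w', mul_mem hn (le_normalizer hw')⟩⟩, congrArg (qdRep _) ?_⟩
      ext1
      · rfl
      · change σ (n * w') = σ (n * w)
        rw [map_mul, map_mul, e']
  rw [← hπ]
  refine involves_of_hom (Y := Multiplicative (Fin 2 → ZMod p) ⋊[φ] Nm(T))
    (SemidirectProduct.lift ψ (τ.comp (Nm(T)).subtype) fun n => ?_)
    π.rangeRestrict π.rangeRestrict_surjective ?_
  · exact MonoidHom.ext fun x => (n.1.2.1 x).symm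
  · rintro ⟨x, n⟩ hy
    have h1 : ψ x * τ n = 1 := hy
    have h2 : τ n = ψ x⁻¹ := by rw [map_inv]; exact eq_inv_of_mul_eq_one_right h1
    have h3 : σ n = 1 := eq_one_of_slAct fun y => hψ (by
      have := n.1.2.1 y
      change τ n * _ * (τ n)⁻¹ = ψ (slAct _ (σ n) y) at this
      rw [← this, h2, ← map_inv, ← map_mul, ← map_mul, mul_comm x⁻¹, mul_inv_cancel_right])
    have h4 : τ (n.1 * t * n.1⁻¹ * t⁻¹) = ψ (x⁻¹ * slAct _ (-1) x) := by
      have := t.2.1 x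
      change τ t * _ * (τ t)⁻¹ = ψ (slAct _ (σ t) x) at this
      rw [map_mul ψ, ← htζ, ← this, map_mul, map_mul, map_mul, map_inv, map_inv, h2, map_inv]
      group
    obtain ⟨k, hk⟩ := isPGroup_iff_mem.1 hT.pgrp _
      (mul_mem (conj_mem_of_mem_normalizer n.2 ht) (inv_mem ht))
    have h5 : (x⁻¹ * slAct _ (-1) x) ^ 2 ^ k = 1 := hψ (by rw [map_pow, ← h4, ← map_pow, hk]; simp)
    have h6 : x⁻¹ * slAct _ (-1) x = 1 := eq_one_of_pow_pow_of_coprime h5
      (Nat.Coprime.coprime_dvd_left (orderOf_dvd_of_pow_eq_one (n := p) (by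
        ext i; simp)) ((Nat.coprime_primes hp.out Nat.prime_two).2 hp2))
    have h7 : x = 1 := hfpf x (inv_mul_eq_one.1 h6).symm
    rw [MonoidHom.ker_rangeRestrict, MonoidHom.mem_ker]
    refine (congrArg (qdRep _) ?_).trans (map_one _)
    ext1
    · exact h7
    · exact h3

theorem involves_fOver_of_elements [Finite G] [hp : Fact p.Prime] (hp2 : p ≠ 2) {a b u h : G}
    {c : ℕ} (hc : ∀ x : ZMod p, x ≠ 0 → ∃ k : ℕ, (c : ZMod p) ^ k = x) (ha1 : a ≠ 1)
    (ha : a ^ p = 1) (hb : b ^ p = 1) (hab : Commute a b) (hua : u * a * u⁻¹ = a)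
    (hub : u * b * u⁻¹ = a * b) (hha : h * a * h⁻¹ = a ^ c) (hhb : h * b ^ c * h⁻¹ = b) :
    Involves (fOver (ZMod p)) G := by
  have hpow : ∀ c : G, c ^ p = 1 → ∀ x y : ZMod p, c ^ (x + y).val = c ^ x.val * c ^ y.val :=
    fun c hc x y => by rw [ZMod.val_add, ← pow_add, ← pow_eq_pow_mod _ hc]
  have hpow' : ∀ d : G, d ^ p = 1 → ∀ x : ZMod p, d ^ (c * x).val = (d ^ c) ^ x.val :=
    fun d hd x => by
      rw [ZMod.val_mul, ← pow_eq_pow_mod _ hd, ZMod.val_natCast, pow_mul, ← pow_eq_pow_mod _ hd]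
  let ψ : Multiplicative (Fin 2 → ZMod p) →* G := MonoidHom.mk'
    (fun x => a ^ (x.toAdd 0).val * b ^ (x.toAdd 1).val) fun x y => by
      simp only [toAdd_mul, Pi.add_apply, hpow a ha, hpow b hb]
      exact (hab.pow_pow _ _).mul_mul_mul_comm _ _
  have hψ : ∀ x, ψ x = a ^ (x.toAdd 0).val * b ^ (x.toAdd 1).val := fun _ => rfl
  have hval : ∀ x : ZMod p, a ^ x.val = 1 → x = 0 := fun x hx => by
    have := orderOf_dvd_of_pow_eq_one hx
    rw [orderOf_eq_prime ha ha1] at this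
    exact (ZMod.val_eq_zero x).1 (Nat.eq_zero_of_dvd_of_lt this (ZMod.val_lt x))
  have hu : ∀ x, u * ψ x * u⁻¹ = a ^ (x.toAdd 1).val * ψ x := fun x => by
    rw [hψ, ← conj_mul, ← conj_pow, ← conj_pow, hua, hub, hab.mul_pow, ← mul_assoc, ← mul_assoc,
      (Commute.pow_pow_self a _ _).eq]
  have hc0 : (c : ZMod p) ≠ 0 := fun h0 => by
    obtain ⟨k, hk⟩ := hc (-1) (neg_ne_zero.2 one_ne_zero)
    rcases k with _ | k
    · refine hp2 ((Nat.prime_dvd_prime_iff_eq hp.out Nat.prime_two).1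
        ((ZMod.natCast_eq_zero_iff 2 p).1 ?_))
      push_cast
      linear_combination hk
    · rw [h0, pow_succ, mul_zero] at hk
      exact neg_ne_zero.2 one_ne_zero hk.symm
  refine involves_fOver_of_pairs hp2 ψ ((injective_iff_map_eq_one ψ).2 fun x hx => ?_) fun s hs => ?_
  · have h1 := hu x
    rw [hx, mul_one, mul_one, mul_inv_cancel] at h1
    have h2 := hval _ h1.symm
    rw [hψ, h2, ZMod.val_zero, pow_zero, mul_one] at hx
    ext i
    fin_cases i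
    · exact hval _ hx
    · exact h2
  let d : SL(2, ZMod p) := ⟨!![(c : ZMod p), 0; 0, (c : ZMod p)⁻¹], by simp [hc0]⟩
  have h1 : (u, slW (ZMod p)) ∈ slPairs ψ := fun x => by
    rw [hu, hψ, hψ]
    change _ = a ^ ((!![1, 1; 0, 1] *ᵥ x.toAdd) 0).val * b ^ ((!![1, 1; 0, 1] *ᵥ x.toAdd) 1).val
    simp [mulVec, dotProduct, Fin.sum_univ_two, hpow a ha, ← mul_assoc,
      (Commute.pow_pow_self a _ _).eq]
  have h2 : (h, d) ∈ slPairs ψ := fun x => by
    rw [hψ, hψ]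
    change _ = a ^ ((d.1 *ᵥ x.toAdd) 0).val * b ^ ((d.1 *ᵥ x.toAdd) 1).val
    conv_lhs => rw [← mul_inv_cancel_left₀ hc0 (x.toAdd 1), hpow' b hb]
    rw [← conj_mul, ← conj_pow, ← conj_pow, hha, hhb, ← hpow' a ha]
    simp [d, mulVec, dotProduct, Fin.sum_univ_two]
  have hs' : s 1 0 = 0 := hs
  have hdet := s.det_coe
  rw [det_fin_two, hs', mul_zero, sub_zero] at hdet
  obtain ⟨k, hk⟩ := hc (s 0 0) (left_ne_zero_of_mul_eq_one hdet)
  have hd : ∀ k : ℕ, (d ^ k).1 = !![(c : ZMod p) ^ k, 0; 0, ((c : ZMod p) ^ k)⁻¹] := fun k => by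
    induction k with
    | zero => simp [one_fin_two]
    | succ k ih =>
      rw [pow_succ]
      change (d ^ k).1 * d.1 = _
      rw [ih]
      simp [d, pow_succ, mul_comm]
  refine ⟨u ^ (s 0 1 * s 0 0).val * h ^ k, ?_⟩
  have e : s = slW _ ^ (s 0 1 * s 0 0).val * d ^ k := Subtype.ext (by
    change _ = (slW _ ^ _).1 * (d ^ k).1
    rw [slW_pow_val, hd, hk, ZMod.natCast_zmod_val]
    ext i j
    fin_cases i <;> fin_cases j <;>
      simp [hs', left_ne_zero_of_mul_eq_one hdet, eq_inv_of_mul_eq_one_right hdet])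
  have := mul_mem (pow_mem h1 (s 0 1 * s 0 0).val) (pow_mem h2 k)
  rwa [Prod.pow_mk, Prod.pow_mk, Prod.mk_mul_mk, ← e] at this

theorem FC.involves [Finite G] [hp : Fact p.Prime] (hp2 : p ≠ 2) {c : ℕ}
    (hc : ∀ x : ZMod p, x ≠ 0 → ∃ k : ℕ, (c : ZMod p) ^ k = x) {P K : Subgroup G} {h : G}
    (H : FC p c P h) (hP : P ≤ K) (hh : h ∈ K) : Involves (fOver (ZMod p)) K := by
  obtain ⟨R, -, h2, h3, a, ha, e, he, h4, h5, h6, h7, h8, h9, h10⟩ := (FC.comap (f := K.subtype)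
    (h := ⟨h, hh⟩) H (by rwa [range_subtype]) (by rw [ker_subtype]; exact IsPGroup.of_bot)).ex
  let π := CfH8.nmQuot R
  have key : ∀ x : Nm(R), (x : K) ∈ R → π x = 1 := fun x => CfH8.nmQuot_eq_one_iff.2
  refine Involves.of_subgroup (Involves.of_surjective (involves_fOver_of_elements hp2
    (a := π ⁅(⟨a, h2 ha⟩ : Nm(R)), (⟨e, h2 he⟩ : Nm(R))⁆) (b := π ⟨e, h2 he⟩) (u := π ⟨a, h2 ha⟩) (h := π ⟨_, h3⟩) hc
    (fun h => h4 (CfH8.nmQuot_eq_one_iff.1 h)) ?_ ?_ ?_ ?_ ?_ ?_ ?_) π CfH8.nmQuot_surjective)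
  · rw [← map_pow]; exact key _ h6
  · rw [← map_pow]; exact key _ h5
  · rw [← commutatorElement_eq_one_iff_commute, ← map_commutatorElement]; exact key _ h7
  · rw [← mul_inv_eq_one, ← commutatorElement_def, ← map_commutatorElement]; exact key _ h8
  · rw [map_commutatorElement, commutatorElement_def, inv_mul_cancel_right]
  · rw [← mul_inv_eq_one]
    simp only [← map_pow, ← map_inv, ← map_mul]
    exact key _ h9
  · rw [← mul_inv_eq_one]
    simp only [← map_pow, ← map_inv, ← map_mul]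
    exact key _ h10

end CfH9
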