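import Cfsg.Agent.H9.QuadEig

/-! A quadratic element of a `p`-minimal group produces a torus element in the maximal subgroup. -/

set_option autoImplicit false
set_option linter.unusedSectionVars false

namespace CfH9

open Subgroup Cfsg CfH7
open CfH8 (qb qp nmQuot)
open scoped commutatorElement IsMulCommutative

variable {G : Type*} [Group G] {p : ℕ} [Finite G]

/-- an eigenvector on a section lifts -/
theorem exists_eigen {Y R : Subgroup G} (hY : IsMulCommutative Y) {n : G} (hn : n ∈ Nm(Y)) {c : ℕ}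
    (hR : ¬ Y ≤ R) (h : ∀ y ∈ Y, n * y * n⁻¹ * (y ^ c)⁻¹ ∈ R) :
    ∃ y ∈ Y, y ≠ 1 ∧ n * y * n⁻¹ = y ^ c := by
  let φ : Y →* Y := (Y.normalizerMonoidHom ⟨n, hn⟩).toMonoidHom * (powMonoidHom c)⁻¹
  have hφ : ∀ y, (φ y : G) = n * y * n⁻¹ * ((y : G) ^ c)⁻¹ := fun _ => rfl
  by_contra hne
  push Not at hne
  refine hR fun y hy => ?_
  obtain ⟨z, hz⟩ := Finite.surjective_of_injective ((injective_iff_map_eq_one φ).2 fun z hz => by
    by_contra h1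
    exact hne z z.2 (fun e => h1 (Subtype.ext e))
      (mul_inv_eq_one.1 ((hφ z).symm.trans (congrArg Subtype.val hz)))) ⟨y, hy⟩
  have := h z z.2
  rwa [← hφ, hz] at this

variable [hp : Fact p.Prime]

theorem exists_fc_of_irr (hp2 : p ≠ 2) {V Y O : Subgroup G} (hV : IsElementaryAbelian p V)
    (hY : Y ≤ Nm(V)) {a b : G} (ha : a ∈ Y) (hb : b ∈ Y) (hq : Quad a V) (hq' : Quad b V)
    (hirr : ∀ W, W ≤ V → a ∈ Nm(W) → b ∈ Nm(W) → W = ⊥ ∨ W = V)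
    (hne : a ∉ Cz(V) ∨ b ∉ Cz(V)) (hO : IsPGroup p O) (hOY : O ≤ Y) (hn : Y ≤ Nm(O))
    (hOC : O ≤ Cz(V)) (hVO : V ≤ O) (hap : IsPGroup p (zpowers a)) {c : ℕ} (hc : ¬ p ∣ c) :
    ∃ P n, P ≤ Y ∧ a ∈ P ∧ O ≤ P ∧ n ∈ Y ∧ (∀ w ∈ V, w ∈ Cx(a) → n * w * n⁻¹ = w ^ c) ∧
      FC p c P n := by
  obtain ⟨l, hl, h1, e, he, h2, h3⟩ := exists_torus_of_irr hp2 hV hY ha hb hq hq' hirr hne hc
  have hl0 : l ∈ Nm(V ⊓ Cx(a)) := mem_normalizer_of_conj_mem fun w hw => by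
    rw [h1 w hw.1 hw.2]; exact pow_mem hw c
  set U := Y ⊓ Cz(V ⊓ Cx(a)) ⊓ secCz V (V ⊓ Cx(a))
  have hlU : l ∈ Nm(U) := mem_Nm_inf (mem_Nm_inf (le_normalizer hl) (mem_Nm_Cz hl0))
    (le_Nm_secCz (zpowers_le.2 (hY hl)) (zpowers_le.2 hl0) (mem_zpowers l))
  have hae : ∀ e ∈ V, ⁅a, e⁆ ∈ V ⊓ Cx(a) := fun e he => mi (commutator_mem_right he (hY ha))
    (mem_Cx.2 (mul_inv_eq_iff_eq_mul.1 (hq e he)).symm)
  have haC : a ∈ Cz(V ⊓ Cx(a)) := fun w hw => mem_Cx.1 hw.2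
  have haU : a ∈ U := mi (mi ha haC) (mem_secCz.2 ⟨Cz_le_Nm _ haC, fun r hr => by
    rw [← commutatorElement_inv]; exact inv_mem (hae r hr)⟩)
  have hOU : O ≤ U := le_inf (le_inf hOY (hOC.trans (Cz_anti inf_le_left)))
    (le_secCz (hOC.trans ((Cz_anti inf_le_left).trans (Cz_le_Nm _)))
      ((comm_eq_bot_right.2 hOC).le.trans bot_le))
  obtain ⟨P, hP, hle⟩ := exists_sylIn_ge (isPGroup_sup hap hO (zpowers_le.2 (hn ha)))
    (sup_le (zpowers_le.2 haU) hOU)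
  have hUY : U ≤ Y := inf_le_left.trans inf_le_left
  obtain ⟨u, hu, n, hnP, rfl⟩ := hP.frattini hlU
  rw [← hP.sup_pResidualOf, mem_sup_of_le_Nm' (hP.le.trans (le_normalizer_pResidualOf U))] at hu
  obtain ⟨k, hk, t, ht, rfl⟩ := hu
  have hk' : k ∈ Cz(V) := pResidualOf_le_Cz_of_le (elemAb_isPGroup hV) (hUY.trans hY)
    (commutator_le_of_le_secCz inf_le_right) (inf_le_left.trans inf_le_right) hk
  have hkY : k ∈ Y := hUY (pResidualOf_le U hk)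
  have htn : t * n ∈ Y := by
    have := mul_mem (inv_mem hkY) hl
    rwa [mul_assoc k, inv_mul_cancel_left] at this
  have key : ∀ w ∈ V, t * n * w * (t * n)⁻¹ = k * t * n * w * (k * t * n)⁻¹ := fun w hw => by
    conv_lhs => rw [← conj_eq_of_mem_centralizer hk' (conj_mem_of_mem_normalizer (hY htn) hw)]
    group
  have haP : a ∈ P := hle (mem_sup_left (mem_zpowers a))
  have hOP : O ≤ P := le_sup_right.trans hle
  refine ⟨P, t * n, hP.le.trans hUY, haP, hOP, htn, fun w hw hw' => by rw [key w hw, h1 w hw hw'],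
    hP.pgrp, mul_mem (le_normalizer ht) hnP, ⊥, bot_le, le_Nm_normal _ _, mem_Nm_of_normal _ _,
    a, haP, e, hOP (hVO he), h2, hV.2 _ he, hV.2 _ (hae e he).1, ?_, ?_, ?_, ?_⟩
  · exact commutatorElement_eq_one_iff_mul_comm.2 (comm_iff.1 hV.1 _ (hae e he).1 _ he)
  · exact commutatorElement_eq_one_iff_mul_comm.2 (mem_Cx.1 (hae e he).2).symm
  · rw [mem_bot, key _ (hae e he).1, h1 _ (hae e he).1 (hae e he).2, mul_inv_cancel]
  · rw [mem_bot, key _ (pow_mem he c), h3, mul_inv_cancel]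

theorem quad_eig_aux (hp2 : p ≠ 2) {Y M V U : Subgroup G} {a : G} (hV : IsElementaryAbelian p V)
    (hYV : Y ≤ Nm(V)) (hVO : V ≤ pCoreOf p Y) (hU : U ≤ V) (hU0 : U ≠ ⊥) (hMU : M ≤ Nm(U))
    (hC : ∀ u ∈ U, u ≠ 1 → Cx(u) ≤ M) (hap : IsPGroup p (zpowers a)) (hq : Quad a V)
    (hm : UMax (zpowers a ⊔ pCoreOf p Y) Y (Y ⊓ M))
    (hgen : ∀ x ∈ Y, x ∉ Y ⊓ M → (zpowers a ⊔ cj x (zpowers a)) ⊔ pCoreOf p Y = Y) {c : ℕ}
    (hc : ¬ p ∣ c) :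
    (∃ n : G, ∃ u ∈ U, u ≠ 1 ∧ n * u * n⁻¹ = u ^ c) ∧ ∃ P n, P ≤ M ∧ n ∈ M ∧ FC p c P n := by
  set O := pCoreOf p Y
  have hO : IsPGroup p O := isPGroup_pCoreOf Y
  have hYO : Y ≤ Nm(O) := le_normalizer_pCoreOf Y
  have haY : a ∈ Y := hm.le' (mem_sup_left (mem_zpowers a))
  obtain ⟨x, hx, hx'⟩ := SetLike.exists_of_lt hm.lt
  have hgen' := hgen x hx hx'
  rw [cj_zpowers] at hgen'
  have hbY : x * a * x⁻¹ ∈ Y := mul_mem (mul_mem hx haY) (inv_mem hx)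
  have hnm : ∀ P, P ≤ Y → IsPGroup p P → zpowers a ⊔ O ≤ P → Y ⊓ Nm(P) ≤ M := fun P h1 h2 h3 =>
    ((hm.eq_or_le (le_inf hm.le' (h3.trans le_normalizer)) inf_le_left).resolve_left fun e => by
      have h4 : a ∈ O := le_pCoreOf h1 (inf_eq_left.1 e) h2 (h3 (mem_sup_left (mem_zpowers a)))
      exact hm.lt.not_ge (hgen'.ge.trans ((sup_le (sup_le (zpowers_le.2 h4) (zpowers_le.2
        (conj_mem_of_mem_normalizer (hYO hx) h4))) le_rfl).trans (le_sup_right.trans hm.le)))).trans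
      inf_le_right
  obtain ⟨T, hT, hle⟩ := exists_sylIn_ge (isPGroup_sup hap hO (zpowers_le.2 (hYO haY))) hm.le'
  have hTM : T ≤ M := (le_inf hT.le le_normalizer).trans (hnm T hT.le hT.pgrp hle)
  have hVp := elemAb_isPGroup hV
  obtain ⟨u, huU, hu1, huT⟩ := exists_mem_center_of_normal hT.pgrp (hVp.to_le hU)
    (hTM.trans hMU) hU0
  have huY : u ∉ Cz(Y) := fun h =>
    hm.lt.not_ge (le_inf le_rfl ((le_Cx_iff.2 h).trans (hC u huU hu1)))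
  set W := nclo (zpowers u) Y
  have hYW : Y ≤ Nm(W) := right_le_Nm_nclo _ _
  have huW : u ∈ W := le_nclo _ _ (mem_zpowers u)
  have hWV : W ≤ V := nclo_le hYV (zpowers_le.2 (hU huU))
  have hWO : W ≤ Cz(O) := nclo_le (hYO.trans (Nm_le_Nm_Cz O))
    (zpowers_le.2 (Cz_anti (le_sup_right.trans hle) huT))
  have hOW : O ≤ Cz(W) := le_centralizer_iff.1 hWO
  have hWe : IsElementaryAbelian p W := elemAb_of_le hWV hV
  obtain ⟨R, ⟨r1, r2, r3, r4⟩, -, hR⟩ := exists_maximal_ge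
    (fun R => R ≤ W ∧ Y ≤ Nm(R) ∧ W ⊓ Cz(Y) ≤ R ∧ u ∉ R) (A := W ⊓ Cz(Y))
    ⟨inf_le_left, fun g hg => mem_Nm_inf (hYW hg) (mem_Nm_Cz (le_normalizer hg)), le_rfl,
      fun h => huY h.2⟩
  have hOY : O ≤ Y := pCoreOf_le Y
  have hWY : W ≤ Y := hWV.trans (hVO.trans hOY)
  have hRp : IsPGroup p R := hVp.to_le (r1.trans hWV)
  have hnt : ¬ ⁅Y, W⁆ ≤ R := fun h => r4 ((sup_le (by rwa [Subgroup.commutator_comm]) r3)
    (CfH8.inf_centralizer_le_commutator_sup (T := T) hWe.1 hYW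
      (CfH8.coprime_card_of_isPGroup (elemAb_isPGroup hWe) hT.not_dvd_relIndex) (mi huW huT)))
  have hquad : ∀ g (hg : g ∈ Y), Quad g V → Quad (nmQuot R ⟨g, r2 hg⟩) (qb R W) := fun g hg h =>
    Quad.map (g := ⟨g, r2 hg⟩) (B := W.subgroupOf _) (fun b hb => Subtype.ext (h _ (hWV hb))) _
  have hgenle : ∀ X : Subgroup (CfH8.NQ R), nmQuot R ⟨a, r2 haY⟩ ∈ X → nmQuot R ⟨_, r2 hbY⟩ ∈ X →
      qb R O ≤ X → qb R Y ≤ X := fun X h1 h2 h3 => by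
    rw [CfH8.qb_le_iff r2]
    rw [CfH8.qb_le_iff (hOY.trans r2)] at h3
    exact hgen'.ge.trans (sup_le (sup_le (zpowers_le.2 (CfH8.mem_qp.2 ⟨_, h1⟩))
      (zpowers_le.2 (CfH8.mem_qp.2 ⟨_, h2⟩))) h3)
  have hOW' : qb R O ≤ Cz(qb R W) := (CfH8.qb_le_Cz_iff (hOY.trans r2) (hWY.trans r2)).2
    ((comm_eq_bot_left.2 hOW).le.trans bot_le)
  have key := exists_fc_of_irr hp2 (CfH8.elemAb_qb hWe)
    (CfH8.qb_le_Nm hYW) (CfH8.nmQuot_mem_qb (g := ⟨a, r2 haY⟩) haY)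
    (CfH8.nmQuot_mem_qb (g := ⟨_, r2 hbY⟩) hbY) (hquad _ haY hq) (hquad _ hbY (hq.conj (hYV hx)))
    (fun X h1 h2 h3 => ?_) ?_ (CfH8.isPGroup_qb hO) (CfH8.qb_mono hOY) (CfH8.qb_le_Nm hYO) hOW'
    (CfH8.qb_mono (hWV.trans hVO))
    (by rw [← CfH8.qb_zpowers]; exact CfH8.isPGroup_qb hap) hc
  · obtain ⟨P, _, p1, p2, p3, ⟨n, hn, rfl⟩, p5, p6⟩ := key
    have q1 : qp R P ≤ Y := (CfH8.qp_le_iff r2 (r1.trans hWY)).2 p1
    have q2 : FC p c (qp R P) n := (p6.comap (fun y _ => CfH8.nmQuot_surjective y)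
      (by rw [CfH8.nmQuot_ker]; exact isPGroup_subgroupOf hRp _)).map (Nm(R)).subtype_injective
    have q3 := hnm _ q1 q2.pgrp (sup_le (zpowers_le.2 (CfH8.mem_qp.2 ⟨_, p2⟩))
      ((CfH8.qb_le_iff (hOY.trans r2)).1 p3))
    have hnM : (n : G) ∈ M := q3 (mi hn q2.nm)
    refine ⟨?_, _, n, (le_inf q1 le_normalizer).trans q3, hnM, q2⟩
    have key := exists_eigen (Y := U ⊓ qp R (qb R W ⊓ Cx(nmQuot R ⟨a, r2 haY⟩)))
      (R := R) (n := n) (c := c) (comm_of_le (inf_le_left.trans hU) hV.1)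
      (mem_Nm_inf (hMU hnM) (by
        rw [mem_normalizer_iff_cj, ← CfH8.qp_cj, cj_eq_of_mem_normalizer]
        exact mem_normalizer_of_conj_mem fun w hw => by rw [p5 w hw.1 hw.2]; exact pow_mem hw c))
      (fun h => r4 (h (mi huU (CfH8.mem_qp.2 ⟨r2 (hWY huW), mi (CfH8.nmQuot_mem_qb huW) ?_⟩))))
      (fun y hy => ?_)
    · exact key.elim fun y hy => ⟨n, y, hy.1.1, hy.2⟩
    · rw [mem_Cx, ← map_mul, ← map_mul]
      exact congrArg _ (Subtype.ext (huT a (hle (mem_sup_left (mem_zpowers a)))).symm)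
    · obtain ⟨h1, h2⟩ := CfH8.mem_qp.1 hy.2
      have := p5 _ h2.1 h2.2
      rw [← mul_inv_eq_one, ← map_pow, ← map_inv, ← map_inv, ← map_mul, ← map_mul, ← map_mul] at this
      exact CfH8.nmQuot_eq_one_iff.1 this
  · have x1 : qp R X ≤ W := (CfH8.qp_le_iff (hWY.trans r2) r1).2 h1
    have x2 : Y ≤ Nm(qp R X) := CfH8.le_Nm_qp r2
      (hgenle _ h2 h3 (hOW'.trans ((Cz_anti h1).trans (Cz_le_Nm X))))
    by_cases hu : u ∈ qp R X
    · exact Or.inr (le_antisymm h1 ((CfH8.qb_le_iff (hWY.trans r2)).2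
        (nclo_le x2 (zpowers_le.2 hu))))
    · left
      rw [← CfH8.qp_inj, CfH8.qp_bot]
      exact hR _ ⟨x1, x2, r3.trans (CfH8.le_qp X), hu⟩ (CfH8.le_qp X)
  · by_contra h
    push Not at h
    exact hnt ((CfH8.qb_le_Cz_iff r2 (hWY.trans r2)).1 (hgenle _ h.1 h.2 hOW'))

theorem FC.conj {c : ℕ} {P : Subgroup G} {h : G} (H : FC p c P h) (g : G) :
    FC p c (cj g P) (g * h * g⁻¹) := H.map (MulAut.conj g).injective

/-- a quadratic element outside `O_p(G)` gives a torus element in the maximal subgroup -/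
theorem quad_eig (hp2 : p ≠ 2) {T M V U : Subgroup G} [V.Normal] (hT : SylIn p T ⊤)
    (hM : MinOver T ⊤ M) (hV : IsElementaryAbelian p V) (hU : U ≤ V) (hU0 : U ≠ ⊥)
    (hMU : M ≤ Nm(U)) (hC : ∀ u ∈ U, u ≠ 1 → Cx(u) ≤ M) {a : G} (hap : IsPGroup p (zpowers a))
    (haO : a ∉ pCore p G) (hq : Quad a V) {c : ℕ} (hc : ¬ p ∣ c) :
    (∃ n : G, ∃ u ∈ U, u ≠ 1 ∧ n * u * n⁻¹ = u ^ c) ∧ ∃ P n, P ≤ M ∧ n ∈ M ∧ FC p c P n := by
  obtain ⟨L, g, h1, h2, h3⟩ := L_lemma hT hM hap (fun e => haO (zpowers_le.1 e))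
  obtain ⟨⟨n, u, hu, hu1, e⟩, P, m, p1, p2, p3⟩ := quad_eig_aux hp2 (U := cj g U) hV
    (le_Nm_normal _ _) (le_pCoreOf ((le_pCore inferInstance (elemAb_isPGroup hV)).trans
      (le_sup_right.trans h1)) (le_Nm_normal _ _) (elemAb_isPGroup hV))
    ((cj_mono g hU).trans (cj_normal g V).le) (cj_ne_bot hU0)
    ((cj_mono g hMU).trans (cj_normalizer g U).le) (by
      rintro _ ⟨u, hu, rfl⟩ hu1
      exact (cj_Cx g u).ge.trans (cj_mono g (hC u hu fun e => hu1 (by rw [e, map_one])))) hap hq h2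
    h3 hc
  refine ⟨⟨g⁻¹ * n * g, g⁻¹ * u * g, mem_cj.1 hu, fun h => hu1 ?_, ?_⟩, _, _, le_cj_iff.1 p1,
    by rw [inv_inv]; exact mem_cj.1 p2, p3.conj g⁻¹⟩
  · rwa [mul_assoc, inv_mul_eq_one, eq_comm, mul_eq_right] at h
  · conv_rhs => rw [← inv_inv g, inv_inv g⁻¹, conj_pow, ← e]
    group

end CfH9
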