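import Cfsg.Agent.H9.Ree1
import Cfsg.Agent.OD.Helper2x91720702dc
import Cfsg.Agent.OD.Helper9x232aef550a
import Cfsg.Agent.OD.Helper9x7f82f4ba98

/-! In a Ree group `²G₂(q)` no involution is a square. -/

set_option autoImplicit false

namespace CfH9.Ree

open Cfsg Cfsg.Lie Finset Matrix

variable {K : Type*} [Field K]

abbrev M14 (K : Type*) := Matrix (Fin (7 + 7)) (Fin (7 + 7)) K
abbrev M7 (K : Type*) := Matrix (Fin 7) (Fin 7) K

def bA (M : M14 K) : M7 K := M.submatrix (Fin.castAdd 7) (Fin.castAdd 7)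
def bB (M : M14 K) : M7 K := M.submatrix (Fin.natAdd 7) (Fin.natAdd 7)
def DK (K : Type*) [Field K] (k : ℕ) : M7 K := Matrix.of fun i j => (D0 k i j : K)
def JK (K : Type*) [Field K] : M7 K := Matrix.of fun i j => (J0 i j : K)

structure Good (M : M14 K) : Prop where
  tri : ∀ i j : Fin 7, M (Fin.natAdd 7 i) (Fin.castAdd 7 j) = 0
  eqv : ∀ k : Fin (7 + 7), bA M * DK K k = (∑ l : Fin (7 + 7), M l k • DK K l) * bA M
  orth : bA M * JK K * (bA M)ᵀ = JK K

theorem bA_mul {M N : M14 K} (hN : Good N) : bA (M * N) = bA M * bA N := by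
  ext i j
  simp only [bA, submatrix_apply, Matrix.mul_apply, Fin.sum_univ_add, hN.tri, mul_zero, sum_const_zero,
    add_zero]

theorem bB_mul {M N : M14 K} (hM : Good M) : bB (M * N) = bB M * bB N := by
  ext i j
  simp only [bB, submatrix_apply, Matrix.mul_apply, Fin.sum_univ_add, hM.tri, zero_mul, sum_const_zero,
    zero_add]

theorem bA_one : bA (1 : M14 K) = 1 := submatrix_one _ (Fin.castAdd_injective 7 7)
theorem bB_one : bB (1 : M14 K) = 1 := submatrix_one _ (Fin.natAdd_injective 7 7)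

theorem good_one : Good (1 : M14 K) where
  tri i j := one_apply_ne (by
    intro h; have := congrArg Fin.val h; simp at this; omega)
  eqv k := by simp [bA_one, Matrix.one_apply]
  orth := by simp [bA_one]

theorem Good.mul {M N : M14 K} (hM : Good M) (hN : Good N) : Good (M * N) where
  tri i j := by
    simp only [Matrix.mul_apply, Fin.sum_univ_add, hM.tri, hN.tri, zero_mul, mul_zero, sum_const_zero,
      add_zero]
  eqv k := by
    rw [bA_mul hN, Matrix.mul_assoc, hN.eqv, ← Matrix.mul_assoc, ← Matrix.mul_assoc, Matrix.mul_sum]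
    simp only [Matrix.mul_smul, hM.eqv, Matrix.mul_apply, sum_smul]
    congr 1
    rw [sum_comm, sum_mul]
    refine sum_congr rfl fun l _ => ?_
    rw [← Matrix.smul_mul, smul_sum]
    simp only [smul_smul, mul_comm]
  orth := by
    rw [bA_mul hN, transpose_mul]
    calc _ = bA M * (bA N * JK K * (bA N)ᵀ) * (bA M)ᵀ := by simp only [Matrix.mul_assoc]
      _ = _ := by rw [hN.orth, hM.orth]

variable [CharP K 3]

theorem h3 : (3 : K) = 0 := by exact_mod_cast CharP.cast_eq_zero K 3

noncomputable def cK (K : Type*) [Field K] [CharP K 3] : ZMod 3 →+* K := ZMod.castHom dvd_rfl K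

noncomputable def RX (r : Fin 12) (t : K) : M14 K := (chevG2.xMat K r t).submatrix ix ix

theorem ev_vr0 (t : K) : ev [t] (vr 0 1) = t := by simp [ev, vr, evM, List.range_succ]

theorem ev_RX (xs : List K) (r : Fin 12) (q : Pl) (i j : Fin (7 + 7)) :
    ev xs (Xq r q i j) = RX r (ev xs q) i j := ev_Xq xs r q i j

theorem chkE_all (r : Fin 12) : chkE r = true := by
  obtain ⟨r, hr⟩ := r
  by_cases h : r < 4
  · exact allB_iff.1 chkE_a ⟨r, h⟩
  obtain ⟨k, rfl⟩ := Nat.exists_eq_add_of_le (not_lt.1 h)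
  by_cases h : k < 4
  · exact allB_iff.1 chkE_b ⟨k, h⟩
  obtain ⟨l, rfl⟩ := Nat.exists_eq_add_of_le (not_lt.1 h)
  have := allB_iff.1 chkE_c ⟨l, by omega⟩
  rwa [show 8 + l = 4 + (4 + l) by omega] at this

theorem good_RX (r : Fin 12) (t : K) : Good (RX r t) := by
  have hX : ∀ i j : Fin (7 + 7), ev [t] (Xq r (vr 0 1) i j) = RX r t i j := fun i j => by
    rw [ev_RX, ev_vr0]
  have hA : ∀ i j : Fin 7, ev [t] (Xq r (vr 0 1) i j) = bA (RX r t) i j := fun i j =>
    hX (Fin.castAdd 7 i) (Fin.castAdd 7 j)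
  have hX' : ∀ (i : Fin 14) (j : Fin (7 + 7)), ev [t] (Xq r (vr 0 1) i j) = RX r t i j := hX
  have hO := fun i j => Bool.and_eq_true_iff.1
    (allB_iff.1 (allB_iff.1 (allB_iff.1 chkO_all r) i) j)
  refine ⟨fun i j => ?_, fun k => ?_, ?_⟩
  · rw [← hX]; exact congrArg (ev [t]) (eq_of_beq (hO i j).1)
  · ext i j
    have := congrArg (ev [t]) (eq_of_beq (allB_iff.1 (allB_iff.1 (allB_iff.1 (chkE_all r) k) i) j))
    simp only [ev_dot, ev_cst, hA, hX'] at this
    simp only [Matrix.mul_apply, Matrix.sum_apply, Matrix.smul_apply, smul_eq_mul, DK, of_apply]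
    simpa only [mul_comm] using this
  · ext i j
    have := congrArg (ev [t]) (eq_of_beq (hO i j).2)
    simp only [ev_dot, ev_cst, hA] at this
    simp only [Matrix.mul_apply, JK, of_apply, transpose_apply]
    simpa only [mul_comm] using this

theorem JJ : JK K * JK K = 1 := by
  ext i j
  simpa [cK, JK, Matrix.mul_apply, Matrix.one_apply, map_sum, apply_ite] using congrArg (cK K) (chkJ i j)

theorem cross (z : M7 K) (c d : Fin 7) : trace (z * (DK K c * DK K d + DK K d * DK K c)) =
    (JK K * z) d c + (JK K * z) c d + JK K c d * trace z := by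
  have h : ∀ i j : Fin 7, (DK K c * DK K d + DK K d * DK K c) i j =
      (if i = c then JK K d j else 0) + (if i = d then JK K c j else 0) +
        if i = j then JK K c d else 0 := fun i j => by
    have := congrArg (cK K) (chkC c d i j)
    simp only [map_add, map_sum, map_natCast, apply_ite (cK K), map_zero, Nat.cast_mul,
      Nat.cast_add, map_mul, sum_add_distrib] at this
    simpa only [DK, JK, Matrix.mul_apply, Matrix.add_apply, of_apply] using this
  generalize DK K c * DK K d + DK K d * DK K c = X at h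
  simp only [trace, Matrix.diag, Matrix.mul_apply, h, mul_add, sum_add_distrib, mul_ite, mul_zero,
    sum_ite_eq', mem_univ, if_true, mul_sum]
  congr 1
  · simp only [mul_comm]
  · simp only [mul_comm]

theorem Good.eqvA {M : M14 K} (h : Good M) (a : Fin 7) :
    bA M * DK K a = (∑ c : Fin 7, bA M c a • DK K c) * bA M := by
  have := h.eqv (Fin.castAdd 7 a)
  simp only [Fin.sum_univ_add, h.tri, zero_smul, sum_const_zero, add_zero] at this
  exact this

/-- an involution has trace `-1` on the ideal -/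
theorem Good.trace_inv {M : M14 K} (h : Good M) (h2 : bA M * bA M = 1) (h1 : bA M ≠ 1) :
    trace (bA M) = -1 := by
  set z := bA M
  set N : M7 K := 1 - z with hN
  let G : Fin 7 → M7 K := fun a => ∑ c : Fin 7, N c a • DK K c
  have hG : ∀ a, G a = DK K a - z * DK K a * z := fun a => by
    rw [h.eqvA, Matrix.mul_assoc, h2, Matrix.mul_one]
    simp only [G, hN, Matrix.sub_apply, sub_smul, sum_sub_distrib, Matrix.one_apply, ite_smul, one_smul,
      zero_smul, sum_ite_eq', mem_univ, if_true]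
    rfl
  have hz : ∀ a, z * G a = -(G a * z) := fun a => by
    rw [hG, Matrix.mul_sub, Matrix.sub_mul, ← Matrix.mul_assoc, ← Matrix.mul_assoc, h2,
      Matrix.one_mul, Matrix.mul_assoc _ z z, h2, Matrix.mul_one, neg_sub]
  have ht : ∀ a b, trace (z * (G a * G b + G b * G a)) = 0 := fun a b => by
    rw [Matrix.mul_add, trace_add, ← Matrix.mul_assoc z (G a), hz, Matrix.neg_mul, trace_neg,
      Matrix.mul_assoc, trace_mul_comm (G a), Matrix.mul_assoc, neg_add_cancel]
  have hzN : z * N = -N := by rw [hN, Matrix.mul_sub, h2, Matrix.mul_one, neg_sub]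
  have hJz : zᵀ * JK K = JK K * z := by
    have h4 : z * (JK K * zᵀ * JK K) = 1 := by
      rw [← Matrix.mul_assoc, ← Matrix.mul_assoc, h.orth, JJ]
    have h5 : JK K * zᵀ * JK K = z := by
      rw [← Matrix.one_mul (JK K * zᵀ * JK K), ← h2, Matrix.mul_assoc, h4, Matrix.mul_one]
    rw [← h5, ← Matrix.mul_assoc, ← Matrix.mul_assoc, JJ, Matrix.one_mul, h5]
  have hJt : (JK K)ᵀ = JK K := by
    have : ∀ i j : Fin 7, J0 j i = J0 i j := by decide +kernel
    ext i j; simp [JK, this i j]
  have hsym : (JK K * z)ᵀ = JK K * z := by rw [transpose_mul, hJt, hJz]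
  have key : ∀ a b, trace (z * (G a * G b + G b * G a)) =
      (Nᵀ * (JK K * z + JK K * z + trace z • JK K) * N) a b := fun a b => by
    have : G a * G b + G b * G a = ∑ c : Fin 7, ∑ d : Fin 7,
        (N c a * N d b) • (DK K c * DK K d + DK K d * DK K c) := by
      have hGG : ∀ a b, G a * G b = ∑ c : Fin 7, ∑ d : Fin 7,
          (N c a * N d b) • (DK K c * DK K d) := fun a b => by
        simp only [G, sum_mul_sum, smul_mul_smul_comm]
      rw [hGG, hGG, sum_comm (f := fun c d : Fin 7 => (N c b * N d a) • (DK K c * DK K d))]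
      simp only [smul_add, sum_add_distrib, mul_comm (N _ b)]
    rw [this]
    simp only [Matrix.mul_sum, Matrix.mul_smul, trace_sum, trace_smul, cross, smul_eq_mul]
    rw [Matrix.mul_apply, sum_comm]
    refine sum_congr rfl fun d _ => ?_
    rw [Matrix.mul_apply, sum_mul]
    refine sum_congr rfl fun c _ => ?_
    rw [← transpose_apply (JK K * z) c d, hsym]
    simp only [transpose_apply, Matrix.add_apply, Matrix.smul_apply, smul_eq_mul]; ring
  by_contra hne
  have h6 : (1 + trace z) • (Nᵀ * JK K * N) = 0 := by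
    ext a b
    have := (key a b).symm.trans (ht a b)
    simp only [Matrix.mul_add, Matrix.add_mul, Matrix.mul_assoc, hzN, Matrix.mul_neg,
      Matrix.mul_smul, Matrix.smul_mul, Matrix.add_apply, Matrix.neg_apply, Matrix.smul_apply, smul_eq_mul] at this
    simp only [Matrix.mul_assoc, Matrix.smul_apply, smul_eq_mul, Matrix.zero_apply]
    linear_combination this + (Nᵀ * (JK K * N)) a b * h3 (K := K)
  have h7 := (smul_eq_zero.1 h6).resolve_left fun h => hne (by linear_combination h)
  have h8 : Nᵀ * JK K = JK K * N := by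
    rw [hN, transpose_sub, transpose_one, Matrix.sub_mul, Matrix.mul_sub, hJz, Matrix.one_mul,
      Matrix.mul_one]
  have h9 : N * N = N + N := by
    conv_lhs => rw [hN, Matrix.sub_mul, ← hN, hzN, Matrix.one_mul, sub_neg_eq_add]
  rw [h8, Matrix.mul_assoc, h9] at h7
  have h10 := congrArg (JK K * ·) h7
  simp only [← Matrix.mul_assoc, JJ, Matrix.one_mul, Matrix.mul_zero] at h10
  refine h1 (sub_eq_zero.1 (?_ : N = 0)).symm
  ext i j
  have := congrFun (congrFun h10 i) j
  simp only [Matrix.add_apply, Matrix.zero_apply] at this ⊢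
  linear_combination N i j * h3 (K := K) - this

omit [CharP K 3] in
theorem sum3 {α β γ : Type*} [Fintype α] [Fintype β] [Fintype γ] (f : α → β → γ → K) :
    ∑ a, ∑ b, ∑ c, f a b c = ∑ c, ∑ a, ∑ b, f a b c :=
  (sum_congr rfl fun _ _ => sum_comm).trans sum_comm

/-- the trace identity `Λ² I = 2 I + L / I` -/
theorem Good.trace_sq {M : M14 K} (h : Good M) :
    trace (bA M) ^ 2 - trace (bA M * bA M) = trace (bA M) - trace (bB M) := by
  set A := bA M
  let MK : ℕ → M7 K := fun k => DK K k * JK K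
  let SK : ℕ → M7 K := fun k => Matrix.of fun i j => (S0 k i j : K)
  have hM : ∀ (k : ℕ) (i j : Fin 7), (M0 k i j : K) = MK k i j := fun k i j => by
    simp [M0, MK, DK, JK, Matrix.mul_apply]
  have hS : ∀ a b : Fin 7, (single a b (1 : K) - single b a 1 : M7 K) =
      ∑ k : Fin (7 + 7), (L0 k a b : K) • MK k + ∑ j : Fin 7, (D0 a j b : K) • SK j := fun a b => by
    ext c d
    have := congrArg (cK K) (chkS a b c d)
    simp only [map_sub, map_add, map_sum, map_natCast, apply_ite (cK K), map_one, map_zero,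
      Nat.cast_mul, map_mul, hM] at this
    simpa only [Matrix.sub_apply, single_apply, Matrix.add_apply, Matrix.sum_apply, Matrix.smul_apply, smul_eq_mul, SK,
      of_apply, eq_comm] using this
  have hF : ∀ k : Fin (7 + 7), A * MK k * Aᵀ = ∑ l : Fin (7 + 7), M l k • MK l := fun k => by
    simp only [MK]
    rw [← Matrix.mul_assoc, h.eqv, Matrix.mul_assoc, Matrix.mul_assoc, ← Matrix.mul_assoc (bA M),
      h.orth, sum_mul]
    simp only [Matrix.smul_mul]
  let P : Fin 7 → M7 K := fun j => Matrix.of fun a b => (D0 a j b : K)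
  have pr : ∀ L X : M7 K, ∑ a, ∑ b, L a b * X a b = trace (Lᵀ * X) := fun L X => by
    rw [sum_comm]; simp only [trace, Matrix.diag, Matrix.mul_apply, transpose_apply]
  have h1 : ∀ j, Aᵀ * P j * A = ∑ i, A j i • P i := fun j => by
    ext c d
    have := congrFun (congrFun (h.eqvA c) j) d
    simp only [Matrix.mul_apply, Matrix.sum_apply, Matrix.smul_apply, smul_eq_mul, DK, of_apply,
      transpose_apply, P] at this ⊢
    exact this.symm
  have hP : ∀ j : Fin 7, ∑ a : Fin 7, ∑ b : Fin 7, (D0 a j b : K) * (A * SK j * Aᵀ) a b =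
      -A j j := fun j => by
    have h2 : ∀ i, trace ((P i)ᵀ * SK j) = if i = j then -1 else 0 := fun i => by
      have := congrArg (cK K) (chkP i j)
      simp only [map_sum, map_natCast, apply_ite (cK K), map_zero, Nat.cast_mul, map_mul, map_neg,
        map_one] at this
      rw [← pr]; exact this
    refine (pr (P j) _).trans ?_
    have h4 : Aᵀ * (P j)ᵀ * A = (Aᵀ * P j * A)ᵀ := by
      simp only [transpose_mul, transpose_transpose, Matrix.mul_assoc]
    rw [← Matrix.mul_assoc, trace_mul_comm, ← Matrix.mul_assoc, ← Matrix.mul_assoc, h4, h1,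
      transpose_sum, sum_mul, trace_sum]
    simp [h2]
  have hL : ∀ k : Fin (7 + 7), ∑ a : Fin 7, ∑ b : Fin 7, (L0 k a b : K) * (A * MK k * Aᵀ) a b =
      -M k k := fun k => by
    have h2 : ∀ l : Fin (7 + 7), ∑ a : Fin 7, ∑ b : Fin 7, (L0 k a b : K) * MK l a b =
        if k = l then -1 else 0 := fun l => by
      simpa only [map_sum, map_natCast, apply_ite (cK K), map_zero, Nat.cast_mul, map_mul, map_neg,
        map_one, hM] using congrArg (cK K) (chkL k l)
    calc _ = ∑ l : Fin (7 + 7), M l k * ∑ a : Fin 7, ∑ b : Fin 7, (L0 k a b : K) * MK l a b := by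
          simp only [hF, Matrix.sum_apply, Matrix.smul_apply, smul_eq_mul, mul_sum]
          rw [sum3]
          simp only [mul_left_comm]
      _ = _ := by simp [h2]
  have hT : ∑ k, M k k = trace A + trace (bB M) := Fin.sum_univ_add _
  calc _ = ∑ a : Fin 7, ∑ b : Fin 7, (A * (single a b (1 : K) - single b a 1 : M7 K) * Aᵀ) a b := by
        simp only [Matrix.mul_sub, Matrix.sub_mul, Matrix.sub_apply, sum_sub_distrib, trace,
          Matrix.diag, sq, sum_mul_sum]
        congr 1 <;> refine sum_congr rfl fun a _ => ?_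
        · simp [Matrix.mul_apply, single_apply, ite_and]
        · simp [Matrix.mul_apply, single_apply, ite_and]
    _ = ∑ k : Fin (7 + 7), ∑ a : Fin 7, ∑ b : Fin 7, (L0 k a b : K) * (A * MK k * Aᵀ) a b +
        ∑ j : Fin 7, ∑ a : Fin 7, ∑ b : Fin 7, (D0 a j b : K) * (A * SK j * Aᵀ) a b := by
        simp only [hS, Matrix.mul_add, Matrix.add_mul, Matrix.mul_sum, sum_mul, Matrix.mul_smul,
          Matrix.smul_mul, Matrix.add_apply, Matrix.sum_apply, Matrix.smul_apply, smul_eq_mul,
          sum_add_distrib]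
        exact congrArg₂ (· + ·) (sum3 _) (sum3 _)
    _ = _ := by
        simp only [hL, hP, sum_neg_distrib, hT]
        change _ + -trace A = _
        linear_combination -trace A * h3 (K := K)

noncomputable def RW (w : List (ℕ × K)) : M14 K := (chevG2.wordMat K w).submatrix ix ix

omit [CharP K 3] in
theorem RW_nil : RW ([] : List (ℕ × K)) = 1 := submatrix_one_equiv ix

omit [CharP K 3] in
theorem RW_cons {r : ℕ} (h : r < 12) (t : K) (w : List (ℕ × K)) :
    RW ((r, t) :: w) = RX ⟨r, h⟩ t * RW w := by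
  rw [RW, RX, RW, submatrix_mul_equiv, ChevalleyDatum.wordMat, List.map_cons, List.prod_cons,
    ChevalleyDatum.x, dif_pos (show r < chevG2.nroots from h)]
  rfl

theorem good_RW : ∀ w : List (ℕ × K), (∀ m ∈ w, m.1 < 12) → Good (RW w)
  | [], _ => RW_nil (K := K) ▸ good_one
  | (r, t) :: w, h => by
    rw [RW_cons (h _ List.mem_cons_self)]
    exact (good_RX _ _).mul (good_RW w fun m hm => h m (List.mem_cons_of_mem _ hm))

theorem map_RW (ψ : K →+* K) : ∀ w : List (ℕ × K), (∀ m ∈ w, m.1 < 12) →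
    (RW w).map ψ = RW (w.map fun m => (m.1, ψ m.2))
  | [], _ => by rw [List.map_nil, RW_nil, Matrix.map_one _ ψ.map_zero ψ.map_one]
  | (r, t) :: w, h => by
    rw [List.map_cons, RW_cons (h _ List.mem_cons_self), RW_cons (h _ List.mem_cons_self),
      Matrix.map_mul, map_RW ψ w fun m hm => h m (List.mem_cons_of_mem _ hm)]
    congr 1
    ext i j
    simp only [RX, map_apply, submatrix_apply, xMat_T, map_sum, map_mul, map_pow, map_natCast]

theorem ev_wp (xs : List K) : ∀ w : List (ℕ × Pl), (∀ m ∈ w, m.1 < 12) → ∀ i j : Fin 7,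
    ev xs (wp 0 w i j) = bA (RW (w.map fun m => (m.1, ev xs m.2))) i j ∧
    ev xs (wp 7 w i j) = bB (RW (w.map fun m => (m.1, ev xs m.2))) i j
  | [], _, i, j => by
    simp only [List.map_nil, RW_nil, bA_one, bB_one, wp, Matrix.one_apply, Fin.val_inj,
      apply_ite (ev xs), ev_cst, Nat.cast_one, and_self]
    rfl
  | (r, q) :: w, h, i, j => by
    have hw : ∀ m ∈ w, m.1 < 12 := fun m hm => h m (List.mem_cons_of_mem _ hm)
    rw [List.map_cons, RW_cons (h _ List.mem_cons_self), bB_mul (good_RX _ _),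
      bA_mul (good_RW (w.map fun m => (m.1, ev xs m.2)) (List.forall_mem_map.2 hw))]
    simp only [wp, ev_dot, Matrix.mul_apply, (ev_wp xs w hw _ _).1, (ev_wp xs w hw _ _).2,
      zero_add]
    exact ⟨sum_congr rfl fun k _ => congrArg (· * _)
        (ev_RX xs ⟨r, h _ List.mem_cons_self⟩ q (Fin.castAdd 7 i) (Fin.castAdd 7 k)),
      sum_congr rfl fun k _ => congrArg (· * _)
        (ev_RX xs ⟨r, h _ List.mem_cons_self⟩ q (Fin.natAdd 7 i) (Fin.natAdd 7 k))⟩

theorem word_ree (ψ : K →+* K) {t u v a b c : K} (ha : ψ a = t) (hb : ψ b = u) (hc : ψ c = v)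
    (ht : ψ t = a ^ 3) (hu : ψ u = b ^ 3) (hv : ψ v = c ^ 3) {r1 r2 r3 r4 r5 r6 s : ℕ}
    (hr : ∀ r ∈ [r1, r2, r3, r4, r5, r6], r < 12) (h : chkW [r1, r2, r3, r4, r5, r6] s = true)
    {w : List (ℕ × K)} (hw : w = [(r1, s * a), (r2, s * t), (r3, s * (a * t + b)),
      (r4, s * (a ^ 2 * t + c)), (r5, s * u), (r6, s * v)]) :
    Good (RW w) ∧ bB (RW w) = (bA (RW w)).map ψ := by
  have h1 : ∀ m ∈ w, m.1 < 12 := by subst hw; simpa using hr
  refine ⟨good_RW w h1, ?_⟩
  have h2 : ∀ l : List Pl, ∀ m ∈ [r1, r2, r3, r4, r5, r6].zip l, m.1 < 12 := fun l m hm =>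
    hr _ (List.of_mem_zip hm).1
  ext i j
  have := congrArg (ev [t, u, v, a, b, c]) (eq_of_beq (allB_iff.1 (allB_iff.1 h i) j))
  rw [(ev_wp _ _ (h2 _) i j).1, (ev_wp _ _ (h2 _) i j).2] at this
  have h3 : (bA (RW w)).map ψ = bA ((RW w).map ψ) := rfl
  rw [h3, map_RW ψ w h1, hw]
  have hv' : ∀ i k, ev [t, u, v, a, b, c] (vr i k) =
      evM [t, u, v, a, b, c] ((List.range 6).map fun j => if j = i then k else 0) := fun i k => by
    simp [ev, vr]
  simpa [csL, csR, ev_pmul, ev_padd, ev_cst, hv', evM, List.range_succ, ha, hb, hc, ht, hu, hv]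
    using this

/-- in `²G₂(q)` an element of order dividing four has order dividing two -/
theorem sq_eq_one {F : Type} [Field F] [Fintype F] {m : ℕ} (hF : Fintype.card F = 3 ^ (2 * m + 1))
    (g : twistedG2 F (3 ^ m)) (hg : g ^ 4 = 1) : g ^ 2 = 1 := by
  haveI : Fact (Nat.Prime 3) := ⟨Nat.prime_three⟩
  haveI : CharP F 3 := charP_of_card_eq_prime_pow hF
  let ψ : F →+* F := iterateFrobenius F 3 (m + 1)
  have hψ : ∀ x, ψ x = x ^ 3 ^ (m + 1) := fun x => iterateFrobenius_def ..
  have h1 : ∀ x : F, ψ (x ^ 3 ^ m) = x := fun x => by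
    rw [hψ, ← pow_mul, ← pow_add, show m + (m + 1) = 2 * m + 1 by ring, ← hF, FiniteField.pow_card]
  have h2 : ∀ x : F, ψ x = (x ^ 3 ^ m) ^ 3 := fun x => by rw [hψ, ← pow_mul, pow_succ]
  let φ : GL chevG2.Idx F →* M14 F :=
    (reindexAlgEquiv F F ix.symm).toMulEquiv.toMonoidHom.comp (Units.coeHom _)
  have hφ : ∀ x : GL chevG2.Idx F, φ x = x.1.submatrix ix ix := fun _ => rfl
  let S : Submonoid (GL chevG2.Idx F) :=
    { carrier := {x | Good (φ x) ∧ bB (φ x) = (bA (φ x)).map ψ}
      one_mem' := by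
        change _ ∧ _
        rw [map_one, bA_one, bB_one, Matrix.map_one _ ψ.map_zero ψ.map_one]
        exact ⟨good_one, rfl⟩
      mul_mem' := fun {x y} hx hy => by
        change _ ∧ _
        rw [map_mul, bA_mul hy.1, bB_mul hx.1, Matrix.map_mul, hx.2, hy.2]
        exact ⟨hx.1.mul hy.1, rfl⟩ }
  have hS : ∀ x ∈ twistedG2 F (3 ^ m), x ∈ S := fun x hx => by
    induction hx using Subgroup.closure_induction with
    | mem x hx =>
      obtain ⟨w, ⟨t, u, v, hw⟩, hx⟩ := hx
      change _ ∧ _
      rw [hφ, hx]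
      rcases hw with rfl | rfl
      · refine word_ree ψ (h1 t) (h1 u) (h1 v) (h2 t) (h2 u) (h2 v) (by decide) chkW_U ?_
        simp only [reeWordU, pow_succ, pow_mul', Nat.cast_one, one_mul, pow_zero]; rfl
      · refine word_ree ψ (h1 t) (h1 u) (h1 v) (h2 t) (h2 u) (h2 v) (by decide) chkW_V ?_
        have : ((2 : ℕ) : F) = -1 := by push_cast; linear_combination h3 (K := F)
        simp only [reeWordV, reeWordU, ChevalleyDatum.negWord, pow_succ, pow_mul', this, neg_mul,
          one_mul, pow_zero, List.map_cons, List.map_nil]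
        rfl
    | one => exact S.one_mem
    | mul x y _ _ hx hy => exact S.mul_mem hx hy
    | inv x _ hx =>
      rw [← one_mul x⁻¹, ← pow_orderOf_eq_one x, ← Nat.succ_pred_eq_of_pos (orderOf_pos x),
        pow_succ, mul_inv_cancel_right]
      exact S.pow_mem hx _
  obtain ⟨hG, hB⟩ := hS _ g.2
  obtain ⟨hG2, hB2⟩ := hS _ (g * g).2
  have e2 : φ (g * g).1 = φ g.1 * φ g.1 := map_mul φ _ _
  have e4 : φ (g * g).1 * φ (g * g).1 = 1 := by
    rw [← map_mul, ← Subgroup.coe_mul, ← sq, ← sq, ← pow_mul, hg]; exact map_one φ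
  have hA : bA (φ (g * g).1) = 1 := by
    by_contra hne
    have h4 := hG2.trace_inv (by rw [← bA_mul hG2, e4, bA_one]) hne
    have h5 := hG.trace_sq
    rw [← bA_mul hG, ← e2, h4, hB, ← AddMonoidHom.map_trace] at h5
    set τ := trace (bA (φ g.1))
    have h6 : ψ τ = τ - τ ^ 2 - 1 := by linear_combination h5
    have h7 : ψ (ψ τ) = τ ^ 3 := by rw [h2 τ, map_pow, h1]
    rw [h6, map_sub, map_sub, map_pow, map_one, h6] at h7
    have h8 : (τ + 1) ^ 2 * τ ^ 2 = 0 := by
      linear_combination -h7 + (τ ^ 3 - τ ^ 2 + τ - 1) * h3 (K := F)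
    rcases mul_eq_zero.1 h8 with h | h
    · have h9 : τ = -1 := eq_neg_of_add_eq_zero_left (pow_eq_zero_iff two_ne_zero |>.1 h)
      rw [h9, map_neg, map_one] at h6
      exact one_ne_zero (α := F) (by linear_combination h3 (K := F) - h6)
    · rw [pow_eq_zero_iff two_ne_zero |>.1 h, map_zero] at h6
      exact one_ne_zero (α := F) (by linear_combination h6)
  rw [hA, Matrix.map_one _ ψ.map_zero ψ.map_one] at hB2
  set Z := φ (g * g).1 with hZ
  have hN : (Z - 1) * (Z - 1) = 0 := by
    have a1 : ∀ i (j : Fin 7), (Z - 1) i (Fin.castAdd 7 j) = 0 := fun i j => by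
      refine Fin.addCases (fun i => ?_) (fun i => ?_) i
      · exact sub_eq_zero.2 (congrFun (congrFun (hA.trans bA_one.symm) i) j)
      · rw [Matrix.sub_apply, hG2.tri, good_one.tri, sub_zero]
    have a2 : ∀ (i : Fin 7) j, (Z - 1) (Fin.natAdd 7 i) j = 0 := fun i j => by
      refine Fin.addCases (fun j => a1 _ j) (fun j => ?_) j
      exact sub_eq_zero.2 (congrFun (congrFun (hB2.trans bB_one.symm) i) j)
    ext i j
    simp only [Matrix.mul_apply, Fin.sum_univ_add, a1, a2, zero_mul, mul_zero, sum_const_zero,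
      add_zero, Matrix.zero_apply]
  have hZ1 : Z = 1 := by
    rw [sub_mul, mul_sub, e4, mul_one, one_mul] at hN
    ext i j
    have := congrFun (congrFun hN i) j
    simp only [Matrix.sub_apply, Matrix.zero_apply] at this
    linear_combination this + (Z i j - (1 : M14 F) i j) * h3 (K := F)
  rw [sq]
  exact Subtype.ext (Units.ext ((reindexAlgEquiv F F ix.symm).injective (hZ1.trans (map_one _).symm)))

end CfH9.Ree
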