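import Cfsg.Agent.L.R3
import Cfsg.Agent.H9.SylIn
/-! Four permutation group lemmas for the rank 3 recognition of the Rudvalis group. -/
set_option autoImplicit false
open MulAction Subgroup Equiv
namespace CfH9.RuG
open Classical

theorem orb_fix {P : Type*} {X : Subgroup (Perm P)} {p0 : P} (h0 : ∀ x ∈ X, x p0 = p0) :
    (orbit X p0).ncard = 1 := by
  rw [show orbit X p0 = {p0} from Set.ext fun y =>
    ⟨fun ⟨g, e⟩ => e.symm.trans (h0 g g.2), fun e => e ▸ mem_orbit_self _⟩, Set.ncard_singleton]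

theorem match_pt {S Ω P : Type*} [Group S] [MulAction S Ω] [Finite P] {X : Subgroup (Perm P)}
    (e : S ≃* X) {b : Ω} {b0 : P} {k : ℕ} (hb : (orbit S b).ncard = k) (hb0 : (orbit X b0).ncard = k)
    (cb : ∀ Y ≤ X, Nat.card Y * k = Nat.card X → ∃ y ∈ orbit X b0, ∀ g ∈ Y, g y = y) :
    ∃ y, (orbit X y).ncard = k ∧ ∀ g : S, g • b = b ↔ (e g : Perm P) y = y := by
  have hi : Function.Injective (X.subtype.comp e.toMonoidHom) := X.subtype_injective.comp e.injective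
  have h1 : Nat.card ((stabilizer S b).map (X.subtype.comp e.toMonoidHom)) * k = Nat.card X := by
    rw [card_map_of_injective hi, ← hb, ← Nat.card_congr e.toEquiv,
      ← index_stabilizer, card_mul_index]
  have h2 : (stabilizer S b).map (X.subtype.comp e.toMonoidHom) ≤ X := by
    rintro _ ⟨g, -, rfl⟩; exact (e g).2
  obtain ⟨y, hy, h3⟩ := cb _ h2 h1
  have h4 := CfL.card_orbit_mul X y
  rw [orbit_eq_iff.2 hy, hb0, ← h1, mul_comm] at h4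
  have h5 := eq_of_le_of_card_ge (le_inf h2 fun g hg => (h3 g hg : g ∈ stabilizer (Perm P) y))
    (Nat.eq_of_mul_eq_mul_left (by
      rw [← hb0]; exact (Set.ncard_pos (Set.toFinite _)).2 ⟨_, mem_orbit_self _⟩) h4).ge
  refine ⟨y, by rw [orbit_eq_iff.2 hy, hb0], fun g => ⟨fun h => h3 _ ⟨g, h, rfl⟩, fun h => ?_⟩⟩
  obtain ⟨g', h6, h7⟩ := h5.ge (show (e g : Perm P) ∈ _ from ⟨(e g).2, h⟩)
  exact hi h7 ▸ h6

theorem transport {Ω P : Type*} [Finite Ω] [Finite P] (G : Subgroup (Perm Ω)) [IsPretransitive G Ω] {a b c : Ω}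
    {X : Subgroup (Perm P)} {p0 b0 c0 : P} (e : stabilizer G a ≃* X) {k l : ℕ} (hΩ : Nat.card Ω = 1 + k + l)
    (hP : Nat.card P = 1 + k + l) (hk : k ≠ 1) (hl : l ≠ 1) (hkl : k ≠ l)
    (hb : (orbit (stabilizer G a) b).ncard = k) (hc : (orbit (stabilizer G a) c).ncard = l)
    (h0 : ∀ x ∈ X, x p0 = p0) (hb0 : (orbit X b0).ncard = k) (hc0 : (orbit X c0).ncard = l)
    (cb : ∀ Y ≤ X, Nat.card Y * k = Nat.card X → ∃ y ∈ orbit X b0, ∀ g ∈ Y, g y = y)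
    (cc : ∀ Y ≤ X, Nat.card Y * l = Nat.card X → ∃ y ∈ orbit X c0, ∀ g ∈ Y, g y = y) :
    ∃ H : Subgroup (Perm P), Nonempty (G ≃* H) ∧ IsPretransitive H P ∧ ∀ g, g ∈ X ↔ g ∈ H ∧ g p0 = p0 := by
  obtain ⟨y, y1, y2⟩ := match_pt e hb hb0 cb
  obtain ⟨z, z1, z2⟩ := match_pt e hc hc0 cc
  have ha : (orbit (stabilizer G a) a).ncard = 1 := by
    rw [show orbit (stabilizer G a) a = {a} from Set.ext fun y =>
      ⟨fun ⟨g, e⟩ => e.symm.trans g.2, fun e => e ▸ mem_orbit_self _⟩, Set.ncard_singleton]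
  let r : Fin 3 → Ω := ![a, b, c]
  let ρ : Fin 3 → P := ![p0, y, z]
  let n : Fin 3 → ℕ := ![1, k, l]
  have hn : Function.Injective n := fun i j h => by
    fin_cases i <;> fin_cases j <;> simp_all [n]
  have h1 : ∀ i, (orbit (stabilizer G a) (r i)).ncard = n i := fun i => by
    fin_cases i; exacts [ha, hb, hc]
  have h2 : ∀ i, (orbit X (ρ i)).ncard = n i := fun i => by
    fin_cases i; exacts [orb_fix h0, y1, z1]
  have h3 : ∀ i (g : stabilizer G a), g • r i = r i ↔ (e g : Perm P) (ρ i) = ρ i := fun i g => by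
    fin_cases i; exacts [⟨fun _ => h0 _ (e g).2, fun _ => g.2⟩, y2 g, z2 g]
  have h4 : ∀ i (g h : stabilizer G a), g • r i = h • r i ↔
      (e g : Perm P) (ρ i) = (e h : Perm P) (ρ i) := fun i g h => by
    rw [← inv_smul_eq_iff, ← mul_smul, h3, map_mul, map_inv, coe_mul, coe_inv, Perm.mul_apply,
      Perm.inv_eq_iff_eq]
  have h5 : ∀ ω, ∃ i, ∃ g : stabilizer G a, g • r i = ω := fun ω => by
    rcases CfL.r3_tri hb hc hk hl hkl hΩ ω with h | h | h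
    exacts [⟨0, 1, (one_smul _ _).trans h.symm⟩, ⟨1, h⟩, ⟨2, h⟩]
  choose ι γ hγ using h5
  let β : Ω → P := fun ω => (e (γ ω) : Perm P) (ρ (ι ω))
  have h6 : ∀ i (g : stabilizer G a), β (g • r i) = (e g : Perm P) (ρ i) := fun i g => by
    have := hγ (g • r i)
    have e1 : ι (g • r i) = i := hn (by
      rw [← h1, ← h1, ← orbit_smul (γ (g • r i)), this, orbit_smul])
    simp only [β]
    rw [e1] at this ⊢
    exact (h4 _ _ _).1 this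
  have h7 : Function.Injective β := fun ω ω' h => by
    have e1 : ι ω = ι ω' := hn (by
      rw [← h2, ← h2, ← orbit_smul (e (γ ω)), ← orbit_smul (e (γ ω')) (ρ (ι ω'))]
      exact congrArg (fun u => (orbit X u).ncard) h)
    simp only [β] at h
    rw [← hγ ω, ← hγ ω']
    rw [e1] at h ⊢
    exact (h4 _ _ _).2 h
  let B : Ω ≃ P := ofBijective β (h7.bijective_of_nat_card_le (by rw [hΩ, hP]))
  have h8 : B a = p0 := show β a = _ by simpa [r, ρ] using h6 0 1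
  have h9 : ∀ g : stabilizer G a, B.permCongrHom (g : G) = (e g : Perm P) := fun g => by
    ext u
    obtain ⟨ω, rfl⟩ := B.surjective u
    have : β (g • ω) = (e g : Perm P) (β ω) := by
      conv_lhs => rw [← hγ ω, ← mul_smul, h6, map_mul]
      rfl
    simpa using (show B ((g : Perm Ω) ω) = (e g : Perm P) (B ω) from this)
  refine ⟨G.map B.permCongrHom, ⟨B.permCongrHom.subgroupMap G⟩, ⟨fun u v => ?_⟩, fun g =>
    ⟨fun hg => ⟨⟨_, (e.symm ⟨g, hg⟩).1.2, by simpa using h9 (e.symm ⟨g, hg⟩)⟩, h0 g hg⟩, ?_⟩⟩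
  · obtain ⟨g, hg⟩ := exists_smul_eq G (B.symm u) (B.symm v)
    exact ⟨⟨_, g, g.2, rfl⟩, (congrArg B hg).trans (B.apply_symm_apply v)⟩
  · rintro ⟨⟨h, hh, rfl⟩, h10⟩
    have : h a = a := B.injective (by rw [h8]; simpa [← h8] using h10)
    exact (h9 ⟨⟨h, hh⟩, this⟩).symm ▸ (e _).2

/-- the neighbours of `u` in the orbital graph of `(p0, b0)` -/
def Nb {P : Type*} (K : Subgroup (Perm P)) (p0 b0 u : P) : Set P := {v | ∃ g ∈ K, g p0 = u ∧ g b0 = v}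

section
variable {P : Type*} {X K : Subgroup (Perm P)} {p0 b0 c0 u v : P} {g : Perm P}

theorem Nb.smul (hg : g ∈ K) : g v ∈ Nb K p0 b0 (g u) ↔ v ∈ Nb K p0 b0 u :=
  ⟨fun ⟨h, h1, h2, h3⟩ => ⟨g⁻¹ * h, mul_mem (inv_mem hg) h1, by simp [h2], by simp [h3]⟩,
    fun ⟨h, h1, h2, h3⟩ => ⟨g * h, mul_mem hg h1, by simp [h2], by simp [h3]⟩⟩

theorem Nb.base (hK : ∀ g, g ∈ X ↔ g ∈ K ∧ g p0 = p0) : Nb K p0 b0 p0 = orbit X b0 :=
  Set.ext fun _ => ⟨fun ⟨g, h1, h2, h3⟩ => ⟨⟨g, (hK g).2 ⟨h1, h2⟩⟩, h3⟩,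
    fun ⟨g, h⟩ => ⟨g, ((hK g).1 g.2).1, ((hK g).1 g.2).2, h⟩⟩

theorem orb_stab (hK : ∀ g, g ∈ X ↔ g ∈ K ∧ g p0 = p0) (b : P) :
    orbit (stabilizer K p0) b = orbit X b :=
  Set.ext fun _ => ⟨fun ⟨g, h⟩ => ⟨⟨g.1, (hK _).2 ⟨g.1.2, g.2⟩⟩, h⟩,
    fun ⟨g, h⟩ => ⟨⟨⟨g, ((hK g).1 g.2).1⟩, ((hK g).1 g.2).2⟩, h⟩⟩

theorem Nb.ncard [IsPretransitive K P] (hK : ∀ g, g ∈ X ↔ g ∈ K ∧ g p0 = p0) (u : P) :
    (Nb K p0 b0 u).ncard = (orbit X b0).ncard := by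
  obtain ⟨g, rfl⟩ := exists_smul_eq K p0 u
  rw [← Nb.base hK, ← Set.ncard_image_of_injective (Nb K p0 b0 p0) (g : Perm P).injective]
  congr 1
  ext v
  obtain ⟨v, rfl⟩ := (g : Perm P).surjective v
  rw [(g : Perm P).injective.mem_set_image]
  exact Nb.smul g.2

theorem eq_of_diff [Finite P] {N N' : Set P} (h : (N \ N').ncard = 0) (h' : N.ncard = N'.ncard) :
    N = N' :=
  Set.eq_of_subset_of_ncard_le (Set.sdiff_eq_empty.1 ((Set.ncard_eq_zero (Set.toFinite _)).1 h)) h'.ge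

end

theorem uniq {P : Type*} [Finite P] {X A H : Subgroup (Perm P)} {p0 b0 c0 r1 r2 r3 r4 r5 s1 s2 s3 s4 s5 s6 : P}
    (hP : Nat.card P = 4060) (hb0 : (orbit X b0).ncard = 1755) (hc0 : (orbit X c0).ncard = 2304)
    (h1 : ∀ N : Set P, (∀ g ∈ X, g b0 = b0 → ∀ y ∈ N, g y ∈ N) → N.ncard =
      (if p0 ∈ N then 1 else 0) + (if b0 ∈ N then 1 else 0) + (if r1 ∈ N then 10 else 0) + (if r2 ∈ N then 80 else 0) +
      (if r3 ∈ N then 1024 else 0) + (if r4 ∈ N then 640 else 0) + (if r5 ∈ N then 1280 else 0) + if c0 ∈ N then 1024 else 0)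
    (h2 : ∀ N : Set P, (∀ g ∈ X, g c0 = c0 → ∀ y ∈ N, g y ∈ N) → N.ncard =
      (if p0 ∈ N then 1 else 0) + (if c0 ∈ N then 1 else 0) + (if b0 ∈ N then 780 else 0) + (if s1 ∈ N then 975 else 0) +
      (if s2 ∈ N then 300 else 0) + (if s3 ∈ N then 650 else 0) + (if s4 ∈ N then 975 else 0) +
      (if s5 ∈ N then 300 else 0) + if s6 ∈ N then 78 else 0)
    {x : Perm P} (hx : x ∈ X) (hx1 : x c0 = r5) (hx2 : x s1 = b0)
    {Adj : P → P → Prop} (hA : ∀ g, g ∈ A ↔ ∀ u v, Adj (g u) (g v) ↔ Adj u v)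
    (hadj : ∀ y, Adj p0 y ↔ y ∈ orbit X b0) [IsPretransitive A P] (hAX : ∀ g, g ∈ X ↔ g ∈ A ∧ g p0 = p0)
    [IsPretransitive H P] (hHX : ∀ g, g ∈ X ↔ g ∈ H ∧ g p0 = p0) : H = A := by
  have key : ∀ K : Subgroup (Perm P), ∀ [IsPretransitive K P], (∀ g, g ∈ X ↔ g ∈ K ∧ g p0 = p0) →
      (p0 ∈ Nb K p0 b0 b0 ∧ b0 ∉ Nb K p0 b0 b0 ∧ r1 ∈ Nb K p0 b0 b0 ∧ r2 ∈ Nb K p0 b0 b0 ∧
        r3 ∉ Nb K p0 b0 b0 ∧ r4 ∈ Nb K p0 b0 b0 ∧ r5 ∉ Nb K p0 b0 b0 ∧ c0 ∈ Nb K p0 b0 b0) ∧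
      p0 ∉ Nb K p0 b0 c0 ∧ c0 ∉ Nb K p0 b0 c0 ∧ b0 ∈ Nb K p0 b0 c0 ∧ s1 ∉ Nb K p0 b0 c0 ∧
        s2 ∉ Nb K p0 b0 c0 ∧ s3 ∉ Nb K p0 b0 c0 ∧ s4 ∈ Nb K p0 b0 c0 ∧ s5 ∉ Nb K p0 b0 c0 ∧
        s6 ∉ Nb K p0 b0 c0 := by
    intro K _ hK
    obtain ⟨t, t1, t2⟩ := CfL.r3_swap (G := K) ((congrArg _ (orb_stab hK b0)).trans hb0)
      ((congrArg _ (orb_stab hK c0)).trans hc0) (by decide) (by decide) (by decide) hP
    have sy : ∀ {u v}, v ∈ Nb K p0 b0 u → u ∈ Nb K p0 b0 v := fun ⟨g, g1, g2, g3⟩ =>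
      ⟨g * t, mul_mem g1 t.2, (congrArg g t1).trans g3, (congrArg g t2).trans g2⟩
    have ir : ∀ u, u ∉ Nb K p0 b0 u := fun u ⟨g, _, g2, g3⟩ => by
      have := orb_fix fun x hx => ((hK x).1 hx).2
      rw [g.injective (g2.trans g3.symm), hb0] at this
      omega
    have iv : ∀ u, ∀ g ∈ X, g u = u → ∀ y ∈ Nb K p0 b0 u, g y ∈ Nb K p0 b0 u := fun u g hg e y hy =>
      e ▸ (Nb.smul ((hK g).1 hg).1).2 hy
    have a1 : p0 ∈ Nb K p0 b0 b0 := sy ⟨1, one_mem _, rfl, rfl⟩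
    have a2 : p0 ∉ Nb K p0 b0 c0 := fun h => by
      have := sy h
      rw [Nb.base hK, ← orbit_eq_iff] at this
      rw [this] at hc0
      omega
    have e1 := h1 _ (iv b0)
    have e2 := h2 _ (iv c0)
    rw [Nb.ncard hK, hb0] at e1 e2
    rw [if_pos a1, if_neg (ir b0)] at e1
    rw [if_neg a2, if_neg (ir c0)] at e2
    have a3 : b0 ∈ Nb K p0 b0 c0 := by
      by_contra h; rw [if_neg h] at e2; split_ifs at e2 <;> omega
    have a4 := sy a3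
    rw [if_pos a4] at e1
    rw [if_pos a3] at e2
    have a5 : r5 ∉ Nb K p0 b0 b0 := fun h => by
      rw [if_pos h] at e1; split_ifs at e1 <;> omega
    have a6 : s1 ∉ Nb K p0 b0 c0 := fun h => a5 (sy (by
      have := (Nb.smul ((hK x).1 hx).1).2 h
      rwa [hx1, hx2] at this))
    rw [if_neg a5] at e1
    rw [if_neg a6] at e2
    refine ⟨⟨a1, ir b0, ?_⟩, a2, ir c0, a3, a6, ?_⟩
    · split_ifs at e1 <;> first | omega | exact ⟨‹_›, ‹_›, ‹_›, ‹_›, ‹_›, ‹_›⟩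
    · split_ifs at e2 <;> first | omega | exact ⟨‹_›, ‹_›, ‹_›, ‹_›, ‹_›⟩
  have iv : ∀ u, ∀ g ∈ X, g u = u → ∀ y ∈ Nb H p0 b0 u \ Nb A p0 b0 u,
      g y ∈ Nb H p0 b0 u \ Nb A p0 b0 u := fun u g hg e y hy =>
    ⟨e ▸ (Nb.smul ((hHX g).1 hg).1).2 hy.1, fun h => hy.2 ((Nb.smul ((hAX g).1 hg).1).1 (e.symm ▸ h))⟩
  have kH := key H hHX
  have kA := key A hAX
  have e1 : Nb H p0 b0 b0 = Nb A p0 b0 b0 := eq_of_diff (by
    rw [h1 _ (iv b0)]; simp [kH, kA]) (by rw [Nb.ncard hHX, Nb.ncard hAX])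
  have e2 : Nb H p0 b0 c0 = Nb A p0 b0 c0 := eq_of_diff (by
    rw [h2 _ (iv c0)]; simp [kH, kA]) (by rw [Nb.ncard hHX, Nb.ncard hAX])
  have e3 : ∀ u v, v ∈ Nb H p0 b0 u ↔ Adj u v := fun u v => by
    have e4 : ∀ g : X, ∀ w, Nb H p0 b0 w = Nb A p0 b0 w → Nb H p0 b0 (g • w) = Nb A p0 b0 (g • w) :=
      fun g w h => Set.ext fun v => by
        obtain ⟨v, rfl⟩ := (g : Perm P).surjective v
        exact (Nb.smul ((hHX g).1 g.2).1).trans (h ▸ (Nb.smul ((hAX g).1 g.2).1).symm)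
    have e5 : Nb H p0 b0 u = Nb A p0 b0 u := by
      rcases CfL.r3_tri (G := H) ((congrArg _ (orb_stab hHX b0)).trans hb0)
        ((congrArg _ (orb_stab hHX c0)).trans hc0) (by decide) (by decide) (by decide) hP u with
        rfl | h | h
      · rw [Nb.base hHX, Nb.base hAX]
      all_goals
        rw [orb_stab hHX] at h
        obtain ⟨g, rfl⟩ := h
      exacts [e4 g _ e1, e4 g _ e2]
    obtain ⟨g, rfl⟩ := exists_smul_eq A p0 u
    obtain ⟨v, rfl⟩ := (g : Perm P).surjective v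
    rw [e5]
    exact (Nb.smul g.2).trans (by rw [Nb.base hAX, ← hadj]; exact ((hA g).1 g.2 _ _).symm)
  have hle : H ≤ A := fun h hh => (hA h).2 fun u v => by rw [← e3, ← e3, Nb.smul hh]
  refine le_antisymm hle fun a ha => ?_
  obtain ⟨h, e⟩ := exists_smul_eq H p0 (a p0)
  have := ((hHX _).1 ((hAX ((h : Perm P)⁻¹ * a)).2 ⟨mul_mem (inv_mem (hle h.2)) ha,
    Perm.inv_eq_iff_eq.2 e.symm⟩)).1
  rwa [H.mul_mem_cancel_left (inv_mem h.2)] at this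

theorem cj_back {P : Type*} {X Y : Subgroup (Perm P)} {h : Perm P} (hh : h ∈ X) {b : P}
    (e : ∃ y ∈ orbit X b, ∀ g ∈ cj h Y, g y = y) : ∃ y ∈ orbit X b, ∀ g ∈ Y, g y = y := by
  obtain ⟨_, ⟨k, rfl⟩, e⟩ := e
  exact ⟨_, ⟨⟨h⁻¹, inv_mem hh⟩ * k, rfl⟩, fun g hg =>
    (Perm.eq_inv_iff_eq (f := h)).2 (e (h * g * h⁻¹) (conj_mem_cj h hg) :)⟩

theorem cj_le_of {G : Type*} [Group G] {X Y : Subgroup G} {h : G} (hh : h ∈ X) (hY : Y ≤ X) :
    cj h Y ≤ X := (cj_mono h hY).trans (cj_eq_of_mem hh).le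

theorem exists_le_cj {G : Type*} [Group G] [Finite G] {p : ℕ} [Fact p.Prime] {X Y U : Subgroup G}
    (hU : SylIn p U X) (hY : Y ≤ X) (hd : Nat.card U ∣ Nat.card Y) : ∃ h ∈ X, U ≤ cj h Y := by
  obtain ⟨T, hT⟩ := exists_sylIn p Y
  obtain ⟨k, hk⟩ := IsPGroup.iff_card.1 hU.pgrp
  obtain ⟨h, h1, h2⟩ := (hU.of_card_le hT.pgrp (hT.le.trans hY) (by
    rw [hT.card_eq_multiplicity, hk]
    exact Nat.pow_le_pow_right (Fact.out : p.Prime).pos (((Fact.out : p.Prime).pow_dvd_iff_le_factorization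
      Nat.card_pos.ne').1 (hk ▸ hd)))).conj hU
  exact ⟨h, h1, h2 ▸ cj_mono h hT.le⟩

theorem clsC {P : Type*} [Finite P] {X U : Subgroup (Perm P)} (hX : Nat.card X = 35942400) (hU : U ≤ X)
    (hc : Nat.card U = 4096) {b0 : P} (hb : ∀ g ∈ U, g b0 = b0)
    (h : ∀ N : Set P, (∀ g ∈ U, ∀ y ∈ N, g y ∈ N) → b0 ∈ N → N.ncard ≠ 5) :
    ∀ Y ≤ X, Nat.card Y = 20480 → ∃ y ∈ orbit X b0, ∀ g ∈ Y, g y = y := by
  intro Y hY hY'
  have h1 := card_mul_relIndex hU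
  rw [hc, hX] at h1
  obtain ⟨k, k1, k2⟩ := exists_le_cj (p := 2) (sylIn_of_not_dvd hU (IsPGroup.of_card (n := 12) hc)
    (by omega)) hY (by rw [hc, hY']; decide)
  refine cj_back k1 ⟨b0, mem_orbit_self _, fun g hg => ?_⟩
  have h2 := CfL.card_orbit_mul (cj k Y) b0
  obtain ⟨m, hm⟩ := card_dvd_of_le (le_inf k2 fun g hg => (show g ∈ stabilizer (Perm P) b0 from hb g hg))
  rw [card_cj, hY', hm, hc] at h2
  have h3 := h (orbit (cj k Y) b0) (fun g hg _ ⟨l, e⟩ => ⟨⟨g, k2 hg⟩ * l, e ▸ rfl⟩) (mem_orbit_self _)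
  have h4 : (orbit (cj k Y) b0).ncard ∣ 5 := ⟨m, by linarith⟩
  obtain ⟨w, hw⟩ := Set.ncard_eq_one.1 (((Nat.dvd_prime Nat.prime_five).1 h4).resolve_right h3)
  exact (hw.le ⟨⟨g, hg⟩, rfl⟩).trans (hw.le (mem_orbit_self _)).symm

theorem cube_fix {P : Type*} {g : P → P} {c0 c1 c2 : P} (i : Function.Injective g) (h01 : c0 ≠ c1)
    (h12 : c1 ≠ c2) (h20 : c2 ≠ c0) (o0 : g c0 = c0 ∨ g c0 = c1 ∨ g c0 = c2)
    (o1 : g c1 = c0 ∨ g c1 = c1 ∨ g c1 = c2) (o2 : g c2 = c0 ∨ g c2 = c1 ∨ g c2 = c2)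
    (a : g c2 = c2 → g c0 ≠ c1) (b : g c1 = c1 → g c2 ≠ c0) : g (g (g c0)) = c0 := by
  have i01 := i.ne h01
  have i12 := i.ne h12
  have i20 := i.ne h20
  grind

theorem ar52 {m r : ℕ} (h1 : 13 * m ≤ 156) (h2 : 13 * m * r = 15600) (h3 : r ≡ 1 [MOD 13]) :
    13 * m = 52 := by
  unfold Nat.ModEq at h3
  have : m ≤ 12 := by omega
  interval_cases m <;> omega

theorem clsD {P : Type*} [Finite P] {X : Subgroup (Perm P)} (hX : Nat.card X = 35942400) {x y n : Perm P}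
    (hx : x ∈ X) (hy : y ∈ X) (hn : n ∈ X) (ox : orderOf x = 13) (oy : orderOf y = 4) {c0 c1 c2 : P}
    (x0 : x c0 = c0) (x1 : x c1 = c1) (x2 : x c2 = c2) (y0 : y c0 = c0) (y1 : y c1 = c1)
    (n0 : n c0 = c1) (n1 : n c1 = c2) (n2 : n c2 = c0)
    (hN : Nat.card (X ⊓ stabilizer (Perm P) c0 ⊓ stabilizer (Perm P) c1 : Subgroup (Perm P)) ≤ 52)
    (hF : ∀ z ∈ orbit X c0, x z = z → z = c0 ∨ z = c1 ∨ z = c2)
    (hO : ∀ g ∈ X, g c0 = c0 → g c1 ≠ c2) (h01 : c0 ≠ c1)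
    (hT : ∀ t ∈ X, ¬ (t c0 = c0 ∧ t c1 = c1) → t * y * t⁻¹ ∈ zpowers y → ∀ Y ≤ X, Nat.card Y = 15600 →
      X ⊓ stabilizer (Perm P) c0 ⊓ stabilizer (Perm P) c1 ≤ Y → t ∈ Y → ∃ z ∈ orbit X c0, ∀ g ∈ Y, g z = z) :
    ∀ Y ≤ X, Nat.card Y = 15600 → ∃ z ∈ orbit X c0, ∀ g ∈ Y, g z = z := by
  intro Y₀ hY₀ hc₀
  haveI : Fact (Nat.Prime 13) := ⟨by decide⟩
  have cx : Nat.card (zpowers x) = 13 := by rw [Nat.card_zpowers, ox]
  have cy : Nat.card (zpowers y) = 4 := by rw [Nat.card_zpowers, oy]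
  have h1 := card_mul_relIndex (zpowers_le.2 hx)
  rw [cx, hX] at h1
  have hS := sylIn_of_not_dvd (p := 13) (zpowers_le.2 hx) (IsPGroup.of_card (n := 1) cx) (by omega)
  obtain ⟨k, k1, k2⟩ := exists_le_cj hS hY₀ (by rw [cx, hc₀]; decide)
  refine cj_back k1 ?_
  have hY := cj_le_of k1 hY₀
  have hc := (card_cj k Y₀).trans hc₀
  generalize cj k Y₀ = Y at k2 hY hc
  set D := X ⊓ stabilizer (Perm P) c0 ⊓ stabilizer (Perm P) c1 with hD
  have hD' : Nat.card D = 52 := le_antisymm hN (Nat.le_of_dvd Nat.card_pos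
    (Nat.Coprime.mul_dvd_of_dvd_of_dvd (m := 13) (n := 4) (by decide)
      (cx ▸ card_dvd_of_le (zpowers_le.2 (⟨⟨hx, x0⟩, x1⟩ : x ∈ D)))
      (cy ▸ card_dvd_of_le (zpowers_le.2 (⟨⟨hy, y0⟩, y1⟩ : y ∈ D)))))
  have h12 : c1 ≠ c2 := fun e => h01 (n.injective (by rw [n0, n1, e]))
  have h20 : c2 ≠ c0 := fun e => h12 (n.injective (by rw [n1, n2, e]))
  set N := Y ⊓ Nm(zpowers x) with hN'
  have pm : ∀ g ∈ N, ∀ z ∈ orbit X c0, x z = z → g z = c0 ∨ g z = c1 ∨ g z = c2 := by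
    rintro g hg _ ⟨l, rfl⟩ hz
    refine hF _ ⟨⟨g, hY hg.1⟩ * l, rfl⟩ (Perm.inv_eq_iff_eq.1 ?_)
    exact zpowers_le.2 (show x ∈ stabilizer (Perm P) (l • c0) from hz) (conj_mem_of_mem_normalizer' hg.2 (mem_zpowers x))
  have p0 := fun g hg => pm g hg c0 (mem_orbit_self _) x0
  have p1 := fun g hg => pm g hg c1 ⟨⟨n, hn⟩, n0⟩ x1
  have p2 := fun g hg => pm g hg c2 ⟨⟨n * n, mul_mem hn hn⟩, (congrArg n n0).trans n1⟩ x2
  have f0 : ∀ g ∈ N, g c0 = c0 → g ∈ D := fun g hg e => ⟨⟨hY hg.1, e⟩, ((p1 g hg).resolve_left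
    fun e' => h01 (g.injective (e.trans e'.symm))).resolve_right (hO g (hY hg.1) e)⟩
  have f3 : ∀ g ∈ N, (g ^ 3) c0 = c0 := fun g hg => by
    have o1 := hO (n * g * n⁻¹) (mul_mem (mul_mem hn (hY hg.1)) (inv_mem hn))
    have o2 := hO (n⁻¹ * g * n) (mul_mem (mul_mem (inv_mem hn) (hY hg.1)) hn)
    rw [Perm.mul_apply, Perm.mul_apply, Perm.mul_apply, Perm.mul_apply] at o1 o2
    rw [Perm.inv_eq_iff_eq.2 n2.symm, Perm.inv_eq_iff_eq.2 n0.symm] at o1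
    rw [n0, n1, ne_eq, Perm.inv_eq_iff_eq, Perm.inv_eq_iff_eq, n0, n2] at o2
    rw [pow_three]
    exact cube_fix g.injective h01 h12 h20 (p0 g hg) (p1 g hg) (p2 g hg)
      (fun e e' => o1 (by rw [e, n2]) (by rw [e', n1])) o2
  have hNc : Nat.card N = 52 := by
    have a1 := CfL.card_orbit_mul N c0
    have a2 : (orbit N c0).ncard ≤ 3 := (Set.ncard_le_ncard (t := {c0, c1, c2})
      (by rintro _ ⟨g, rfl⟩; exact p0 g g.2)).trans (Set.ncard_insert_le _ _ |>.trans (by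
        have := Set.ncard_insert_le c1 ({c2} : Set P)
        rw [Set.ncard_singleton] at this; omega))
    have a3 := card_le_of_le (show N ⊓ stabilizer (Perm P) c0 ≤ D from fun g hg => f0 g hg.1 hg.2)
    have a4 : Nat.card N ≤ 156 := by rw [a1]; nlinarith
    have a5 := card_mul_relIndex (inf_le_left : N ≤ Y)
    have a6 := card_sylow_modEq_one 13 Y
    rw [Sylow.card_eq_index_normalizer (hS.mono k2 hY).toSylow] at a6
    change Nm((zpowers x).subgroupOf Y).index ≡ 1 [MOD 13] at a6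
    rw [← subgroupOf_normalizer_eq k2, ← inf_subgroupOf_left] at a6
    change N.relIndex Y ≡ 1 [MOD 13] at a6
    obtain ⟨m, hm⟩ := card_dvd_of_le (le_inf k2 le_normalizer : zpowers x ≤ N)
    rw [hm, cx] at a4 a5 ⊢
    exact ar52 a4 (a5.trans hc) a6
  have hND : N = D := eq_of_le_of_card_ge (fun g hg => by
    have := pow_card_eq_one' (x := (⟨g, hg⟩ : N))
    rw [hNc] at this
    have e : g ^ 52 = 1 := congrArg Subtype.val this
    rw [show g = (g ^ 3) ^ 35 by rw [← pow_mul, show 3 * 35 = 52 * 2 + 1 from rfl, pow_succ, pow_mul,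
      e, one_pow, one_mul]]
    exact pow_mem (f0 _ (pow_mem hg 3) (f3 g hg)) 35) (by rw [hD', hNc])
  have hDY : D ≤ Y := hND ▸ inf_le_left
  have py : IsPGroup 2 (zpowers y) := IsPGroup.of_card (n := 2) cy
  obtain ⟨T, hT1, hT2⟩ := exists_sylIn_ge py (zpowers_le.2 (hDY ⟨⟨hy, y0⟩, y1⟩))
  have b1 := lt_inf_Nm hT1.pgrp (lt_of_le_of_ne hT2 fun e => by
    have b2 := card_mul_relIndex hT1.le
    have b3 := hT1.not_dvd_relIndex
    rw [← e, cy, hc] at b2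
    rw [← e] at b3
    omega)
  obtain ⟨t, t1, t2⟩ := SetLike.not_le_iff_exists.1 (show ¬ T ⊓ Nm(zpowers y) ≤ D from fun e => by
    obtain ⟨j, hj⟩ := IsPGroup.iff_card.1 (hT1.pgrp.to_le (inf_le_left (b := Nm(zpowers y))))
    have b2 := card_lt_of_lt b1
    have b3 := card_dvd_of_le e
    rw [hj, cy] at b2
    rw [hj, hD'] at b3
    have : 3 ≤ j := by
      by_contra h
      interval_cases j <;> omega
    exact absurd ((pow_dvd_pow 2 this).trans b3) (by decide))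
  have t3 := hY (hT1.le t1.1)
  exact hT t t3 (fun e => t2 ⟨⟨t3, e.1⟩, e.2⟩) (conj_mem_of_mem_normalizer t1.2 (mem_zpowers y)) Y hY hc
    hDY (hT1.le t1.1)

end CfH9.RuG
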