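import Cfsg.Agent.H8.W0

/-! At most two `J(T)`-components in a 2-local overgroup of `T`. -/

set_option autoImplicit false
set_option linter.unusedSectionVars false

namespace CfH9.W

open Subgroup CfH9 Cfsg CfH8 CfH8.W
open scoped commutatorElement
universe u
variable {G : Type u} [Group G] [Finite G]

theorem elt {T H K P : Subgroup G} (h : W.LL T H) (hK : JC (JJ 2 T) K) (hKH : K ≤ H) (hP : SylIn 3 P H) :
    ∃ x ∈ P, x ∈ K ∧ orderOf x = 3 ∧ zpowers x ⊓ Cz(wOf K) = ⊥ := by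
  haveI : Fact (Nat.Prime 3) := ⟨Nat.prime_three⟩
  have s := (W.comp_subnIn h hK hKH).sylIn_inf hP
  have d : 3 ∣ Nat.card (P ⊓ K : Subgroup G) := by
    have e : 3 ∣ Nat.card K := hK.idx ▸ relIndex_dvd_card _ _
    rw [← card_mul_relIndex s.le] at e
    exact (Nat.prime_three.dvd_mul.1 e).resolve_right (sylIn_not_dvd_relIndex s)
  obtain ⟨x, hx⟩ := exists_prime_orderOf_dvd_card' 3 d
  refine ⟨x, x.2.1, x.2.2, by rw [orderOf_coe, hx], eq_bot_iff.2 fun y hy => ?_⟩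
  exact (IsPGroup.disjoint_of_ne 3 2 (by norm_num) P _ hP.pgrp (CfH7.isPGroup_pCoreOf K)).le_bot
    ⟨zpowers_le.2 x.2.1 hy.1, hK.inf_Cz_wOf ▸ mi (zpowers_le.2 x.2.2 hy.1) hy.2⟩

theorem p1 : P1.{u} := fun {G} _ _ hQ T g H K₁ K₂ K₃ TH O1 h1 h2 h3 l1 l2 l3 => by
  haveI : Fact (Nat.Prime 3) := ⟨Nat.prime_three⟩
  by_contra c
  rw [not_or, not_or] at c
  obtain ⟨n12, n13, n23⟩ := c
  have h := g.ll TH O1 h1 l1
  obtain ⟨P, hP⟩ := exists_sylIn 3 H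
  obtain ⟨x, xP, xK, xo, xc⟩ := elt h h1 l1 hP
  obtain ⟨y, yP, yK, yo, yc⟩ := elt h h2 l2 hP
  obtain ⟨z, zP, zK, zo, -⟩ := elt h h3 l3 hP
  have cm : ∀ {K K' : Subgroup G} {a b : G}, ⁅K, K'⁆ ≤ pCoreOf 2 H → a ∈ P → b ∈ P → a ∈ K → b ∈ K' →
      zpowers a ≤ Cz(zpowers b) := fun {K K' a b} e aP bP aK bK => by
    rw [zpowers_le, Cz_zpowers, mem_Cx, ← commutatorElement_eq_one_iff_mul_comm]
    exact (IsPGroup.disjoint_of_ne 3 2 (by norm_num) P _ hP.pgrp (CfH7.isPGroup_pCoreOf H)).le_bot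
      ⟨P.mul_mem (P.mul_mem (P.mul_mem aP bP) (P.inv_mem aP)) (P.inv_mem bP), e (commutator_mem_commutator aK bK)⟩
  have c12 := cm (W.comp_commutator_le h h1 l1 h2 l2 n12) xP yP xK yK
  have c13 := cm (W.comp_commutator_le h h1 l1 h3 l3 n13) xP zP xK zK
  have c23 := cm (W.comp_commutator_le h h2 l2 h3 l3 n23) yP zP yK zK
  have ea : ∀ {a : G}, orderOf a = 3 → IsElementaryAbelian 3 (zpowers a) := fun e =>
    elemAb_zpowers (by rw [← e, pow_orderOf_eq_one])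
  have c1 : zpowers x ≤ Cz(zpowers y ⊔ zpowers z) := by rw [Cz_sup]; exact le_inf c12 c13
  have E := CfH7.elemAb_sup (ea xo) (CfH7.elemAb_sup (ea yo) (ea zo) c23) c1
  have k1 := card_sup_mul_card_inf (c23.trans (Cz_le_Nm _))
  have k2 := card_sup_mul_card_inf (c1.trans (Cz_le_Nm _))
  rw [eq_bot_iff.2 ((inf_le_inf_left _ ((zpowers_le.2 zK).trans (W.comp_le_Cz_wOf h h2 l2 h3 l3 n23))).trans yc.le), card_bot,
    Nat.card_zpowers, Nat.card_zpowers, yo, zo] at k1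
  rw [eq_bot_iff.2 ((inf_le_inf_left _ (sup_le ((zpowers_le.2 yK).trans (W.comp_le_Cz_wOf h h1 l1 h2 l2 n12))
    ((zpowers_le.2 zK).trans (W.comp_le_Cz_wOf h h1 l1 h3 l3 n13)))).trans xc.le), card_bot, Nat.card_zpowers, xo] at k2
  have le : zpowers x ⊔ (zpowers y ⊔ zpowers z) ≤ Nm(pCoreOf 2 H) :=
    (sup_le (zpowers_le.2 xP) (sup_le (zpowers_le.2 yP) (zpowers_le.2 zP))).trans (hP.le.trans (CfH7.le_normalizer_pCoreOf H))
  have b := hQ 3 Nat.prime_three (by norm_num) _ ⟨_, CfH7.isPGroup_pCoreOf H, O1, rfl⟩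
    ((zpowers x ⊔ (zpowers y ⊔ zpowers z)).subgroupOf _) (haveI := E.1; inferInstance) fun a ha => Subtype.ext (E.2 a ha)
  rw [Nat.card_congr (subgroupOfEquivOfLe le).toEquiv] at b
  omega

end CfH9.W
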