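import Cfsg.Agent.H9.QuadEig2
import Cfsg.Agent.H9.WeakCl

/-! Glauberman: what happens if `Z(J(S))` does not control strong fusion. -/

set_option autoImplicit false
set_option linter.unusedSectionVars false

namespace CfH9

open Subgroup Cfsg CfH7
open scoped commutatorElement IsMulCommutative

universe u

variable {G : Type u} [Group G] {p : ℕ} [Finite G] [hp : Fact p.Prime]

theorem quad_eig_amb (hp2 : p ≠ 2) {L T M V U : Subgroup G} (hT : SylIn p T L)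
    (hM : MinOver T L M) (hVL : V ≤ L) (hLV : L ≤ Nm(V)) (hV : IsElementaryAbelian p V)
    (hU : U ≤ V) (hU0 : U ≠ ⊥) (hMU : M ≤ Nm(U)) (hC : ∀ u ∈ U, u ≠ 1 → L ⊓ Cx(u) ≤ M) {a : G}
    (ha : a ∈ T) (haO : a ∉ pCoreOf p L) (hq : Quad a V) {c : ℕ} (hc : ¬ p ∣ c) :
    (∃ n : G, ∃ u ∈ U, u ≠ 1 ∧ n * u * n⁻¹ = u ^ c) ∧ ∃ P n, P ≤ M ∧ n ∈ M ∧ FC p c P n := by
  have : (V.subgroupOf L).Normal := (normal_subgroupOf_iff_le_normalizer hVL).2 hLV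
  have hML := hM.lt.le
  obtain ⟨⟨n, u, hu, hu1, e⟩, P, m, p1, p2, p3⟩ := quad_eig hp2 (V := V.subgroupOf L)
    (U := U.subgroupOf L) (M := M.subgroupOf L) hT.subgroupOf_top
    ((minOver_map_iff L.subtype_injective).1 (by
      rwa [map_subgroupOf_eq_of_le hT.le, map_subtype_top, map_subgroupOf_eq_of_le hML]))
    (elemAb_subgroupOf hV L) (comap_mono hU)
    (fun e => hU0 (by rw [← map_subgroupOf_eq_of_le (hU.trans hVL), e, Subgroup.map_bot]))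
    (by rw [← subgroupOf_normalizer_eq (hU.trans hVL)]; exact comap_mono hMU)
    (fun u hu hu1 g hg => hC u hu (fun e => hu1 (Subtype.ext e))
      (mi g.2 (mem_Cx.2 (congrArg Subtype.val (mem_Cx.1 hg)))))
    (a := ⟨a, hT.le ha⟩) (hT.subgroupOf_top.pgrp.to_le (zpowers_le.2 ha))
    (fun e => haO ⟨_, e, rfl⟩) (fun b hb => Subtype.ext (hq _ hb)) hc
  exact ⟨⟨n, u, hu, fun h => hu1 (Subtype.ext h), congrArg Subtype.val e⟩, _, _,
    map_le_iff_le_comap.2 p1, p2, p3.map L.subtype_injective⟩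

theorem TJ_eq_of_isPGroup {e : ℕ} {S T : Subgroup G} (hS : SylIn p S ⊤) (hT : IsPGroup p T)
    (h : TJ e S ≤ T) : TJ e T = TJ e S := by
  obtain ⟨g, -, hg⟩ := hS.exists_cj_le hT le_top
  have h1 := cj_TJ_eq_of_le ((cj_mono g h).trans hg)
  rw [← cj_inj (g := g), cj_TJ, h1]
  exact TJ_eq_of_le (h1.ge.trans (cj_mono g h)) hg

/-- the conclusion of Glauberman's theorem -/
def ZJConcl (p c : ℕ) (S : Subgroup G) : Prop :=
  (∃ n : G, ∃ u ∈ ZJ 0 S, u ≠ 1 ∧ n * u * n⁻¹ = u ^ c) ∧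
    ∃ P n, P ≤ Nm(ZJ 0 S) ∧ n ∈ Nm(ZJ 0 S) ∧ FC p c P n

/-- a minimal counterexample -/
structure ZJMin (p c : ℕ) (S : Subgroup G) : Prop where
  syl : SylIn p S ⊤
  not_sc : ¬ SC ⊤ S (ZJ 0 S)
  not_concl : ¬ ZJConcl p c S
  ih : ∀ K T : Subgroup G, K ≠ ⊤ → SylIn p T K → TJ 0 S ≤ T → SC K T (ZJ 0 S)

namespace ZJMin

variable {c : ℕ} {S : Subgroup G} (h : ZJMin p c S)
include h

theorem k1 {K : Subgroup G} (hK : K ≠ ⊤) (hJ : TJ 0 S ≤ K) :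
    ∃ T, SylIn p T K ∧ S ⊓ K ≤ T ∧ TJ 0 S ≤ T ∧ SC K T (ZJ 0 S) := by
  obtain ⟨T, hT, hle⟩ := exists_sylIn_ge (h.syl.pgrp.to_le inf_le_left) (inf_le_right : S ⊓ K ≤ K)
  have := (le_inf (TJ_le S) hJ).trans hle
  exact ⟨T, hT, hle, this, h.ih K T hK hT this⟩

omit h in
theorem J_le_Cz {D : Subgroup G} (hD : D ≤ ZJ 0 S) : TJ 0 S ≤ Cz(D) :=
  le_centralizer_iff.1 (hD.trans (OZ_le_Cz _))

theorem Nm_ne_top {D : Subgroup G} (hD : D ≤ ZJ 0 S) (hc : ¬ D ≤ center G) : Nm(D) ≠ ⊤ := by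
  intro hn
  have : D.Normal := normal_iff_top_le_Nm.2 hn.ge
  obtain ⟨T, hT, hle, hJ, hsc⟩ := h.k1 (K := Cz(D))
    (fun e => hc (by rw [← Cz_top]; exact le_centralizer_iff.1 e.ge)) (J_le_Cz hD)
  obtain rfl : T = S ⊓ Cz(D) :=
    (h.syl.inf_normal' (top_le_Nm _) le_top).eq_of_le hT.pgrp hT.le hle
  refine h.not_sc ⟨ZJ_le S, fun z hz g _ hg => ?_⟩
  obtain ⟨k, hk, x, hx, rfl⟩ := hT.frattini (mem_Nm_of_normal g _)
  have h1 := Nm_le_Nm_TJ (e := 0) _ hx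
  rw [TJ_eq_of_le hJ inf_le_left] at h1
  have h2 := conj_mem_of_mem_normalizer (Nm_TJ_le_Nm_ZJ S h1) hz
  have e : k * x * z * (k * x)⁻¹ = k * (x * z * x⁻¹) * k⁻¹ := by group
  rw [e] at hg ⊢
  exact hsc.2 _ h2 k hk (mi hg (conj_mem_of_mem_normalizer (le_normalizer hk)
    (J_le_Cz hD (ZJ_le_TJ S h2))))

theorem k2 {D U Y : Subgroup G} (hD : D ≤ ZJ 0 S) (hc : ¬ D ≤ center G) (hU : U ≤ S)
    (hUD : U ≤ Nm(D)) (h1 : Y ≤ Nm(D)) (h2 : Y ≤ Nm(U)) : Y ≤ Nm(ZJ 0 S ⊓ U) := by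
  obtain ⟨T, -, hle, -, hsc⟩ := h.k1 (h.Nm_ne_top hD hc) ((J_le_Cz hD).trans (Cz_le_Nm D))
  exact (le_inf h1 h2).trans (hsc.le_Nm_inf ((le_inf hU hUD).trans hle))

theorem not_fc {D : Subgroup G} (hD : D ≤ ZJ 0 S) (hc : ¬ D ≤ center G) {P : Subgroup G} {n : G}
    (hP : P ≤ Nm(D)) (hn : n ∈ Nm(D)) (H : FC p c P n) :
    ∃ P n, P ≤ Nm(ZJ 0 S) ∧ n ∈ Nm(ZJ 0 S) ∧ FC p c P n := by
  obtain ⟨T, hT, -, -, hsc⟩ := h.k1 (h.Nm_ne_top hD hc) ((J_le_Cz hD).trans (Cz_le_Nm D))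
  obtain ⟨k, hk, hkP⟩ := hT.exists_cj_le H.pgrp hP
  have H' := H.conj k
  obtain ⟨m, hm, e⟩ := hsc.ctrlFus_of_comm hT (elemAb_ZJ S).1 _ hkP (k * n * k⁻¹)
    (mul_mem (mul_mem hk hn) (inv_mem hk)) ((cj_eq_of_mem_normalizer H'.nm).le.trans hkP)
  exact ⟨_, m, hkP.trans (hsc.le_Nm hT.le), hm.2, H'.congr e⟩

theorem sylIn_of_bad {U : Subgroup G} (hU : U ≤ S) (hDU : ZJ 0 S ⊓ center G ≤ U)
    (hc : ¬ ZJ 0 S ⊓ U ≤ center G) (hbad : ¬ Nm(U) ≤ Nm(ZJ 0 S ⊓ U))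
    (hT : Nm(S ⊓ Nm(U)) ≤ Nm(ZJ 0 S ⊓ (S ⊓ Nm(U))))
    (ih : ∀ X, X ≤ S → ZJ 0 S ⊓ center G ≤ X → Nat.card (S ⊓ Nm(U) : Subgroup G) <
      Nat.card (S ⊓ Nm(X) : Subgroup G) → Nm(X) ≤ Nm(ZJ 0 S ⊓ X)) :
    SylIn p (S ⊓ Nm(U)) Nm(U) := by
  have hUT : U ≤ S ⊓ Nm(U) := le_inf hU le_normalizer
  refine sylIn_of_sylIn_Nm inf_le_right ?_
  obtain ⟨R, hR, hTR⟩ := exists_sylIn_ge (h.syl.pgrp.to_le inf_le_left)
    (le_inf inf_le_right le_normalizer : S ⊓ Nm(U) ≤ Nm(U) ⊓ Nm(S ⊓ Nm(U)))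
  rcases hTR.eq_or_lt with e | e
  · rwa [← e] at hR
  have hD : ZJ 0 S ⊓ (S ⊓ Nm(U)) ≤ ZJ 0 S := inf_le_left
  obtain ⟨T, hT', hle, hJ, hsc⟩ := h.k1 (h.Nm_ne_top hD
    fun e => hc ((inf_le_inf_left _ hUT).trans e)) ((J_le_Cz hD).trans (Cz_le_Nm _))
  obtain ⟨k, hk, hkR⟩ := hT'.exists_cj_le hR.pgrp (hR.le.trans (inf_le_right.trans hT))
  obtain ⟨m, -, hm⟩ := h.syl.exists_cj_le hT'.pgrp le_top
  have hmZ : cj m (ZJ 0 S) = ZJ 0 S := cj_eq_of_mem_normalizer (Nm_TJ_le_Nm_ZJ S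
    (mem_normalizer_iff_cj.2 (cj_TJ_eq_of_le ((cj_mono m hJ).trans hm))))
  have hUR := hUT.trans hTR
  have hUT' : U ≤ T := (le_inf hU (hUT.trans (le_normalizer.trans hT))).trans hle
  have e1 : cj k (ZJ 0 S ⊓ U) = ZJ 0 S ⊓ cj k U := by
    refine le_antisymm (le_inf (hsc.cj_le inf_le_left hk
      ((cj_mono k (inf_le_right.trans hUR)).trans hkR)) (cj_mono k inf_le_right)) ?_
    have h1 : cj k⁻¹ (ZJ 0 S ⊓ cj k U) ≤ U := le_cj_iff.1 inf_le_right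
    exact le_cj_iff.2 (le_inf (hsc.cj_le inf_le_left (inv_mem hk) (h1.trans hUT')) h1)
  have e2 : cj (m * k) (ZJ 0 S ⊓ U) = ZJ 0 S ⊓ cj (m * k) U := by
    rw [cj_mul, cj_mul, e1, cj_inf, hmZ]
  have hRS : cj (m * k) R ≤ S := by rw [cj_mul]; exact (cj_mono m hkR).trans hm
  have h1 := ih (cj (m * k) U) ((cj_mono _ hUR).trans hRS)
    ((cj_eq_of_mem_centralizer (X := ZJ 0 S ⊓ center G)
      fun z hz => (mem_center_iff.1 hz.2 _).symm).ge.trans (cj_mono _ hDU))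
    ((card_lt_of_lt e).trans_le ((card_cj (m * k) R).ge.trans (card_le_of_le
      (le_inf hRS ((cj_mono _ (hR.le.trans inf_le_left)).trans (cj_normalizer _ U).le)))))
  rw [← e2, ← cj_normalizer, ← cj_normalizer, cj_le_cj_iff] at h1
  exact absurd h1 hbad

omit h in
theorem exists_quad_top (hp2 : p ≠ 2) {L B : Subgroup G} (hS : SylIn p S L) {w : G}
    (hw : w ∈ ZJ 0 S) (hB : B = nclo (zpowers w) L) (hBS : B ≤ S)
    (hBB : ⁅B, B⁆ ≤ ZJ 0 S ⊓ center G) (hL : ¬ L ≤ Nm(ZJ 0 S)) :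
    ∃ a ∈ S, a ∉ pCoreOf p L ∧ Quad a B := by
  have hQS : pCoreOf p L ≤ S :=
    hS.le_of_le_Nm (isPGroup_pCoreOf L) (pCoreOf_le L) (hS.le.trans (le_normalizer_pCoreOf L))
  have hLB : L ≤ Nm(B) := hB ▸ right_le_Nm_nclo _ _
  obtain ⟨A, hA, hAQ⟩ : ∃ A, MaxEA 0 S A ∧ ¬ A ≤ pCoreOf p L := by
    by_contra hn
    push Not at hn
    have := (le_normalizer_pCoreOf (p := p) L).trans (Nm_le_Nm_TJ (e := 0) _)
    rw [TJ_eq_of_le (TJ_le_iff.2 hn) hQS] at this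
    exact hL (this.trans (Nm_TJ_le_Nm_ZJ S))
  obtain ⟨A', h1, h2, h3⟩ := exists_maxEA_normalized (B := B) (fun A => ¬ A ≤ pCoreOf p L)
    (fun A hA _ hn => by
      obtain ⟨A', h1, h2, h3, -⟩ := glauberman_replacement hp2 hS.pgrp hA hBS
        (hA.le.trans (hS.le.trans hLB)) (comm_eq_bot_left.2 ((hBB.trans inf_le_right).trans
          fun z hz g _ => mem_center_iff.1 hz g)) (hBB.trans (inf_le_left.trans hA.ZJ_le)) hn
      refine ⟨A', h1, fun hle => hn (le_trans ?_ ((h1.mono hle hQS).ZJ_le.trans h3)), h2⟩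
      rw [hB]
      exact nclo_le ((le_normalizer_pCoreOf L).trans (Nm_le_Nm_ZJ _))
        (zpowers_le.2 (h1.ZJ_le_ZJ hle hQS hw))) hA hAQ
  obtain ⟨a, ha, ha'⟩ := SetLike.not_le_iff_exists.1 h2
  exact ⟨a, h1.le ha, ha', quad_of_commutator (eq_bot_iff.2
    ((commutator_mono ((commutator_mono le_rfl (zpowers_le.2 ha)).trans (comm_le_right h3))
      (zpowers_le.2 ha)).trans (comm_eq_bot_left.2 (le_Cz_of_comm h1.comm)).le))⟩

theorem good (hp2 : p ≠ 2) (hc : ¬ p ∣ c) (T : Subgroup G) : ∀ U, U ≤ S →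
    ZJ 0 S ⊓ center G ≤ U → S ⊓ Nm(U) = T → Nm(U) ≤ Nm(ZJ 0 S ⊓ U) := by
  induction T using subgroup_induction_down with | h T ihT => ?_
  intro U hU hDU hTe
  by_contra hbad
  set Z := ZJ 0 S with hZ
  set D := Z ⊓ center G with hDd
  have hDn : D.Normal := normal_of_forall_mem_Nm fun g =>
    Cz_le_Nm _ fun z hz => (mem_center_iff.1 hz.2 _).symm
  have hcen : ¬ Z ⊓ U ≤ center G := fun e => hbad fun g _ =>
    Cz_le_Nm _ fun z hz => (mem_center_iff.1 (e hz) _).symm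
  have hTS : T ≤ S := hTe ▸ inf_le_left
  have hUT : U ≤ T := hTe ▸ le_inf hU le_normalizer
  have hSZ : S ≤ Nm(Z) := le_normalizer.trans (Nm_le_Nm_ZJ S)
  have ih : ∀ X, X ≤ S → D ≤ X → T ≠ S → Nm(T) ≤ Nm(X) → Nm(X) ≤ Nm(Z ⊓ X) :=
    fun X h1 h2 h3 h4 => ihT _ (card_lt_of_lt ((lt_inf_Nm h.syl.pgrp (hTS.lt_of_ne h3)).trans_le
      (inf_le_inf_left _ h4))) X h1 h2 rfl
  have hTg : Nm(T) ≤ Nm(Z ⊓ T) := by
    by_cases e : T = S
    · rw [e, inf_eq_left.2 (ZJ_le S)]; exact Nm_le_Nm_ZJ S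
    · exact ih T hTS (hDU.trans hUT) e le_rfl
  have hT : SylIn p T Nm(U) := hTe ▸ h.sylIn_of_bad hU hDU hcen hbad (hTe ▸ hTg)
    fun X h1 h2 h3 => ihT _ (hTe ▸ h3) X h1 h2 rfl
  obtain ⟨L, ⟨l1, l2, l3⟩, -, hL⟩ := exists_minimal_le
    (fun L => T ≤ L ∧ L ≤ Nm(U) ∧ ¬ L ≤ Nm(Z ⊓ U)) (A := Nm(U)) ⟨hT.le, le_rfl, hbad⟩
  have hTL : SylIn p T L := hT.mono l1 l2
  have hUL := hUT.trans l1
  have hm0 : UMax T L (L ⊓ Nm(Z ⊓ U)) := ⟨le_inf l1 fun g hg => mem_Nm_inf (hSZ (hTS hg)) (hT.le hg),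
    inf_lt_left.2 l3, fun X h1 h2 => le_inf h2.le (by
      by_contra hn
      exact h2.ne (hL X ⟨h1, h2.le.trans l2, hn⟩ h2.le))⟩
  have hm : MinOver T L (L ⊓ Nm(Z ⊓ U)) := ⟨hm0, hm0.eq_of_not_le (le_nclo _ _)
    (nclo_le_of_le l1) fun e => l3 (((hTL.mono (le_nclo _ _) (nclo_le_of_le l1)).frattini_sup
      (right_le_Nm_nclo _ _) (nclo_le_of_le l1)).ge.trans (sup_le (e.trans inf_le_right)
        (h.k2 inf_le_left (fun e => hcen ((inf_le_inf_left _ hUT).trans e)) hU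
          (hUT.trans (le_normalizer.trans hTg)) (inf_le_right.trans hTg) (inf_le_left.trans l2))))⟩
  set π := QuotientGroup.mk' D
  have hker : π.ker = D := QuotientGroup.ker_mk' D
  have hDp : IsPGroup p D := h.syl.pgrp.to_le (hDU.trans hU)
  have hk : IsPGroup p (L ⊓ π.ker : Subgroup G) := hDp.to_le (inf_le_right.trans hker.le)
  have hT' := hTL.map π
  have hm' := hm.map π (inf_le_right.trans (hker.le.trans (hDU.trans (hUT.trans hm0.le))))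
  obtain ⟨_, ⟨w, hw, rfl⟩, hwo, hwT⟩ := exists_central_orderOf_prime hT'.pgrp
    ((h.syl.pgrp.to_le (inf_le_right.trans hU : Z ⊓ U ≤ S)).map π)
    (map_le_Nm_map (hm0.le.trans inf_le_right) π) (by
      rw [Ne, Subgroup.map_eq_bot_iff, hker]
      exact fun e => hcen (e.trans inf_le_right))
  have hwD : w ∉ center G := fun e => ne_one_of_orderOf_eq_prime hwo
    ((QuotientGroup.eq_one_iff _).2 (mi hw.1 e))
  set O := pCoreOf p (L.map π)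
  have hLO : L.map π ≤ Nm(O) := le_normalizer_pCoreOf _
  have hOT : O ≤ T.map π := hT'.le_of_le_Nm (isPGroup_pCoreOf _) (pCoreOf_le _) (hT'.le.trans hLO)
  have hUO : U.map π ≤ O :=
    le_pCoreOf (map_mono hUL) (map_le_Nm_map l2 π) ((h.syl.pgrp.to_le hU).map π)
  set B := nclo (zpowers w) L with hB
  have hBU : B ≤ U := nclo_le l2 (zpowers_le.2 hw.2)
  have hV : B.map π = nclo (zpowers (π w)) (L.map π) := by rw [map_nclo, MonoidHom.map_zpowers]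
  have hVO : B.map π ≤ Cz(O) := hV ▸ nclo_le (hLO.trans (Nm_le_Nm_Cz O))
    (zpowers_le.2 (Cz_anti hOT hwT))
  have hVc : IsMulCommutative (B.map π) := comm_iff.2 fun a ha b hb =>
    hVO hb a (hUO (map_mono hBU ha))
  have hVe : IsElementaryAbelian p (B.map π) := ⟨hVc, by
    rw [hV] at hVc ⊢
    exact fun v hv => pow_mem_of_nclo (Y := ⊥) (le_Nm_normal _ _) hVc
      (pow_eq_one_of_orderOf hwo) hv⟩
  have hLB : L ≤ Nm(B) := right_le_Nm_nclo _ _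
  obtain ⟨a, ha, haO, hq⟩ : ∃ a ∈ T.map π, a ∉ O ∧ Quad a (B.map π) := by
    by_cases e : T = S
    · obtain ⟨a, h1, h2, h3⟩ := exists_quad_top hp2 (e ▸ hTL) hw.1 hB (hBU.trans hU)
        (by rw [← hDd, ← hker, ← Subgroup.map_eq_bot_iff, map_commutator]
            exact comm_eq_bot_left.2 (le_Cz_of_comm hVc))
        (fun e => l3 fun g hg => mem_Nm_inf (e hg) (l2 hg))
      rw [← e] at h1
      refine ⟨_, mem_map_of_mem π h1, fun h4 => h2 ?_, h3.map π⟩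
      rw [← zpowers_le, ← map_le_pCoreOf_iff (zpowers_le.2 (l1 h1)) hk, MonoidHom.map_zpowers]
      exact zpowers_le.2 h4
    · have key := exists_maxEA_quadratic (e := 0) (K := O) hT'.pgrp
        (map_mono (hBU.trans hUT)) (map_le_Nm_map (l1.trans hLB) π) (elemAb_zero_iff.2 hVc)
        (inf_le_right.trans (le_centralizer_iff.1 hVO)) fun hJ => ?_
      · obtain ⟨A, h1, h2, h3⟩ := key
        obtain ⟨a, ha, ha'⟩ := SetLike.not_le_iff_exists.1 h2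
        exact ⟨a, h1.le ha, ha', quad_of_commutator (eq_bot_iff.2 ((commutator_mono
          (commutator_mono le_rfl (zpowers_le.2 ha)) (zpowers_le.2 ha)).trans h3.le))⟩
      have hN : ∀ Y, Y.map π ≤ Nm(TJ 0 (T.map π)) → Y ≤ Nm((TJ 0 (T.map π)).comap π) :=
        fun Y hY g hg => mem_Nm_comap (hY (mem_map_of_mem π hg))
      have hXT : (TJ 0 (T.map π)).comap π ≤ T := (comap_mono (TJ_le _)).trans
        (comap_map_eq_self (hker.le.trans (hDU.trans hUT))).le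
      have hLX := (hN L (by
        rw [← TJ_eq_of_le hJ hOT]
        exact hLO.trans (Nm_le_Nm_TJ O))).trans (ih _ (hXT.trans hTS) (hker.ge.trans (ker_le_comap _ _))
          e (hN _ ((le_normalizer_map π).trans (Nm_le_Nm_TJ _))))
      refine l3 (h.k2 inf_le_left (fun e => hwD (e (mi hw.1 ?_))) hU (hUL.trans hLX) hLX l2)
      refine ZJ_le_TJ _ (OZ_le_ZJ _ ?_)
      rw [OZ_zero]
      exact mi (mem_map_of_mem π (hUT hw.2)) hwT
  obtain ⟨⟨n, _, ⟨-, u, hu, rfl⟩, hu1, e⟩, P, _, p1, ⟨m, hm1, rfl⟩, p3⟩ := quad_eig_amb hp2 hT' hm'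
    (map_mono (hBU.trans hUL)) (map_le_Nm_map hLB π) hVe (U := B.map π ⊓ (Z ⊓ U).map π)
    inf_le_left (ne_bot_of_mem (mi (mem_map_of_mem π (le_nclo _ _ (mem_zpowers w)))
      (mem_map_of_mem π hw)) (ne_one_of_orderOf_eq_prime hwo))
    (fun g hg => mem_Nm_inf (map_le_Nm_map (inf_le_left.trans hLB) π hg)
      (map_le_Nm_map inf_le_right π hg)) (by
      rintro _ ⟨hu0, u, hu, rfl⟩ hu1 _ ⟨⟨g, hg, rfl⟩, hg'⟩
      have hN : ∀ g, π g ∈ Cx(π u) → g ∈ Nm((zpowers (π u)).comap π) := fun g hg =>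
        mem_Nm_comap (Cz_le_Nm _ (by rwa [Cz_zpowers]))
      refine mem_map_of_mem π (mi hg (h.k2 (D := (zpowers (π u)).comap π) ?_
        (fun e => hu1 ((QuotientGroup.eq_one_iff _).2 (mi hu.1 (e (mem_zpowers _))))) hU
        (fun y hy => hN y (mem_Cx.2 (hVO hu0 _ (hUO (mem_map_of_mem π hy)))))
        (zpowers_le.2 (hN g hg')) (zpowers_le.2 (l2 hg)) (mem_zpowers g)))
      rw [← MonoidHom.map_zpowers, comap_map_eq, hker]
      exact sup_le (zpowers_le.2 hu.1) inf_le_left) ha haO hq hc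
  refine h.not_concl ⟨?_, h.not_fc inf_le_left hcen (P := P.comap π) ((comap_mono p1).trans
    ((comap_map_eq_self (hker.le.trans (hDU.trans (hUT.trans hm0.le)))).le.trans inf_le_right))
    hm1.2 (p3.comap (fun y _ => QuotientGroup.mk'_surjective D y) (hDp.to_le hker.le))⟩
  obtain ⟨n, rfl⟩ := QuotientGroup.mk'_surjective D n
  have hY : (zpowers (π u)).comap π ≤ Z := by
    rw [← MonoidHom.map_zpowers, comap_map_eq, hker]
    exact sup_le (zpowers_le.2 hu.1) inf_le_left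
  have hpw : ∀ y ∈ zpowers (π u), π n * y * (π n)⁻¹ = y ^ c := by
    rintro _ ⟨k, rfl⟩
    simp only
    rw [← conj_zpow, e, ← zpow_natCast, ← zpow_natCast, ← zpow_mul, ← zpow_mul, mul_comm]
  obtain ⟨y, hy, hy'⟩ := exists_eigen (R := D) (n := n) (c := c) (comm_of_le hY (elemAb_ZJ S).1)
    (mem_Nm_comap (mem_normalizer_of_conj_mem fun y hy => by rw [hpw y hy]; exact pow_mem hy c))
    (fun e => hu1 ((QuotientGroup.eq_one_iff _).2 (e (mem_zpowers _)))) fun y hy => by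
      rw [← hker, MonoidHom.mem_ker, map_mul, map_mul, map_mul, map_inv, map_inv, map_pow,
        hpw _ hy, mul_inv_cancel]
  exact ⟨n, y, hY hy, hy'⟩

theorem elim (hp2 : p ≠ 2) (hc : ¬ p ∣ c) : False := by
  have := alperin_ind h.syl (fun Q g => cj g (ZJ 0 S ⊓ Q) ≤ ZJ 0 S)
    (fun Q Q' g h1 _ _ _ h2 => (cj_mono g (inf_le_inf_left _ h1)).trans h2)
    (fun Q g k _ _ _ _ _ h1 h2 => by
      rw [cj_mul]
      exact (cj_mono k (le_inf h1 (cj_mono g inf_le_right))).trans h2)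
    (fun Q hQ _ _ n _ hn => (cj_mono n (inf_le_inf_left _ le_sup_left)).trans
      ((cj_eq_of_mem_normalizer (h.good hp2 hc _ (Q ⊔ ZJ 0 S ⊓ center G)
        (sup_le hQ (inf_le_left.trans (ZJ_le S))) le_sup_right rfl (mem_Nm_sup hn
          (Cz_le_Nm _ fun z hz => (mem_center_iff.1 hz.2 _).symm)))).le.trans inf_le_left))
  refine h.not_sc ⟨ZJ_le S, fun z hz g _ hg => ?_⟩
  exact this (zpowers z) (zpowers_le.2 (ZJ_le S hz)) g trivial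
    (by rwa [cj_zpowers, zpowers_le]) (conj_mem_cj g (mi hz (mem_zpowers z)))

end ZJMin

omit [Finite G] in
theorem zj_fail (hp2 : p ≠ 2) {c : ℕ} (hc : ¬ p ∣ c) (G : Type u) [Group G] [Finite G] :
    ∀ S : Subgroup G, SylIn p S ⊤ → ¬ SC ⊤ S (ZJ 0 S) → ZJConcl p c S := by
  refine group_induction (P := fun G _ _ => ∀ S : Subgroup G, SylIn p S ⊤ →
    ¬ SC ⊤ S (ZJ 0 S) → ZJConcl p c S) (fun G _ _ ih => ?_) G
  intro S hS hsc
  by_contra hn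
  refine ZJMin.elim ⟨hS, hsc, hn, fun K T hK hT hJ => ?_⟩ hp2 hc
  have e : (ZJ 0 (T.subgroupOf K)).map K.subtype = ZJ 0 S := by
    rw [map_ZJ_of_injective K.subtype_injective, map_subgroupOf_eq_of_le hT.le, ZJ,
      TJ_eq_of_isPGroup hS hT.pgrp hJ]
  by_contra hsc'
  obtain ⟨⟨n, u, hu, hu1, e1⟩, P, m, p1, p2, p3⟩ := ih K (card_lt_of_ne_top hK) _
    hT.subgroupOf_top fun h => hsc' ⟨(ZJ_le_TJ S).trans hJ, by
      rw [← e]
      rintro _ ⟨x, hx, rfl⟩ g hg hgx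
      exact ⟨_, h.2 x hx ⟨g, hg⟩ trivial hgx, rfl⟩⟩
  exact hn ⟨⟨n, u, e ▸ mem_map_of_mem _ hu, fun h => hu1 (Subtype.ext h), congrArg Subtype.val e1⟩,
    _, _, e ▸ map_le_Nm_map p1 _, e ▸ le_normalizer_map _ (mem_map_of_mem _ p2),
    p3.map K.subtype_injective⟩

/-- Burnside's argument: `N(J(S))` controls fusion in `Z(J(S))` -/
theorem exists_mem_Nm_TJ {e : ℕ} {S : Subgroup G} (hS : SylIn p S ⊤) {u n : G}
    (hu : u ∈ Cz(TJ e S)) (hn : n * u * n⁻¹ ∈ Cz(TJ e S)) :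
    ∃ m ∈ Nm(TJ e S), m * u * m⁻¹ = n * u * n⁻¹ := by
  have hJ : IsPGroup p (TJ e S) := hS.pgrp.to_le (TJ_le S)
  obtain ⟨T, hT, hle⟩ := exists_sylIn_ge hJ (le_Cx_iff.2 hn)
  obtain ⟨k, hk, hkT⟩ := hT.exists_cj_le (isPGroup_cj hJ n)
    ((cj_mono n (le_Cx_iff.2 hu)).trans (cj_Cx n u).le)
  refine ⟨k * n, ?_, ?_⟩
  · rw [← cj_mul, ← TJ_eq_of_isPGroup hS hT.pgrp hle] at hkT
    rw [← TJ_eq_of_isPGroup hS hT.pgrp hle]
    exact mem_normalizer_iff_cj.2 (cj_TJ_eq_of_le hkT)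
  · conv_rhs => rw [← mem_Cx'.1 hk]
    group

/-- an element of order `p` in `Z(J(S))` raised to its `c`-th power by `N(Z(J(S)))` -/
theorem ZJConcl.eigen {c : ℕ} {S : Subgroup G} (hS : SylIn p S ⊤) (h : ZJConcl p c S) :
    ∃ u ∈ ZJ 0 S, orderOf u = p ∧ ∃ n ∈ Nm(ZJ 0 S), n * u * n⁻¹ = u ^ c := by
  obtain ⟨⟨n, u, hu, hu1, e⟩, -⟩ := h
  obtain ⟨k, hk⟩ := isPGroup_iff_mem.1 hS.pgrp u (ZJ_le S hu)
  obtain ⟨j, hj⟩ := exists_pow_orderOf_eq_prime hk hu1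
  have e' : n * u ^ j * n⁻¹ = (u ^ j) ^ c := by rw [← conj_pow, e, ← pow_mul, ← pow_mul, mul_comm]
  obtain ⟨m, hm, e''⟩ := exists_mem_Nm_TJ (e := 0) hS (n := n) (OZ_le_Cz _ (pow_mem hu j))
    (e' ▸ OZ_le_Cz _ (pow_mem (pow_mem hu j) c))
  exact ⟨_, pow_mem hu j, hj, m, Nm_TJ_le_Nm_ZJ S hm, e''.trans e'⟩

end CfH9
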