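import Cfsg.Agent.FT.PF7
import Cfsg.Agent.FT.BG3c

/-! Zassenhaus groups of even degree: characters. -/

set_option autoImplicit false
set_option linter.unusedSectionVars false

namespace CfH9.Zf

open CfFT CfFT.PF Cfsg CfH4 CfH5 CfH9
open Subgroup hiding one
open scoped ComplexConjugate Classical commutatorElement

universe u
variable {G : Type u} [Group G] [Fintype G]

structure ZD (L H E D : Subgroup G) (t : G) (h e : ℕ) : Prop where
  frob : FrobKer L H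
  ti : NTI (shp H) ⊤ L
  odd : Odd (Nat.card L)
  cH : Nat.card H = h
  cE : Nat.card E = e
  cL : Nat.card L = h * e
  cG : Nat.card G = (h + 1) * (h * e)
  cC : Nat.card Cx(t) = h + 1
  EL : E ≤ L
  e1 : 1 < e
  bru : ∀ y, y ∉ L → ∃ l ∈ L, ∃ l' ∈ L, y = l * t * l'
  ot : orderOf t = 2
  inv : ∀ x ∈ E, t * x * t⁻¹ = x⁻¹
  memE : ∀ x ∈ L, t * x * t⁻¹ ∈ L → x ∈ E
  fac : ∀ g ∈ L, ∃ u ∈ H, ∃ x ∈ E, g = u * x
  EH : ∀ x ∈ E, ∀ g, g * x * g⁻¹ ∈ H → x = 1
  Eti : ∀ x ∈ E, x ≠ 1 → ∀ y, y * x * y⁻¹ ∈ L → y ∈ L ∨ y * t ∈ L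
  CL : ∀ x ∈ L, ∀ g, g * x * g⁻¹ ∈ Cx(t) → x = 1
  cj : ∀ s : G, orderOf s = 2 → IsConj t s
  ED : E ≤ D
  DN : D ≤ Nm(E)
  iD : E.relIndex D = 2
  Dt : ∀ g ∈ D, g ∉ E → orderOf g = 2
  prod : ∀ x y : G, orderOf x = 2 → orderOf y = 2 → x * y ∉ cls ⊤ (shp H)

theorem ip_delta {K : Subgroup G} {α β : G → ℂ} (hα : α ∈ supOn (K : Set G))
    (h : ∀ x ∈ K, x ≠ 1 → β x = 0) (h1 : β 1 = Nat.card K) : ip K α β = α 1 := by
  rw [ip, Finset.sum_eq_single 1 (fun x _ hx => ?_) (by simp), h1, map_natCast]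
  · have := cardC_ne K
    field_simp
  · by_cases k : x ∈ K
    · rw [h x k hx, map_zero, mul_zero]
    · rw [hα x k, zero_mul]

namespace ZD
variable {L H E D : Subgroup G} {t : G} {h e : ℕ} (Z : ZD L H E D t h e) {μ ν χ : G → ℂ}
include Z

local notation "P" => ind ⊤ L (one L)
local notation "Q" => ind ⊤ H (one H)
local notation "π" => ind ⊤ Cx(t) (one Cx(t))

theorem idx : H.relIndex L = e := by
  have := relIndex_mul_relIndex ⊥ H L bot_le Z.frob.le
  rw [relIndex_bot_left, relIndex_bot_left, Z.cH, Z.cL] at this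
  exact Nat.eq_of_mul_eq_mul_left (Z.cH ▸ Nat.card_pos) this
theorem le_h : 2 * e + 1 ≤ h := Z.idx ▸ Z.cH ▸ Z.frob.two_mul_le Z.odd
theorem h0 : (h : ℂ) ≠ 0 := Nat.cast_ne_zero.2 (by have := Z.le_h; omega)
theorem e0 : (e : ℂ) ≠ 0 := Nat.cast_ne_zero.2 (by have := Z.e1; omega)

theorem ind_top_one (K : Subgroup G) : ind ⊤ K (one K) 1 = (h + 1) * (h * e) / Nat.card K := by
  rw [ind_one le_top, ← card_div le_top, card_top, Z.cG, one_one]
  push_cast; ring

theorem mackey (hμ : μ ∈ cf L) (hν : ν ∈ vc L) :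
    ip ⊤ (ind ⊤ L μ) (ind ⊤ L ν) = ip L μ ν + ip E (res E μ) (star ν) := by
  have k1 : ∀ x, ip L μ (cfj x ν) = ip L μ (cfj t ν) + if x ∈ L then ip L μ ν - ip L μ (cfj t ν) else 0 :=
    fun x => by
      split_ifs with hx
      · rw [cfj_of_mem (vc_cf hν) hx]; ring
      · obtain ⟨l, hl, l', hl', rfl⟩ := Z.bru x hx
        rw [cfj_mul, cfj_mul, cfj_of_mem (vc_cf hν) hl, add_zero, ← ip_cfj l' μ (cfj t ν), cfj_of_mem hμ hl']
  have k2 : ip E μ (cfj t ν) = ip E (res E μ) (star ν) := by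
    rw [ip, ip]
    congr 1
    refine Finset.sum_congr rfl fun g _ => ?_
    by_cases hg : g ∈ E
    · rw [res_of_mem _ hg, cfj_apply, Z.inv g hg, vc_inv hν, star_apply']
    · rw [res_of_not_mem _ hg, zero_mul, cfj_apply]
      by_cases k : g ∈ L
      · rw [cf_zero (vc_cf hν) (mt (Z.memE g k) hg), map_zero, mul_zero]
      · rw [cf_zero hμ k, zero_mul]
  rw [ip_ind_left _ (ind_top_cf ν), ind_eq_sum, ip_smul_right, ip_sum_right, fs_top,
    Finset.sum_congr rfl fun x _ => k1 x, Finset.sum_add_distrib, sum_ite_fs, sum_fs_const, Finset.sum_const,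
    Finset.card_univ, ← Nat.card_eq_fintype_card, ← k2, ip_change L E μ (cfj t ν), Z.cG, Z.cL, Z.cE]
  have := Z.h0
  have := Z.e0
  simp only [map_inv₀, map_natCast, nsmul_eq_mul]
  push_cast
  field_simp
  ring

theorem Ecomm {x y : G} (hx : x ∈ E) (hy : y ∈ E) : x * y = y * x := by
  have := Z.inv _ (mul_mem hx hy)
  rw [← conj_mul, Z.inv x hx, Z.inv y hy, ← mul_inv_rev, inv_inj] at this
  exact this.symm

theorem lin (hμ : Irr L μ) (hk : H ≤ charKer μ) : μ 1 = 1 := by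
  refine hμ.one_of_comm_le (le_trans (commutator_le.2 fun a ha b hb => ?_) hk)
  obtain ⟨u, hu, x, hx, rfl⟩ := Z.fac a ha
  obtain ⟨v, hv, y, hy, rfl⟩ := Z.fac b hb
  have k := fun x hx u hu => conj_mem_of_mem_normalizer (Z.frob.norm (Z.EL hx : x ∈ L)) (hu : u ∈ H)
  have e1 : ⁅u * x, v * y⁆ = u * (x * v * x⁻¹) * ((x * y) * x⁻¹ * u⁻¹ * y⁻¹) * v⁻¹ := by
    rw [commutatorElement_def]; group
  rw [e1, Z.Ecomm hx hy, mul_inv_cancel_right]
  exact mul_mem (mul_mem (mul_mem hu (k x hx v hv)) (k y hy _ (inv_mem hu))) (inv_mem hv)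

theorem Q_eq : Q = ind ⊤ L (ind L H (one H)) := (ind_ind le_top _).symm

theorem ip_Q (hμ : Irr L μ) (hk : H ≤ charKer μ) : ip ⊤ (ind ⊤ L μ) Q = 2 := by
  rw [Z.Q_eq, Z.mackey hμ.cf (vc_ind one_vc Z.frob.le), ip_res_ind hμ.cf one_supOn, res_eq_smul_one hk,
    ip_smul_left, irr_one.ip_self, ip_delta (res_supOn _), res_one, Z.lin hμ hk]
  · norm_num
  · intro x hx h1
    rw [star_apply', ind_eq_zero fun g _ => one_of_not_mem fun k => h1 (Z.EH x hx g k), map_zero]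
  · rw [star_apply', ind_one Z.frob.le, Z.idx, Z.cE]; simp

theorem π_zero {x : G} (hx : x ∈ L) (h1 : x ≠ 1) : π x = 0 :=
  ind_eq_zero fun g _ => one_of_not_mem fun k => h1 (Z.CL x hx g k)
theorem π_one : π 1 = h * e := by
  have : (h + 1 : ℂ) ≠ 0 := by exact_mod_cast Nat.succ_ne_zero h
  rw [Z.ind_top_one, Z.cC]; push_cast; field_simp

theorem ip_π (hμ : Irr L μ) (hk : H ≤ charKer μ) : ip ⊤ (ind ⊤ L μ) π = 1 := by
  rw [ip_ind_left _ (ind_top_cf _), ip_delta (cf_supOn hμ.cf) (fun x => Z.π_zero)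
    (by rw [Z.π_one, Z.cL, Nat.cast_mul]), Z.lin hμ hk]

theorem irr_ind (hμ : Irr L μ) (hk : H ≤ charKer μ) (h1 : μ ≠ one L) : Irr ⊤ (ind ⊤ L μ) := by
  have i1 : Irr E (res E μ) := (hμ.chr.res Z.EL).irr_of_one (by rw [res_one, Z.lin hμ hk])
  refine (hμ.chr.ind le_top).irr_of_ip ?_
  rw [Z.mackey hμ.cf hμ.vc, hμ.ip_self, ← ip_res_right (res_supOn _), res_star,
    i1.ip_of_ne i1.star (i1.star_ne (Z.odd.of_dvd_nat (card_dvd_of_le Z.EL)) fun k => h1 ?_).symm, add_zero]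
  refine hμ.eq_one_iff.2 fun g hg => ?_
  obtain ⟨u, hu, x, hx, rfl⟩ := Z.fac g hg
  exact mul_mem (hk hu) (hμ.chr.le_ker_of_res le_rfl Z.EL (i1.eq_one_iff.1 k) hx)

omit Z in
theorem ip_one_top (K : Subgroup G) : ip ⊤ (ind ⊤ K (one K)) (one ⊤) = 1 := ip_ind_one_one le_top

theorem ip_PP : ip ⊤ P P = 2 := by
  rw [Z.mackey one_cf one_vc, irr_one.ip_self, ← ip_res_right (res_supOn _), star_one', res_one_eq Z.EL,
    irr_one.ip_self]
  norm_num

theorem irr_St : Irr ⊤ (P - one ⊤) := by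
  refine ((irr_one.chr.ind le_top).sub_irr irr_one (by rw [ip_one_top]; exact one_ne_zero)).irr_of_ip ?_
  rw [ip_sub_left, ip_sub_right, ip_sub_right, Z.ip_PP, irr_one.ip_self, ip_one_top, ip_symm_one (ip_one_top L)]
  norm_num

theorem classify (hχ : Irr ⊤ χ) (h0 : ip ⊤ χ Q ≠ 0) : χ = one ⊤ ∨ χ = P - one ⊤ ∨
    ∃ μ, Irr L μ ∧ H ≤ charKer μ ∧ μ ≠ one L ∧ χ = ind ⊤ L μ := by
  have c1 : ind L H (one H) ∈ cf L := ind_cf Z.frob.le one_supOn
  rw [Z.Q_eq, ip_res_ind hχ.cf (cf_supOn c1)] at h0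
  obtain ⟨μ, hμ, h1, h2⟩ := cf_exists_common (res_cf le_top hχ.cf) h0
  rw [ip_res_ind hμ.cf one_supOn] at h2
  have hk := le_ker_of_under Z.frob.le Z.frob.norm hμ h2
  rw [← ip_res_ind hχ.cf (cf_supOn hμ.cf)] at h1
  by_cases e1 : μ = one L
  · subst e1
    by_contra k
    push Not at k
    rw [← sub_add_cancel P (one ⊤), ip_add_right, hχ.ip_of_ne Z.irr_St k.2.1, hχ.ip_of_ne irr_one k.1,
      add_zero] at h1
    exact h1 rfl
  · exact .inr (.inr ⟨μ, hμ, hk, e1, hχ.eq_of_ip (Z.irr_ind hμ hk e1) h1⟩)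

theorem chr_ψ : Chr ⊤ ((2 : ℂ) • π - Q + P) := by
  refine chr_of_ip (add_mem (sub_mem (Submodule.smul_mem _ _ (ind_top_cf _)) (ind_top_cf _)) (ind_top_cf _))
    fun χ hχ => ?_
  have c : ∀ K : Subgroup G, Chr ⊤ (ind ⊤ K (one K)) := fun K => irr_one.chr.ind le_top
  obtain ⟨n, hn⟩ := (c Cx(t)).exists_ip hχ.chr
  obtain ⟨k, hk⟩ := (c L).exists_ip hχ.chr
  rw [ip_add_left, ip_sub_left, ip_smul_left, vc_ip_comm (c H).vc hχ.vc]
  by_cases h0 : ip ⊤ χ Q = 0
  · exact ⟨2 * n + k, by rw [h0, hn, hk]; push_cast; ring⟩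
  rcases Z.classify hχ h0 with rfl | rfl | ⟨μ, hμ, h1, -, rfl⟩
  · exact ⟨2, by rw [ip_one_top, ip_one_top, ip_symm_one (ip_one_top H)]; norm_num⟩
  · refine ⟨2 * n, ?_⟩
    rw [hn, ip_sub_left, ip_sub_right, Z.ip_PP, ip_one_top, Z.ip_Q irr_one (Z.frob.le.trans le_ker_one),
      ip_symm_one (ip_one_top H)]
    push_cast; ring
  · exact ⟨k, by rw [hk, Z.ip_Q hμ h1, ip_symm_one (Z.ip_π hμ h1)]; ring⟩

omit Z in
theorem ind_re_nonneg (K : Subgroup G) (g : G) :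
    ind ⊤ K (one K) g = (Nat.card K : ℂ)⁻¹ * (Finset.univ.filter fun y => y * g * y⁻¹ ∈ K).card := by
  rw [ind_apply, fs_top]; simp [one_apply]

/-- the number of involutions centralizing `t` -/
noncomputable def ni (t : G) : ℕ := (Finset.univ.filter fun s => orderOf s = 2 ∧ s ∈ Cx(t)).card

theorem π_t : π t = ni t := by
  rw [ind_re_nonneg, Finset.card_eq_sum_card_fiberwise (f := fun y => y * t * y⁻¹)
    (t := Finset.univ.filter fun s => orderOf s = 2 ∧ s ∈ Cx(t)) (fun y hy => by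
      simpa [orderOf_conj', Z.ot] using hy), Finset.sum_congr rfl (g := fun _ => Nat.card Cx(t)) fun s hs => ?_]
  · have := cardC_ne Cx(t)
    rw [Finset.sum_const, ni, smul_eq_mul]; push_cast; field_simp
  obtain ⟨h1, h2⟩ := (Finset.mem_filter.1 hs).2
  obtain ⟨g, rfl⟩ := isConj_iff.1 (Z.cj s h1)
  rw [← card_fs]
  refine Finset.card_bij (fun y _ => g⁻¹ * y) (fun y hy => ?_) (fun _ _ _ _ k => mul_left_cancel k)
    fun y hy => ⟨g * y, ?_, by simp⟩
  · have := (Finset.mem_filter.1 hy).2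
    rw [mem_fs, mem_Cx]
    calc g⁻¹ * y * t = g⁻¹ * (y * t * y⁻¹) * y := by group
      _ = t * (g⁻¹ * y) := by rw [this]; group
  · have k : g * y * t * (g * y)⁻¹ = g * t * g⁻¹ := by
      rw [mul_assoc g, mem_Cx.1 (mem_fs.1 hy)]; group
    simp only [Finset.mem_filter, Finset.mem_univ, true_and, k, and_true]; exact h2

theorem not_L (y : G) : y * t * y⁻¹ ∉ L := fun k => by
  have := Z.odd.of_dvd_nat (L.orderOf_dvd_natCard k)
  rw [orderOf_conj', Z.ot] at this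
  exact absurd this (by decide)

theorem P_le {x : G} (hx : x ∈ E) (h1 : x ≠ 1) : (P x).re ≤ 2 := by
  have h0 := cardR_pos L
  have : (Finset.univ.filter fun y => y * x * y⁻¹ ∈ L).card ≤ Nat.card L + Nat.card L := by
    refine le_trans (Finset.card_le_card (t := fs L ∪ (fs L).image (· * t⁻¹)) fun y hy => ?_)
      ((Finset.card_union_le _ _).trans (by rw [Finset.card_image_of_injective _ (mul_left_injective _), card_fs]))
    rcases Z.Eti x hx h1 y (Finset.mem_filter.1 hy).2 with k | k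
    · exact Finset.mem_union_left _ (mem_fs.2 k)
    · exact Finset.mem_union_right _ (Finset.mem_image.2 ⟨_, mem_fs.2 k, by simp⟩)
  rw [ind_re_nonneg, ← Complex.ofReal_natCast, ← Complex.ofReal_natCast, ← Complex.ofReal_inv,
    ← Complex.ofReal_mul, Complex.ofReal_re, inv_mul_le_iff₀ h0]
  have : ((Finset.univ.filter fun y => y * x * y⁻¹ ∈ L).card : ℝ) ≤ Nat.card L + Nat.card L := by exact_mod_cast this
  linarith

theorem sign (hχ : Chr ⊤ χ) : e * (χ t).re ≤ (∑ x ∈ fs E, χ x).re := by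
  have c : Chr D (ind D E (one E) - one D) :=
    (irr_one.chr.ind Z.ED).sub_irr irr_one (by rw [ip_ind_one_one Z.ED]; exact one_ne_zero)
  obtain ⟨n, hn⟩ := (hχ.res le_top).exists_ip c
  have c1 : (fs D \ fs E).card = e := by
    have := relIndex_mul_relIndex ⊥ E D bot_le Z.ED
    rw [relIndex_bot_left, relIndex_bot_left, Z.iD, Z.cE] at this
    rw [Finset.card_sdiff_of_subset fun x hx => mem_fs.2 (Z.ED (mem_fs.1 hx)), card_fs, card_fs, ← this, Z.cE]
    omega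
  have c2 : ∑ x ∈ fs D, χ x = e * χ t + ∑ x ∈ fs E, χ x := by
    rw [← Finset.sum_sdiff fun x hx => mem_fs.2 (Z.ED (mem_fs.1 hx)), Finset.sum_congr rfl (g := fun _ => χ t)
      fun x hx => ?_, Finset.sum_const, c1, nsmul_eq_mul]
    rw [Finset.mem_sdiff, mem_fs, mem_fs] at hx
    obtain ⟨g, rfl⟩ := isConj_iff.1 (Z.cj x (Z.Dt x hx.1 hx.2))
    exact cf_top_conj hχ.cf g t
  rw [ip_sub_right, ip_ind_right (hχ.res le_top).cf, ip_one, ip_one, sum_fs_congr fun x hx => res_of_mem χ hx,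
    sum_fs_congr fun x hx => res_of_mem χ (Z.ED hx), c2, Z.cE] at hn
  have c3 : Nat.card D = e * 2 := by
    have := relIndex_mul_relIndex ⊥ E D bot_le Z.ED
    rwa [relIndex_bot_left, relIndex_bot_left, Z.iD, Z.cE, eq_comm] at this
  have := Z.e0
  have c4 : ∑ x ∈ fs E, χ x = e * χ t + (e * 2 * n : ℕ) := by
    rw [c3] at hn; push_cast at hn ⊢; field_simp at hn; linear_combination hn
  rw [c4]
  simp only [Complex.add_re, Complex.natCast_re, Complex.mul_re, Complex.natCast_im, zero_mul, sub_zero]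
  exact le_add_of_nonneg_right (Nat.cast_nonneg _)

theorem upper : 2 * e * ni t + 1 ≤ h * e + e + h := by
  have k := Z.sign Z.chr_ψ
  have k1 : ((2 : ℂ) • π - Q + P) t = (2 * ni t : ℕ) := by
    rw [Pi.add_apply, Pi.sub_apply, Pi.smul_apply, Z.π_t, ind_eq_zero fun g _ => one_of_not_mem (Z.not_L g),
      ind_eq_zero fun g _ => one_of_not_mem fun k => Z.not_L g (Z.frob.le k)]
    simp
  have k2 : ((2 : ℂ) • π - Q + P) 1 = ((h * e - e + h + 1 : ℝ) : ℂ) := by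
    have := Z.h0
    have := Z.e0
    rw [Pi.add_apply, Pi.sub_apply, Pi.smul_apply, Z.π_one, Z.ind_top_one, Z.ind_top_one, Z.cH, Z.cL]
    push_cast; simp only [smul_eq_mul]; field_simp; ring
  have k3 : ∑ x ∈ ft (shp E), (((2 : ℂ) • π - Q + P) x).re ≤ ∑ _x ∈ ft (shp E), (2 : ℝ) :=
    Finset.sum_le_sum fun x hx => by
      obtain ⟨h1, h2⟩ := mem_shp.1 (mem_ft.1 hx)
      rw [Pi.add_apply, Pi.sub_apply, Pi.smul_apply, Z.π_zero (Z.EL h1) h2,
        ind_eq_zero fun g _ => one_of_not_mem fun k => h2 (Z.EH x h1 g k)]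
      simpa using Z.P_le h1 h2
  rw [k1, ← sum_ft_shp, k2, Complex.add_re, Complex.re_sum, Complex.ofReal_re, Complex.natCast_re] at k
  rw [Finset.sum_const, card_ft_shp, Z.cE, nsmul_eq_mul, Nat.cast_sub Z.e1.le] at k3
  push_cast at k k3
  have : (2 * e * ni t + 1 : ℝ) ≤ h * e + e + h := by linarith
  exact_mod_cast this

theorem card_irr_le : (irr (⊤ : Subgroup G)).card ≤ (sInd H L H ⊥).card + e + 1 := by
  have hF := Z.frob
  obtain ⟨ν, hν⟩ := sibley Z.odd hF.nil Z.ti (.inl hF)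
  obtain ⟨ζ, h1, h2⟩ := exists_lin_sInd hF.le hF.nil.sol hF.ne_bot.bot_lt le_Nm_bot'
  have hl : Lin L H (fun _ => ⊥) ν ζ := ⟨hF.le, hF.norm, Z.odd, Z.ti.dade (fun a => a.2 rfl)
    fun _ _ => rfl, dade_bot (L := L) ▸ hν, h1, hF.sInd_irr le_rfl h1, h2⟩
  obtain ⟨Γ, a, g1, g2, g3, -, -, g4⟩ := hl.decomp
  have g5 := (g4 (hF.two_mul_le Z.odd)).2
  have sv : ∀ ξ ∈ sInd H L H ⊥, SIrr ⊤ (ν ξ) := fun ξ hξ => hl.coh.sirr hξ (hF.sInd_irr le_rfl hξ)
  have cΓ : Γ ∈ cf (⊤ : Subgroup G) := by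
    rw [eq_sub_of_add_eq' g3.symm]
    exact sub_mem (vc_cf hl.beta_vc) (add_mem (sub_mem one_cf (sv ζ h1).cf) (Submodule.smul_mem _ _
      (Submodule.sum_mem _ fun ξ hξ => Submodule.smul_mem _ _ (sv ξ hξ).cf)))
  have k : ∀ χ ∈ irr (⊤ : Subgroup G), (1 : ℝ) ≤ (if χ = one ⊤ then 1 else 0) + (if χ = P - one ⊤ then 1 else 0) +
      ∑ ξ ∈ sInd H L H ⊥, ‖ip ⊤ (ν ξ) χ‖ ^ 2 + ‖ip ⊤ Γ χ‖ ^ 2 := fun χ hχ => by
    rw [mem_irr] at hχ
    have p1 : (0 : ℝ) ≤ ∑ ξ ∈ sInd H L H ⊥, ‖ip ⊤ (ν ξ) χ‖ ^ 2 := Finset.sum_nonneg fun _ _ => sq_nonneg _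
    have p2 := sq_nonneg ‖ip ⊤ Γ χ‖
    split_ifs with q1 q2 q2
    · linarith
    · linarith
    · linarith
    by_cases ho : ∀ ξ ∈ sInd H L H ⊥, ip ⊤ χ (ν ξ) = 0
    swap
    · push Not at ho
      obtain ⟨ξ, hξ, q3⟩ := ho
      have := one_le_normSq (vc_exists_ip (sv ξ hξ).vc hχ.vc) fun k => q3 (ip_symm_zero k)
      have := Finset.single_le_sum (f := fun ξ => ‖ip ⊤ (ν ξ) χ‖ ^ 2) (fun _ _ => sq_nonneg _) hξ
      linarith
    have q3 : ip ⊤ χ (dade L (fun _ => ⊥) (ind L H (one H) - ζ)) = ip ⊤ χ Γ := by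
      rw [g3, ip_add_right, ip_add_right, ip_sub_right, ip_smul_right, ho ζ h1, hχ.ip_of_ne irr_one q1,
        ip_sum_right, Finset.sum_eq_zero fun ξ hξ => by rw [ip_smul_right, ho ξ hξ, mul_zero]]
      simp
    obtain ⟨n, hn⟩ := vc_exists_ip hχ.vc hl.beta_vc
    have q4 : ip ⊤ χ Γ ≠ 0 := fun k => by
      have q5 : ip ⊤ χ Q = χ 1 / h := by
        rw [ip_ind_right hχ.cf, ip_one, ← sum_ft_shp, Finset.sum_eq_zero fun x hx => by
          rw [← avg_bot (χ := χ) x, ← rho_apply (H := fun _ => ⊥) (mem_ft.1 hx),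
            hl.rho_of_orth hχ.cf ho (mem_ft.1 hx), q3, k], Z.cH]
        ring
      rcases Z.classify hχ (by rw [q5]; exact div_ne_zero hχ.one_ne_zero Z.h0) with q | q | ⟨μ, hμ, q6, -, rfl⟩
      · exact q1 q
      · exact q2 q
      · have := Z.h0
        have := Z.e0
        rw [Z.ip_Q hμ q6, ind_one le_top, ← card_div le_top, card_top, Z.cG, Z.cL, Z.lin hμ q6] at q5
        push_cast at q5
        field_simp at q5
        have : h * 2 = h + 1 := by exact_mod_cast (by linear_combination q5 : (h * 2 : ℂ) = h + 1)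
        have := Z.le_h
        have := Z.e1
        omega
    have := one_le_normSq ⟨n, ip_symm_int (q3 ▸ hn)⟩ fun k => q4 (ip_symm_zero k)
    linarith
  have k1 := Finset.sum_le_sum k
  rw [Finset.sum_add_distrib, Finset.sum_add_distrib, Finset.sum_add_distrib, ← cf_nm_eq_sum cΓ, Finset.sum_comm,
    Finset.sum_congr rfl fun ξ hξ => (cf_nm_eq_sum (sv ξ hξ).cf).symm.trans (sv ξ hξ).nm_eq,
    Finset.sum_ite_eq', Finset.sum_ite_eq', if_pos irr_one.mem, if_pos Z.irr_St.mem] at k1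
  simp only [Finset.sum_const, nsmul_eq_mul, mul_one] at k1
  rw [Z.idx] at g5
  have : ((irr (⊤ : Subgroup G)).card : ℝ) ≤ (sInd H L H ⊥).card + e + 1 := by linarith
  exact_mod_cast this

omit Z in
theorem sum_Cx : ∑ g : G, (Nat.card Cx(g) : ℝ) = Nat.card G * (irr (⊤ : Subgroup G)).card := by
  rw [Finset.sum_congr rfl fun g _ => by rw [← top_inf_eq Cx(g), ← sum_irr_normSq' (mem_top g)],
    Finset.sum_comm, Finset.sum_congr rfl fun χ hχ => by
      rw [← card_mul_nm (L := ⊤), (mem_irr.1 hχ).nm_eq, mul_one, card_top],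
    Finset.sum_const, nsmul_eq_mul, mul_comm]

theorem sum_X : (Nat.card G : ℝ) * (sInd H L H ⊥).card ≤ ∑ g ∈ ft (cls ⊤ (shp H)), (Nat.card Cx(g) : ℝ) := by
  have hF := Z.frob
  have k1 : ∑ u ∈ fs H, (Nat.card ↥(L ⊓ Cx(u)) : ℝ) = ∑ ξ ∈ irr L, ∑ u ∈ fs H, ‖ξ u‖ ^ 2 := by
    rw [sum_fs_congr fun u hu => (sum_irr_normSq' (hF.le hu)).symm, Finset.sum_comm]
  have k2 : ∑ ξ ∈ sInd H L H ⊥, ∑ u ∈ fs H, ‖ξ u‖ ^ 2 = Nat.card L * (sInd H L H ⊥).card := by
    rw [Finset.sum_congr rfl (g := fun _ => (Nat.card L : ℝ)) fun ξ hξ => ?_, Finset.sum_const, nsmul_eq_mul,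
      mul_comm]
    rw [← sum_eq_sum_fs H _ fun g hg => by rw [sInd_supOn hF.le hF.norm hξ g hg]; simp, ← card_mul_nm (L := L),
      (hF.sInd_irr le_rfl hξ).nm_eq, mul_one]
  have k3 : ∑ ξ ∈ (irr L).filter (fun ξ => H ≤ charKer ξ), ∑ u ∈ fs H, ‖ξ u‖ ^ 2 = Nat.card L := by
    rw [Finset.sum_congr rfl (g := fun ξ => (h : ℝ) * (dg ξ ^ 2 : ℕ)) fun ξ hξ => ?_, ← Finset.mul_sum,
      ← Nat.cast_sum, sum_irr_ker_dg_sq hF.le hF.norm, Z.idx, Z.cL, Nat.cast_mul]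
    rw [Finset.mem_filter, mem_irr] at hξ
    rw [sum_fs_congr fun u hu => by rw [ker_apply_one (hξ.2 hu), ← hξ.1.dg_eq], sum_fs_const, Z.cH]
    simp
  have k4 : ∑ ξ ∈ sInd H L H ⊥ ∪ (irr L).filter (fun ξ => H ≤ charKer ξ), ∑ u ∈ fs H, ‖ξ u‖ ^ 2 ≤
      ∑ ξ ∈ irr L, ∑ u ∈ fs H, ‖ξ u‖ ^ 2 :=
    Finset.sum_le_sum_of_subset_of_nonneg (Finset.union_subset (fun ξ hξ => (hF.sInd_irr le_rfl hξ).mem)
      (Finset.filter_subset _ _)) fun _ _ _ => Finset.sum_nonneg fun _ _ => sq_nonneg _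
  rw [Finset.sum_union (Finset.disjoint_left.2 fun ξ hξ k =>
    sInd_not_ker hF.le le_rfl hξ (Finset.mem_filter.1 k).2), k2, k3, ← k1, ← sum_ft_shp,
    inf_eq_left.2 (fun x _ => mem_Cx.2 (by simp))] at k4
  have k5 : ∑ u ∈ ft (shp H), (Nat.card ↥(L ⊓ Cx(u)) : ℝ) ≤ ∑ u ∈ ft (shp H), (Nat.card Cx(u) : ℝ) :=
    Finset.sum_le_sum fun u _ => Nat.cast_le.2 (card_le_of_le inf_le_right)
  have k6 := relIndex_mul_relIndex ⊥ L ⊤ bot_le le_top
  rw [relIndex_bot_left, relIndex_bot_left, card_top] at k6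
  rw [Z.ti.sum_cls _ fun x _ g => by rw [← cj_Cx, card_cj], nsmul_eq_mul, ← k6, Nat.cast_mul,
    mul_comm (Nat.card L : ℝ), mul_assoc]
  exact mul_le_mul_of_nonneg_left (by linarith) (Nat.cast_nonneg _)

theorem card_inv : (Finset.univ.filter fun s : G => orderOf s = 2).card = h * e := by
  have := Finset.card_eq_sum_card_fiberwise (s := Finset.univ) (f := fun y : G => y * t * y⁻¹)
    (t := Finset.univ.filter fun s => orderOf s = 2) fun y _ => by simp [orderOf_conj', Z.ot]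
  rw [Finset.sum_congr rfl (g := fun _ => Nat.card Cx(t)) fun s hs => ?_, Finset.sum_const, smul_eq_mul,
    Finset.card_univ, ← Nat.card_eq_fintype_card, Z.cG, Z.cC, mul_comm] at this
  · exact (Nat.eq_of_mul_eq_mul_right h.succ_pos this).symm
  obtain ⟨g, rfl⟩ := isConj_iff.1 (Z.cj s (Finset.mem_filter.1 hs).2)
  rw [← card_fs]
  refine Finset.card_bij (fun y _ => g⁻¹ * y) (fun y hy => ?_) (fun _ _ _ _ k => mul_left_cancel k)
    fun y hy => ⟨g * y, ?_, by simp⟩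
  · have := (Finset.mem_filter.1 hy).2
    rw [mem_fs, mem_Cx]
    calc g⁻¹ * y * t = g⁻¹ * (y * t * y⁻¹) * y := by group
      _ = t * (g⁻¹ * y) := by rw [this]; group
  · have k : g * y * t * (g * y)⁻¹ = g * t * g⁻¹ := by
      rw [mul_assoc g, mem_Cx.1 (mem_fs.1 hy)]; group
    simp only [Finset.mem_filter, Finset.mem_univ, true_and, k]

theorem lower : h + 1 ≤ ni t + e := by
  set K := Finset.univ.filter fun s : G => orderOf s = 2 with hK
  have mK : ∀ {s}, s ∈ K ↔ orderOf s = 2 := by simp [hK]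
  have sq : ∀ {s : G}, orderOf s = 2 → s * s = 1 := fun k => by rw [← pow_two, ← k, pow_orderOf_eq_one]
  let n : G → ℕ := fun g => ((K ×ˢ K).filter fun p => p.1 * p.2 = g).card
  have n0 : ∑ g, n g = h * e * (h * e) := by
    rw [← Z.card_inv, ← Finset.card_product]
    exact (Finset.card_eq_sum_card_fiberwise fun _ _ => Finset.mem_coe.2 (Finset.mem_univ _)).symm
  have n1 : ∀ (g : G) (f : G → G) (T : Finset G), Function.Injective f →
      (∀ x y, orderOf x = 2 → orderOf y = 2 → x * y = g → f x ∈ T) → n g ≤ T.card := fun g f T hf k =>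
    Finset.card_le_card_of_injOn (fun p => f p.1) (fun p hp => by
      simp only [Finset.coe_filter, Finset.mem_product, mK, Set.mem_ofPred_eq] at hp
      exact k _ _ hp.1.1 hp.1.2 hp.2) fun p hp q hq k => by
      simp only [Finset.coe_filter, Set.mem_ofPred_eq] at hp hq
      exact Prod.ext (hf k) (mul_left_cancel (a := p.1) (by rw [hp.2, hf k, hq.2]))
  have oX : ∀ g ∈ cls ⊤ (shp H), g ≠ 1 ∧ orderOf g ≠ 2 := by
    rintro _ ⟨u, hu, x, -, rfl⟩
    refine ⟨fun k => hu.2 (by simpa using k), fun k => ?_⟩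
    have := Z.odd.of_dvd_nat (L.orderOf_dvd_natCard (Z.frob.le hu.1))
    rw [← orderOf_conj' x, k] at this
    exact absurd this (by decide)
  have k : ∀ g ∈ Finset.univ, (n g : ℝ) + (if g = 1 then (Nat.card G - h * e : ℝ) else 0) +
      (if g ∈ K then (h + 2 - ni t : ℝ) else 0) + (if g ∈ ft (cls ⊤ (shp H)) then (Nat.card Cx(g) : ℝ) else 0) ≤
      Nat.card Cx(g) := fun g _ => by
    by_cases q1 : g = 1
    · subst q1
      have := n1 1 id K Function.injective_id fun x y hx _ _ => mK.2 hx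
      rw [Z.card_inv] at this
      rw [if_pos rfl, if_neg (by simp [mK]), if_neg fun k => (oX _ (mem_ft.1 k)).1 rfl,
        show Cx((1 : G)) = ⊤ from eq_top_iff.2 fun x _ => mem_Cx.2 (by simp), card_top]
      have : (n 1 : ℝ) ≤ h * e := by exact_mod_cast this
      linarith
    rw [if_neg q1]
    have iv : ∀ x y : G, orderOf x = 2 → orderOf y = 2 → x * y = g → x * g = g⁻¹ * x := fun x y hx hy k => by
      rw [← k, mul_inv_rev, inv_eq_of_mul_eq_one_right (sq hx), inv_eq_of_mul_eq_one_right (sq hy),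
        ← mul_assoc, sq hx, mul_assoc, sq hx, one_mul, mul_one]
    by_cases q2 : g ∈ K
    · obtain ⟨w, rfl⟩ := isConj_iff.1 (Z.cj g (mK.1 q2))
      have := n1 _ (fun x => w⁻¹ * x * w⁻¹⁻¹) ((Finset.univ.filter fun s => orderOf s = 2 ∧ s ∈ Cx(t)).erase t)
        (fun x y k => by simpa using k) fun x y hx hy k => by
          have c1 := iv x y hx hy k
          rw [inv_eq_of_mul_eq_one_right (sq (mK.1 q2))] at c1
          simp only [Finset.mem_erase, Finset.mem_filter, Finset.mem_univ, true_and, orderOf_conj', hx, mem_Cx]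
          refine ⟨fun c2 => ?_, ?_⟩
          · rw [← c2, show w * (w⁻¹ * x * w⁻¹⁻¹) * w⁻¹ = x by group, mul_eq_left] at k
            simp [k] at hy
          · calc w⁻¹ * x * w⁻¹⁻¹ * t = w⁻¹ * (x * (w * t * w⁻¹)) * w := by group
              _ = t * (w⁻¹ * x * w⁻¹⁻¹) := by rw [c1]; group
      rw [Finset.card_erase_of_mem (by simp [Z.ot, mem_Cx])] at this
      have k1 : 0 < ni t := Finset.card_pos.2 ⟨t, by simp [Z.ot, mem_Cx]⟩
      rw [if_pos q2, if_neg fun k => (oX _ (mem_ft.1 k)).2 (mK.1 q2), ← cj_Cx, card_cj, Z.cC]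
      have : (n (w * t * w⁻¹) + 1 : ℝ) ≤ ni t := by exact_mod_cast (by unfold ni at *; omega)
      push_cast; linarith
    rw [if_neg q2]
    split_ifs with q3
    · have := n1 g id ∅ Function.injective_id fun x y hx hy k => absurd (k ▸ mem_ft.1 q3) (Z.prod x y hx hy)
      simp [Nat.le_zero.1 this]
    rcases Finset.eq_empty_or_nonempty ((K ×ˢ K).filter fun p => p.1 * p.2 = g) with q | ⟨p, hp⟩
    · simp [n, q]
    simp only [Finset.mem_filter, Finset.mem_product, mK] at hp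
    have := n1 g (p.1⁻¹ * ·) (fs Cx(g)) (mul_right_injective _) fun x y hx hy k => mem_fs.2 (mem_Cx.2 (by
      rw [mul_assoc, iv x y hx hy k, ← mul_assoc, ← mul_assoc, mul_left_inj, inv_mul_eq_iff_eq_mul, ← mul_assoc,
        iv _ _ hp.1.1 hp.1.2 hp.2, mul_inv_cancel_right]))
    rw [card_fs] at this
    simpa using this
  have k1 := Finset.sum_le_sum k
  rw [Finset.sum_add_distrib, Finset.sum_add_distrib, Finset.sum_add_distrib, ← Nat.cast_sum, n0,
    Finset.sum_ite_eq', if_pos (Finset.mem_univ _), Finset.sum_ite_mem, Finset.sum_ite_mem, Finset.univ_inter,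
    Finset.univ_inter, Finset.sum_const, Z.card_inv, sum_Cx, nsmul_eq_mul] at k1
  have k2 := Z.sum_X
  have k3 : ((irr (⊤ : Subgroup G)).card : ℝ) ≤ (sInd H L H ⊥).card + e + 1 := by exact_mod_cast Z.card_irr_le
  have k4 := mul_le_mul_of_nonneg_left k3 (Nat.cast_nonneg (Nat.card G))
  rw [Z.cG] at k1 k2 k4
  push_cast at k1 k2 k4
  have p1 : (0 : ℝ) < h * e := by have := Z.le_h; have := Z.e1; exact_mod_cast Nat.mul_pos (by omega) (by omega)
  have : (h + 1 : ℝ) ≤ ni t + e := le_of_mul_le_mul_left (by nlinarith) p1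
  exact_mod_cast this

theorem main : h ≤ 2 * e + 1 := by
  have h1 := Z.upper
  have h2 := Z.lower
  have h3 := Z.e1
  nlinarith

end ZD
end CfH9.Zf
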