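import Cfsg.Agent.H9.Zf1
import Cfsg.Agent.H5.Zass2
import Cfsg.Agent.BS.Cor

/-! Feit's theorem on Zassenhaus groups. -/

set_option autoImplicit false
set_option linter.unusedSectionVars false

namespace CfH9.Zf

open CfFT CfFT.PF Cfsg CfH4 CfH5 CfH9 CfH5.Zass MulAction
open Subgroup hiding one
open scoped commutatorElement

universe u v
variable {G : Type u} {Ω : Type v} [Group G] [Finite G] [MulAction G Ω] [Finite Ω] (hZ : IsZassenhausGroup G Ω)
include hZ

theorem exists_t {a b : Ω} (hab : a ≠ b) (hodd : Odd (Nat.card (stabilizer G a ⊓ stabilizer G b : Subgroup G))) :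
    ∃ t : G, orderOf t = 2 ∧ t • a ≠ a ∧ t • t • a = a := by
  obtain ⟨w, hw⟩ := exists_invol hZ hab hodd
  obtain ⟨c, hc⟩ := exists_moved hZ (ne_one_of_orderOf_eq_prime hw)
  obtain ⟨g, rfl⟩ := (pretrans hZ).exists_smul_eq c a
  refine ⟨g * w * g⁻¹, by rw [orderOf_conj', hw], by simpa [mul_smul] using hc, ?_⟩
  rw [← mul_smul, ← pow_two, conj_pow, pow_eq_one_of_orderOf hw]; simp

theorem card_stab {a b : Ω} (hab : a ≠ b) {h : ℕ} (hh : Nat.card Ω = h + 1) :
    Nat.card (stabilizer G a) = h * Nat.card (stabilizer G a ⊓ stabilizer G b : Subgroup G) := by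
  have := (stabilizer G a).card_mul_index
  rw [index_stab hZ, hh, card_eq hZ hab hh, mul_comm, mul_assoc] at this
  exact Nat.eq_of_mul_eq_mul_left h.succ_pos this

section
variable {a : Ω} {H : Subgroup G} (hHa : H ≤ stabilizer G a)
  (hHc : Nat.card H + 1 = Nat.card Ω) (hHf : ∀ u ∈ H, u ≠ 1 → ∀ c : Ω, u • c = c → c = a)
include hHa hHc hHf

omit hZ in
theorem bru {t : G} (h1 : t • a ≠ a) (h2 : t • t • a = a) (y : G) (hy : y ∉ stabilizer G a) :
    ∃ l ∈ stabilizer G a, ∃ u ∈ H, y = l * t * u := by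
  obtain ⟨u, hu, e⟩ := kernel_trans hHa hHc hHf (b := y⁻¹ • a) (fun k => hy (by
    rw [inv_smul_eq_iff] at k; exact k.symm)) h1
  refine ⟨y * u⁻¹ * t⁻¹, ?_, u, hu, by group⟩
  rw [mem_stabilizer_iff, mul_smul, mul_smul, show t⁻¹ • a = t • a from inv_smul_eq_iff.2 h2.symm, ← e]
  simp

theorem cent (x : G) (hx : x ∈ H) (h1 : x ≠ 1) (y : G) (hy : y ∈ stabilizer G a) (e : y * x = x * y) : y ∈ H := by
  by_cases k : y = 1
  · rw [k]; exact one_mem _
  refine mem_kernel hZ hHa hHc hHf hy fun c hc => by_contra fun hca => ?_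
  rcases fix hZ k (Ne.symm hca) hy hc (c := x • c) (by rw [← mul_smul, e, mul_smul, hc]) with k | k
  · exact hca (smul_left_cancel x (k.trans (hHa hx).symm))
  · exact hca (hHf x hx h1 c k)

omit hZ hHa hHc in
theorem EH {b : Ω} (hab : a ≠ b) (x : G) (hx : x ∈ stabilizer G a ⊓ stabilizer G b) (g : G)
    (k : g * x * g⁻¹ ∈ H) : x = 1 := by
  by_contra h1
  have k1 := fun c => hHf _ k (by simpa using h1) (g • c)
  simp only [mul_smul, inv_smul_smul, smul_left_cancel_iff] at k1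
  exact hab (smul_left_cancel g ((k1 a hx.1).trans (k1 b hx.2).symm))

theorem simple_case [IsSimpleGroup G] {b : Ω} (hab : a ≠ b) {h : ℕ} (hh : Nat.card Ω = h + 1) (ho : Odd h)
    (hodd : Odd (Nat.card (stabilizer G a ⊓ stabilizer G b : Subgroup G))) :
    h ≤ 2 * Nat.card (stabilizer G a ⊓ stabilizer G b : Subgroup G) + 1 := by
  have := Fintype.ofFinite G
  obtain ⟨t, ht, h1, h2⟩ := exists_t hZ hab hodd
  rw [← card_stab2_eq hZ hab h1.symm] at hodd ⊢
  clear hab b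
  have hab := h1.symm
  have cH : Nat.card H = h := by omega
  have cL := card_stab hZ hab hh
  have oL : Odd (Nat.card (stabilizer G a)) := cL ▸ ho.mul hodd
  have e1 := one_lt_card hZ hab
  have h3 := two_le hZ hh
  have hN := (Nm_kernel hZ hHa hHc hHf).ge
  have fp : ∀ c : Ω, t • c ≠ c := fun c hc => by
    have := card_fixed hZ hab hodd ht hh
    rw [if_neg (Nat.not_even_iff_odd.2 ho)] at this
    exact (Nat.card_pos_iff.2 ⟨⟨⟨c, hc⟩⟩, inferInstance⟩).ne' this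
  have sw : ∀ g : G, g • a = t • a → g • t • a = a → g * g = 1 := fun g k1 k2 => by
    have k3 : g * g ∈ stabilizer G a ⊓ stabilizer G (t • a) :=
      ⟨show (g * g) • a = a by rw [mul_smul, k1, k2], show (g * g) • t • a = t • a by rw [mul_smul, k2, k1]⟩
    obtain ⟨j, hj⟩ := hodd.of_dvd_nat (orderOf_dvd_natCard _ k3)
    have k4 : g ^ (2 * j + 1) • a = t • a := by
      rw [pow_succ, mul_smul, k1, pow_mul, pow_two]; exact (pow_mem k3 j).2
    refine eq_one_of_simple hZ (w := g ^ (2 * j + 1)) (orderOf_eq_prime ?_ fun k => ?_) (c := a)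
      (k4 ▸ h1) (k4 ▸ hodd) (mem_Cx.2 ((Commute.refl g).mul_left (Commute.refl g) |>.pow_right _).eq) k3.1
    · rw [← pow_mul, mul_comm, pow_mul, pow_two, ← hj, pow_orderOf_eq_one]
    · rw [k, one_smul] at k4; exact hab k4
  have t1 : t⁻¹ = t := inv_eq_of_mul_eq_one_right (sw t rfl h2)
  refine ZD.main (L := stabilizer G a) (H := H) (E := stabilizer G a ⊓ stabilizer G (t • a))
    (D := Nm(stabilizer G a ⊓ stabilizer G (t • a))) (t := t)
    ⟨⟨hHa, hN, (one_lt_card_iff_ne_bot H).1 (by omega), fun k => ?_, cent hZ hHa hHc hHf⟩,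
      ⟨le_top, fun x hx => hHa hx.1, fun x hx u hu => ⟨conj_mem_of_mem_normalizer (hN hx) hu.1,
        by simpa using hu.2⟩, fun u hu g _ k => kernel_ti hHa hHf hu.1 hu.2 (hHa k.1)⟩,
      oL, cH, rfl, cL, by rw [card_eq hZ hab hh, mul_assoc], ?_, inf_le_left, e1, fun y hy => ?_, ht,
      fun x hx => ?_, fun x hx k => ⟨hx, ?_⟩, fun g hg => exists_mul hHa hHc hHf h1 hg, EH hHf hab,
      fun x hx k y hy => ?_, fun x hx g k => ?_, fun s hs => invol_isConj hZ hab hodd ht hs, le_normalizer,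
      le_rfl, relIndex_Nm hZ hab, fun g hg k => ?_, ?_⟩
  · rw [k, cL] at cH; nlinarith
  · rw [card_Cx hZ hab hodd ht hh, if_neg (Nat.not_even_iff_odd.2 ho)]
  · obtain ⟨l, hl, u, hu, e⟩ := bru hHa hHc hHf h1 h2 y hy
    exact ⟨l, hl, u, hHa hu, e⟩
  · have := sw (x * t) (by rw [mul_smul]; exact hx.2) (by rw [mul_smul, h2]; exact hx.1)
    rw [t1, eq_inv_iff_mul_eq_one, ← inv_mul_cancel x, ← mul_one x⁻¹, ← this]; group
  · rw [mem_stabilizer_iff, mul_smul, mul_smul, t1, ← eq_inv_smul_iff, t1] at k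
    exact k
  · rw [mem_stabilizer_iff, mul_smul, mul_smul, ← eq_inv_smul_iff] at hy
    rcases fix hZ k hab hx.1 hx.2 hy with e | e <;> rw [inv_smul_eq_iff] at e
    exacts [.inl e.symm, .inr (by rw [mem_stabilizer_iff, mul_smul]; exact e.symm)]
  · simpa using eq_one_of_simple hZ ht (fp (g • a)) (card_stab2_eq hZ hab (fp _).symm ▸ hodd) k
      (by simpa [mul_smul] using hx)
  · obtain ⟨k1, k2⟩ := ((mem_Nm_iff hZ hab).1 hg).resolve_left k
    exact orderOf_eq_prime (by rw [pow_two, sw g k1 k2]) fun e => hab (by rw [← k1, e, one_smul])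
  · rintro x y hx hy ⟨u, hu, g, -, e⟩
    have e' : g⁻¹ * x * g⁻¹⁻¹ * (g⁻¹ * y * g⁻¹⁻¹) = u := by rw [conj_mul, e]; group
    have := orderOf_mul_invol hZ hab hodd hHa hHc hHf (by rw [orderOf_conj', hx]) (by rw [orderOf_conj', hy])
      (e' ▸ hu.1) (e' ▸ hu.2)
    rw [e'] at this
    exact absurd (this ▸ oL.of_dvd_nat (orderOf_dvd_natCard _ (hHa hu.1))) (by decide)

theorem even_case {b : Ω} (hab : a ≠ b) {h : ℕ} (hh : Nat.card Ω = h + 1) (ho : Even h) {e : ℕ}
    (he : Nat.card (stabilizer G a ⊓ stabilizer G b : Subgroup G) = e) (hodd : Odd e) :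
    h - 1 ≤ 2 * e ∨ (IsPGroup 2 H ∧ (∃ u v : H, u * v ≠ v * u) ∧ (commutator H).index ≤ 4 * e ^ 2 + 1) := by
  subst he
  obtain ⟨t, ht, h1, h2⟩ := exists_t hZ hab hodd
  rw [← card_stab2_eq hZ hab h1.symm] at hodd ⊢
  clear hab b
  have hab := h1.symm
  have cH : Nat.card H = h := by omega
  have t2 : t * t = 1 := by rw [← pow_two, pow_eq_one_of_orderOf ht]
  have hN := (Nm_kernel hZ hHa hHc hHf).ge
  have hy : BS.Hyp ⊤ (stabilizer G a) H (stabilizer G a ⊓ stabilizer G (t • a)) t :=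
    ⟨le_top, mem_top _, t2, h1, fun x => and_congr_right fun _ => by
      change x • t • a = t • a ↔ (t * x * t) • a = a
      rw [mul_smul, mul_smul]
      exact ⟨fun k => by rw [k, h2], fun k => smul_left_cancel t (k.trans h2.symm)⟩,
      hodd, hHa, hN, fun x hx k => EH hHf hab x k 1 (by simpa using hx),
      fun g hg => exists_mul hHa hHc hHf h1 hg, fun g _ hg => bru hHa hHc hHf h1 h2 g hg, cH ▸ ho⟩
  have hr : BS.Rk2 H := by
    obtain ⟨z, hz, iz⟩ := hy.exists_inv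
    obtain ⟨x, x1, xa, xb⟩ := exists_ne_one hZ hab
    refine ⟨z, hz, x * z * x⁻¹, conj_mem_of_mem_normalizer (hN xa) hz, iz,
      ⟨by rw [conj_mul, iz.sq]; simp, by simpa using iz.ne⟩, fun k => x1 ?_⟩
    exact hy.disj x (cent hZ hHa hHc hHf z hz iz.ne x xa (mul_inv_eq_iff_eq_mul.1 k.symm)) ⟨xa, xb⟩
  have hs := BS.str_all CfH2.higmanThm BS.firstCase BS.thmC BS.caseV1 _ hy hr rfl
  have k1 := hy.card_K hr
  have k2 := card_le_of_le (BS.KK_le (D := stabilizer G a ⊓ stabilizer G (t • a)) (t := t))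
  have k3 : ¬ Ab H → Nat.card H ≤ Nat.card (Om 2 H) ^ 3 → IsPGroup 2 H ∧ (∃ u v : H, u * v ≠ v * u) ∧
      (commutator H).index ≤ 4 * Nat.card (stabilizer G a ⊓ stabilizer G (t • a) : Subgroup G) ^ 2 + 1 :=
    fun na hc => by
      have n1 : ∃ u v : H, u * v ≠ v * u := by
        by_contra k
        push Not at k
        exact na ⟨⟨k⟩⟩
      refine ⟨hs.pgrp, n1, ?_⟩
      obtain ⟨u, v, huv⟩ := n1
      have c0 : ⁅H, H⁆ ≤ H := commutator_le_self _
      obtain ⟨z, hz, iz⟩ := BS.exists_inv_of_even (H := ⁅H, H⁆) (by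
        obtain ⟨n, hn⟩ := IsPGroup.iff_card.1 (hs.pgrp.to_le c0)
        rcases n with - | n
        · exact absurd (Subtype.ext (commutatorElement_eq_one_iff_mul_comm.1 ((card_eq_one.1 hn).le
            (commutator_mem_commutator u.2 v.2)))) huv
        · rw [hn, pow_succ]; exact even_two.mul_left _)
      have c1 : Om 2 H ≤ ⁅H, H⁆ := fun x hx => by
        obtain ⟨x1, x2⟩ := (hy.mem_Om hr).1 hx
        by_cases k : x = 1
        · rw [k]; exact one_mem _
        obtain ⟨k, hk, rfl⟩ := hy.exists_K (c0 hz) iz x1 ⟨x2, k⟩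
        simpa using conj_mem_of_mem_normalizer (Nm_le_Nm_der H (hN (inv_mem hk.mem.1))) hz
      have c2 := card_le_of_le c1
      have c3 := (commutator H).card_mul_index
      rw [← card_map_subtype, map_subtype_commutator] at c3
      have c4' : Nat.card (Om 2 H) * (commutator H).index ≤ Nat.card (Om 2 H) * Nat.card (Om 2 H) ^ 2 := by
        nlinarith [Nat.mul_le_mul_right (commutator H).index c2]
      have c4 := Nat.le_of_mul_le_mul_left c4' Nat.card_pos
      have := hodd.pos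
      nlinarith
  rcases hs.cases with k | ⟨na, k⟩ | ⟨na, k, -⟩
  · left; rw [k] at k1; omega
  · exact .inr (k3 na (k ▸ Nat.pow_le_pow_right Nat.card_pos (by norm_num)))
  · exact .inr (k3 na k.le)
end

theorem normal_trans {M : Subgroup G} [M.Normal] (h0 : M ≠ ⊥) (c d : Ω) : ∃ m ∈ M, m • c = d := by
  obtain ⟨m, hm, m1⟩ := exists_ne_one_of_ne_bot h0
  obtain ⟨x, hx⟩ := exists_moved hZ m1
  by_cases k : c = d
  · exact ⟨1, one_mem _, by rw [k, one_smul]⟩
  obtain ⟨g, h1, h2⟩ := two hZ hx.symm k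
  exact ⟨g * m * g⁻¹, Normal.conj_mem ‹_› m hm g, by rw [← h1, ← h2]; simp [mul_smul]⟩

theorem no_reg {K : Subgroup G} (hK : K.Normal) (h1 : ∀ c d : Ω, ∃ k ∈ K, k • c = d)
    (h2 : ∀ k ∈ K, ∀ c : Ω, k • c = c → k = 1) : False := by
  obtain ⟨a, ha⟩ := hZ.2.2.2.2 K hK ⟨fun c d => by
    obtain ⟨k, hk, e⟩ := h1 c d
    exact ⟨⟨k, hk⟩, e⟩⟩
  exact ha (eq_bot_iff.2 fun k hk => Subtype.ext (h2 k k.2 a hk))

theorem sub_zass {M : Subgroup G} [hM : M.Normal] (h0 : M ≠ ⊥) {a : Ω} (oL : Odd (Nat.card (stabilizer G a)))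
    (ho : Even (Nat.card Ω)) : IsZassenhausGroup M Ω := by
  obtain ⟨H, hHa, hN, hHc, hHf⟩ := exists_kernel hZ a
  have tr := normal_trans hZ h0
  obtain ⟨x, xM, xa, xH⟩ : ∃ x ∈ M, x ∈ stabilizer G a ∧ x ∉ H := by
    by_contra k
    push Not at k
    obtain ⟨N, hN, h1, h2⟩ := frobenius_kernel ((stabilizer G a).subgroupOf M) fun g hg x hx h => by
      by_contra x1
      exact hg (kernel_ti hHa hHf (k x x.2 hx) (by simpa using x1) h)
    have h3 : ∀ x : M, x ∈ N ↔ x = 1 ∨ ∀ c : Ω, (x : G) • c ≠ c := fun x => (h1 x).trans (or_congr_right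
      ⟨fun k c hc => by
        obtain ⟨m, hm, e⟩ := tr c a
        exact k ⟨m, hm⟩ (show (m * x * m⁻¹ : G) • a = a by rw [← e]; simpa [mul_smul] using hc),
      fun k g hg => k ((g : G)⁻¹ • a) (by
        rw [eq_inv_smul_iff, ← mul_smul, ← mul_smul]; exact hg)⟩)
    refine no_reg hZ (K := N.map M.subtype) ⟨?_⟩ (fun c d => ?_) ?_
    · rintro _ ⟨x, hx, rfl⟩ g
      refine ⟨⟨_, hM.conj_mem _ x.2 g⟩, (h3 _).2 (((h3 x).1 hx).imp (fun k => by simp [k]) fun k c hc =>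
        k (g⁻¹ • c) ?_), rfl⟩
      rw [eq_inv_smul_iff, ← mul_smul, ← mul_smul]; exact hc
    · have k1 : ∀ c : Ω, ∃ n ∈ N, (n : G) • a = c := fun c => by
        obtain ⟨m, hm, e⟩ := tr a c
        obtain ⟨⟨n, l⟩, e'⟩ := h2.2 ⟨m, hm⟩
        refine ⟨n, n.2, ?_⟩
        rw [← e, show m = n * l from (congrArg Subtype.val e').symm, mul_smul, show (l : G) • a = a from l.2]
      obtain ⟨n, hn, rfl⟩ := k1 c
      obtain ⟨n', hn', rfl⟩ := k1 d
      exact ⟨_, ⟨n' * n⁻¹, mul_mem hn' (inv_mem hn), rfl⟩, by simp [mul_smul]⟩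
    · rintro _ ⟨x, hx, rfl⟩ c hc
      exact congrArg Subtype.val (((h3 x).1 hx).resolve_right fun k => k c hc)
  have HM : H ≤ M := fun u hu => by
    let f : H → H := fun u => ⟨u * (x * u⁻¹ * x⁻¹), mul_mem u.2 (conj_mem_of_mem_normalizer (hN xa) (inv_mem u.2))⟩
    have hf : Function.Injective f := fun u v k => by
      have k1 : (u : G) * (x * (u : G)⁻¹ * x⁻¹) = v * (x * (v : G)⁻¹ * x⁻¹) := congrArg Subtype.val k
      by_contra k2
      refine xH (cent hZ hHa hHc hHf _ (v⁻¹ * u).2 (fun k => k2 (Subtype.ext (inv_mul_eq_one.1 k).symm)) x xa ?_)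
      calc x * ((v : G)⁻¹ * u) = (v : G)⁻¹ * (v * (x * (v : G)⁻¹ * x⁻¹)) * x * u := by group
        _ = (v : G)⁻¹ * u * x := by rw [← k1]; group
    obtain ⟨v, hv⟩ := Finite.surjective_of_injective hf ⟨u, hu⟩
    rw [show u = v * x * v⁻¹ * x⁻¹ from (congrArg Subtype.val hv).symm.trans (by simp [f, mul_assoc])]
    exact mul_mem (hM.conj_mem x xM v) (inv_mem xM)
  have := hZ.1
  refine ⟨inferInstance, is_two_pretransitive_iff.2 fun {c d c' d'} k k' => ?_,
    fun g c d e k1 k2 k3 k4 k5 k6 => Subtype.ext (hZ.2.2.1 g c d e k1 k2 k3 k4 k5 k6), ?_, fun N hN' hT => ?_⟩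
  · obtain ⟨m, hm, e⟩ := tr c a
    obtain ⟨m', hm', e'⟩ := tr c' a
    obtain ⟨u, hu, e2⟩ := kernel_trans hHa hHc hHf (b := m • d) (c := m' • d')
      (fun q => k (smul_left_cancel m (e.trans q.symm))) fun q => k' (smul_left_cancel m' (e'.trans q.symm))
    refine ⟨⟨m'⁻¹ * u * m, mul_mem (mul_mem (inv_mem hm') (HM hu)) hm⟩, ?_, ?_⟩
    · change (m'⁻¹ * u * m) • c = c'
      rw [mul_smul, mul_smul, e, show u • a = a from hHa hu, ← e', inv_smul_smul]
    · change (m'⁻¹ * u * m) • d = d'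
      rw [mul_smul, mul_smul, e2, inv_smul_smul]
  · have := mt (mem_kernel hZ hHa hHc hHf xa) xH
    push Not at this
    obtain ⟨c, k1, k2⟩ := this
    exact ⟨⟨x, xM⟩, fun k => xH (by rw [show x = 1 from congrArg Subtype.val k]; exact one_mem _), c, a, k2, k1, xa⟩
  by_contra k
  push Not at k
  have r1 : ∀ n ∈ N, ∀ c : Ω, (n : G) • c = c → n = 1 := fun n hn c hc =>
    congrArg Subtype.val ((k c).le (show (⟨n, hn⟩ : N) ∈ stabilizer N c from hc))
  have r2 : ∀ c d : Ω, ∃ n ∈ N, (n : G) • c = d := fun c d => by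
    obtain ⟨n, e⟩ := hT.exists_smul_eq c d
    exact ⟨n, n.2, e⟩
  have r3 : ∀ y : M, y * y = 1 → y ∈ N := fun y hy => by
    obtain ⟨n, hn, e⟩ := r2 a ((y : G) • a)
    obtain ⟨j, hj⟩ := oL.of_dvd_nat (orderOf_dvd_natCard (stabilizer G a) (x := (n⁻¹ * y : M))
      (by rw [mem_stabilizer_iff, coe_mul, mul_smul, ← e]; simp))
    have e1 : (QuotientGroup.mk' N (n⁻¹ * y)) ^ (2 * j + 1) = 1 := by
      rw [← map_pow, ← hj, orderOf_coe, pow_orderOf_eq_one, map_one]
    rw [map_mul, show QuotientGroup.mk' N n⁻¹ = 1 from (QuotientGroup.eq_one_iff _).2 (inv_mem hn), one_mul,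
      pow_succ, pow_mul, pow_two, ← map_mul, hy, map_one, one_pow, one_mul] at e1
    exact (QuotientGroup.eq_one_iff _).1 e1
  obtain ⟨s, hs, is⟩ := BS.exists_inv_of_even (H := N) (by
    have := (stabilizer N a).card_mul_index
    rw [k a, card_bot, one_mul, ← k a, index_stabilizer_of_transitive] at this
    exact this ▸ ho)
  have r4 : ∀ n ∈ N, n * n = 1 := fun n hn => by
    by_cases n1 : n = 1
    · rw [n1, one_mul]
    obtain ⟨u, hu, e⟩ := kernel_trans hHa hHc hHf (b := (s : G) • a) (c := (n : G) • a)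
      (fun q => is.ne (r1 s hs a q)) fun q => n1 (r1 n hn a q)
    have e1 := r1 _ (mul_mem (inv_mem hn) (hN'.conj_mem s hs ⟨u, HM hu⟩)) a (by
      change ((n : G)⁻¹ * (u * s * u⁻¹)) • a = a
      rw [mul_smul, mul_smul, mul_smul, show u⁻¹ • a = a from inv_mem (hHa hu), e, inv_smul_smul])
    rw [inv_mul_eq_one.1 e1, conj_mul, is.sq]; simp
  refine no_reg hZ (K := N.map M.subtype) ⟨?_⟩ (fun c d => ?_) ?_
  · rintro _ ⟨n, hn, rfl⟩ g
    refine ⟨⟨_, hM.conj_mem _ n.2 g⟩, r3 _ (Subtype.ext ?_), rfl⟩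
    have : (n : G) * n = 1 := congrArg Subtype.val (r4 n hn)
    simp [conj_mul, this]
  · obtain ⟨n, hn, e⟩ := r2 c d
    exact ⟨n, ⟨n, hn, rfl⟩, e⟩
  · rintro _ ⟨n, hn, rfl⟩ c hc
    exact congrArg Subtype.val (r1 n hn c hc)

omit hZ in
theorem odd_case {a b : Ω} (hab : a ≠ b) {h : ℕ} (hh : Nat.card Ω = h + 1) (ho : Odd h) (n : ℕ) :
    ∀ {G : Type u} [Group G] [Finite G] [MulAction G Ω], IsZassenhausGroup G Ω → Nat.card G = n →
      Odd (Nat.card (stabilizer G a ⊓ stabilizer G b : Subgroup G)) →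
      h ≤ 2 * Nat.card (stabilizer G a ⊓ stabilizer G b : Subgroup G) + 1 := by
  induction n using Nat.strong_induction_on with
  | _ n ih =>
  intro G _ _ _ hZ hn hodd
  by_cases hs : IsSimpleGroup G
  · obtain ⟨H, hHa, -, hHc, hHf⟩ := exists_kernel hZ a
    exact simple_case hZ hHa hHc hHf hab hh ho hodd
  obtain ⟨x, x1, -⟩ := exists_ne_one hZ hab
  have : Nontrivial G := ⟨x, 1, x1⟩
  obtain ⟨M, hM, h0, h1⟩ : ∃ M : Subgroup G, M.Normal ∧ M ≠ ⊥ ∧ M ≠ ⊤ := by
    by_contra k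
    push Not at k
    exact hs ⟨fun M hM => or_iff_not_imp_left.2 (k M hM)⟩
  have k : Nat.card (stabilizer M a ⊓ stabilizer M b : Subgroup M) ∣
      Nat.card (stabilizer G a ⊓ stabilizer G b : Subgroup G) := by
    rw [← card_map_subtype]
    exact card_dvd_of_le (by rintro _ ⟨y, hy, rfl⟩; exact hy)
  have := ih _ (hn ▸ (card_top (G := G)) ▸ card_lt_of_lt h1.lt_top) (sub_zass hZ h0 (a := a)
    (card_stab hZ hab hh ▸ ho.mul hodd) (hh ▸ ho.add_one)) rfl (hodd.of_dvd_nat k)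
  have := Nat.le_of_dvd Nat.card_pos k
  omega

end CfH9.Zf
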