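import Cfsg.Agent.H1.Zs0

/-! Two lemmas on `GL₂(q)`. -/

set_option autoImplicit false
set_option linter.unusedSectionVars false

namespace CfH9.Zs

open Cfsg Subgroup CfH9 CfH7 CfH8 CfH1 CfFT CfH1.Xi CfH1.Zs
open scoped commutatorElement
universe u
variable {G : Type u} [Group G] [Finite G]

/-- the orbit of a subgroup under an element with an odd power in its normalizer -/
theorem orb {K : Subgroup G} {x : G} {r : ℕ} (hr : Odd r) (h1 : x ^ r ∈ Nm(K)) (h : x ∉ Nm(K)) :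
    cj x K ≠ K ∧ cj x (cj x K) ≠ K ∧ cj x (cj x K) ≠ cj x K := by
  refine ⟨fun e => h (mem_normalizer_iff_cj.2 e), fun e => h ?_, fun e => h (mem_normalizer_iff_cj.2 (cj_inj.1 e))⟩
  rw [← cj_mul, ← mem_normalizer_iff_cj, ← sq] at e
  exact mem_of_coprime (Nat.coprime_two_left.2 hr) e h1

/-- an element normalizing three lines is a scalar -/
theorem scal {q : ℕ} [Fact q.Prime] {E H A B C : Subgroup G} (hE : El q 2 E H) (hA : El q 1 A E) (hB : El q 1 B E)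
    (hC : El q 1 C E) (ab : A ≠ B) (ca : C ≠ A) (cb : C ≠ B) {s g : G} (sa : s ∈ Nm(A)) (sb : s ∈ Nm(B)) (sc : s ∈ Nm(C))
    (sE : s ∈ Nm(E)) (hg : g ∈ Nm(E)) : ⁅s, g⁆ ∈ Cz(E) := by
  have D := hE.dp_of_ne hA hB ab
  obtain ⟨c, co, rfl⟩ := hC.exists_zpowers
  obtain ⟨a, ha, b, hb, rfl⟩ := (mem_sup_of_le_Nm (A := A) (B := B) (hA.le.trans (le_Nm_of_ab hE.ab hB.le))).1
    (D.sup ▸ hC.le (mem_zpowers c))
  have c1 : a * b ≠ 1 := fun e => by rw [e, orderOf_one] at co; exact (Fact.out : q.Prime).one_lt.ne co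
  have a1 : a ≠ 1 := fun e => cb (hB.eq_zpowers (by rwa [e, one_mul]) c1)
  have b1 : b ≠ 1 := fun e => ca (hA.eq_zpowers (by rwa [e, mul_one]) c1)
  have cm : ∀ {u v : G}, u ∈ E → v ∈ E → Commute u v := fun hu hv => congrArg Subtype.val (hE.ab.is_comm.comm ⟨_, hu⟩ ⟨_, hv⟩)
  obtain ⟨m, hm⟩ := CfFT.exists_conj_eq_pow sc
  rw [(cm (hA.le ha) (hB.le hb)).mul_pow, ← conj_mul] at hm
  have e1 : (a ^ m)⁻¹ * (s * a * s⁻¹) = b ^ m * (s * b * s⁻¹)⁻¹ := by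
    rw [inv_mul_eq_iff_eq_mul, ← mul_assoc, ← hm, mul_inv_cancel_right]
  have e2 : (a ^ m)⁻¹ * (s * a * s⁻¹) = 1 := mem_bot.1 (D.inf ▸ mi (mul_mem (inv_mem (pow_mem ha m))
    (conj_mem_of_mem_normalizer sa ha)) (e1 ▸ mul_mem (pow_mem hb m) (inv_mem (conj_mem_of_mem_normalizer sb hb))))
  rw [e2, eq_comm, mul_inv_eq_one] at e1
  rw [inv_mul_eq_one] at e2
  have P : ∀ w ∈ E, s * w * s⁻¹ = w ^ m := fun w hw => by
    obtain ⟨u, hu, v, hv, rfl⟩ := (mem_sup_of_le_Nm (A := A) (B := B) (hA.le.trans (le_Nm_of_ab hE.ab hB.le))).1 (D.sup ▸ hw)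
    rw [(cm (hA.le hu) (hB.le hv)).mul_pow, ← conj_mul]
    rw [← hA.eq_zpowers ha a1] at hu
    rw [← hB.eq_zpowers hb b1] at hv
    obtain ⟨i, rfl⟩ := hu
    obtain ⟨j, rfl⟩ := hv
    simp only [← conj_zpow, ← e1, ← e2, ← zpow_natCast, zpow_comm a, zpow_comm b]
  refine mem_centralizer_of_conj_eq fun w hw => ?_
  have h1 := conj_mem_of_mem_normalizer (inv_mem sE) (conj_mem_of_mem_normalizer (inv_mem hg) hw)
  have h2 := P _ (conj_mem_of_mem_normalizer hg h1)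
  rw [conj_pow, ← P _ h1] at h2
  calc _ = s * (g * (s⁻¹ * (g⁻¹ * w * g⁻¹⁻¹) * s⁻¹⁻¹) * g⁻¹) * s⁻¹ := by rw [commutatorElement_def]; group
    _ = w := by rw [h2]; group

theorem p1 : P1.{u} := fun {G} _ _ {q} hq q2 {E S x} hE hr hS SE xE xS xo hc hn => by
  have cyc : ∀ K, Cyc K → S ≤ Nm(K) → x ∈ Nm(K) → S ≤ Cz(K) := fun K hK h1 h2 =>
    (hc.trans (commutator_mono le_sup_left le_sup_right)).trans
      (commutator_le_Cz_of_isCyclic hK (sup_le h1 (zpowers_le.2 h2)))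
  have el := el_rk_of_eab hE le_rfl
  have r2 : rk q E = 2 := by
    by_contra c
    exact hn (cyc E (cyc_of_ab_of_rk_le el.pgrp el.ab (by omega)) SE xE)
  rw [r2] at el
  have cop : Cop S E := cop_of_isPGroup q2.symm hS el.pgrp
  have prop : ∀ K, K < E → S ≤ Nm(K) → x ∈ Nm(K) → S ≤ Cz(K) := fun K hK h1 h2 => by
    by_cases k0 : K = ⊥
    · rw [k0, CfFT.Cz_bot]; exact le_top
    exact cyc K (cyc_of_card_prime hq.out ((el_one_of_lt el hK k0).card.trans (pow_one q))) h1 h2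
  have full : ⁅E, S⁆ = E := by
    by_contra c
    exact hn (comm_eq_bot_right.1 (commutator_eq_bot_of_quadratic SE cop (.inl (isSolvable_of_isPGroup hS))
      (comm_eq_bot_right.2 (prop _ (lt_of_le_of_ne (comm_le_left SE) c) (right_le_Nm_comm _ _)
        (zpowers_le.1 (CfH7.le_normalizer_commutator (zpowers_le.2 xE) (zpowers_le.2 xS)))))))
  have D := (dp_comm_Cz el.ab SE cop).inf
  rw [full, inf_eq_left.2 inf_le_left] at D
  refine ⟨el.card, fun K KE SK => ?_⟩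
  by_contra c
  rw [not_or] at c
  have lt := lt_of_le_of_ne KE c.2
  have hK := el_one_of_lt el lt c.1
  have xK : x ∉ Nm(K) := fun e => c.1 (eq_bot_iff.2 (D ▸ le_inf KE (le_Cz_comm (prop K lt SK e))))
  obtain ⟨o1, o2, o3⟩ := orb xo (by rw [pow_orderOf_eq_one]; exact one_mem _) xK
  have st : ∀ K, El q 1 K E → S ≤ Nm(K) → El q 1 (cj x K) E ∧ S ≤ Nm(cj x K) := fun K hK SK =>
    ⟨el_one ((cj_mono x hK.le).trans (cj_eq_of_mem_normalizer xE).le) (by rw [card_cj, hK.card, pow_one]), by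
      rw [← cj_normalizer, ← cj_eq_of_mem_normalizer xS]; exact cj_mono x SK⟩
  obtain ⟨a1, a2⟩ := st K hK SK
  obtain ⟨b1, b2⟩ := st _ a1 a2
  exact hn (hc.trans (commutator_le.2 fun s hs g hg => scal el hK a1 b1 o1.symm o2 o3 (SK hs) (a2 hs) (b2 hs) (SE hs)
    (zpowers_le.2 xE hg)))

theorem zp3 {a u : G} (h : a ^ 3 = 1) (hu : u ∈ zpowers a) : u = 1 ∨ u = a ∨ u = a⁻¹ := by
  obtain ⟨n, rfl⟩ := mem_powers_iff_mem_zpowers.2 hu
  simp only
  rw [pow_eq_pow_mod n h]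
  have : n % 3 < 3 := Nat.mod_lt _ (by norm_num)
  generalize n % 3 = k at this
  interval_cases k
  · exact .inl (pow_zero a)
  · exact .inr (.inl (pow_one a))
  · exact .inr (.inr (eq_inv_of_mul_eq_one_left (by rw [← pow_succ, h])))

/-- the four lines -/
theorem four {P : Subgroup G} (hP : El 3 2 P P) {a b w : G} (ha : a ∈ P) (hb : b ∈ P) (hw : w ∈ P) (a1 : a ≠ 1) (b1 : b ≠ 1)
    (w1 : w ≠ 1) (ab : zpowers a ≠ zpowers b) (wa : zpowers w ≠ zpowers a) (wb : zpowers w ≠ zpowers b) :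
    zpowers w = zpowers (a * b) ∨ zpowers w = zpowers (a * b⁻¹) := by
  haveI : Fact (Nat.Prime 3) := ⟨Nat.prime_three⟩
  have A := el_zpowers ha (orderOf_eq_of_eab hP.eab ha a1)
  have B := el_zpowers hb (orderOf_eq_of_eab hP.eab hb b1)
  obtain ⟨u, hu, v, hv, rfl⟩ := (mem_sup_of_le_Nm (A.le.trans (le_Nm_of_ab hP.ab B.le))).1 ((hP.dp_of_ne A B ab).sup ▸ hw)
  have cm : Commute a b := congrArg Subtype.val (hP.ab.is_comm.comm ⟨_, ha⟩ ⟨_, hb⟩)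
  rcases zp3 (hP.eab.2 a ha) hu with rfl | rfl | rfl
  · exact (wb (B.eq_zpowers (by rwa [one_mul]) w1)).elim
  all_goals rcases zp3 (hP.eab.2 b hb) hv with rfl | rfl | rfl
  · exact (wa (by rw [mul_one])).elim
  · exact .inl rfl
  · exact .inr rfl
  · exact (wa (by rw [mul_one, zpowers_inv])).elim
  · exact .inr (by rw [← zpowers_inv, mul_inv_rev, inv_inv, cm.inv_right.eq])
  · exact .inl (by rw [← zpowers_inv, mul_inv_rev, inv_inv, inv_inv, cm.eq])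

theorem p3 : P3.{u} := fun {G} _ _ {V P T n r} hV hP PV f1 TV TP irr nP nV hr hn nn => by
  haveI : Fact (Nat.Prime 3) := ⟨Nat.prime_three⟩
  have L : ∀ {y : G}, y ∈ P → y ≠ 1 → El 3 1 (zpowers y) P := fun hy y1 => el_zpowers hy (orderOf_eq_of_eab hP.eab hy y1)
  have cg : ∀ {g y : G}, g ∈ Nm(P) → g ∈ Nm(V) → (⁅V, P⁆ ⊓ Cx(g * y * g⁻¹) = ⊥ ↔ ⁅V, P⁆ ⊓ Cx(y) = ⊥) := fun {g y} g1 g2 => by
    rw [← cj_eq_bot_iff (g := g) (X := ⁅V, P⁆ ⊓ Cx(y)), cj_inf, cj_commutator, cj_eq_of_mem_normalizer g1,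
      cj_eq_of_mem_normalizer g2, cj_Cx]
  have c1 : ∀ {g y : G}, y ≠ 1 → g * y * g⁻¹ ≠ 1 := fun h e => h (conj_eq_one_iff.1 e)
  have mv : ∀ {y : G}, y ∈ P → y ≠ 1 → ∃ t ∈ T, zpowers (t * y * t⁻¹) ≠ zpowers y := fun {y} hy y1 => by
    by_contra c
    push Not at c
    rcases irr _ (zpowers_le.2 hy) (fun t ht => mem_normalizer_iff_cj.2 (by rw [cj_zpowers, c t ht])) with e | e
    · exact y1 (zpowers_eq_bot.1 e)
    · have := (L hy y1).card
      rw [e, hP.card] at this; omega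
  obtain ⟨y, hy, y1, gy⟩ : ∃ y ∈ P, y ≠ 1 ∧ ⁅V, P⁆ ⊓ Cx(y) ≠ ⊥ := by
    by_contra c
    push Not at c
    have := le_of_cocyclic (W := ⊥) hP.ab (right_le_Nm_comm V P) (cop_of_isPGroup (by norm_num) hP.pgrp
      ((elemAb_isPGroup hV).to_le (comm_le_left PV))) fun B BP ⟨a, ha, e⟩ => by
        obtain ⟨b, hb, b1⟩ := exists_ne_one_of_ne_bot (A := B) fun e' => hP.not_cyc (n := 0) (by
          rw [e', bot_sup_eq] at e
          exact cyc_iff.2 ⟨a, le_antisymm (zpowers_le.2 ha) e⟩)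
        exact (inf_le_inf_left _ (Cz_le_Cx hb)).trans (c b (BP hb) b1).le
    have e := comm_eq_bot_right.1 (le_bot_iff.1 this)
    rw [inf_eq_left.2 e] at f1
    have := hP.card
    rw [f1, card_bot] at this; omega
  obtain ⟨a, ha, a1, ga, na⟩ : ∃ a ∈ P, a ≠ 1 ∧ ⁅V, P⁆ ⊓ Cx(a) ≠ ⊥ ∧ n ∉ Nm(zpowers a) := by
    by_contra c
    push Not at c
    have fx : ∀ {a : G}, a ∈ P → a ≠ 1 → ⁅V, P⁆ ⊓ Cx(a) ≠ ⊥ → n ∈ Cz(zpowers a) := fun {a} ha a1 ga => by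
      have e := c a ha a1 ga
      have b := relIndex_Cz_dvd_pred (p := 3) ((L ha a1).card.trans (pow_one 3)) (zpowers_le.2 e)
      have a' := Nm_le_Nm_Cz _ e
      rw [← card_qb (zpowers_le.2 a'), show zpowers n = zpowers ((⟨n, a'⟩ : Nm(Cz(zpowers a))) : G)
        from rfl, qb_zpowers, Nat.card_zpowers, orderOf_dvd_iff_pow_eq_one, ← map_pow, nmQuot_eq_one_iff] at b
      exact mem_of_coprime (a := 2) (Nat.coprime_two_left.2 hr) b (Cz_anti (zpowers_le.2 ha) hn)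
    obtain ⟨t, ht, e⟩ := mv hy y1
    have hy' := conj_mem_of_mem_normalizer (TP ht) hy
    apply nn
    rw [← (hP.dp_of_ne (L hy' (c1 y1)) (L hy y1) e).sup, Cz_sup]
    exact mi (fx hy' (c1 y1) (mt (cg (TP ht) (TV ht)).1 gy)) (fx hy y1 gy)
  obtain ⟨o1, o2, o3⟩ := orb hr (Cz_le_Nm _ (Cz_anti (zpowers_le.2 ha) hn)) na
  rw [cj_zpowers] at o1 o2 o3
  rw [cj_zpowers] at o2 o3
  have hb := conj_mem_of_mem_normalizer nP ha
  have hc := conj_mem_of_mem_normalizer nP hb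
  have gb := mt (cg nP nV).1 ga
  have gc := mt (cg nP nV).1 gb
  have bad : ∀ {z w : G}, ⁅V, P⁆ ⊓ Cx(z) = ⊥ → ⁅V, P⁆ ⊓ Cx(w) ≠ ⊥ → zpowers z ≠ zpowers w := fun h1 h2 e => by
    rw [← Cz_zpowers, ← e, Cz_zpowers] at h2; exact h2 h1
  intro z hz z1 bz
  obtain ⟨t, ht, e⟩ := mv hz z1
  have bz' := (cg (TP ht) (TV ht)).2 bz
  have e1 := four hP ha hb hc a1 (c1 a1) (c1 (c1 a1)) o1.symm o2 o3
  have e2 := four hP ha hb hz a1 (c1 a1) z1 o1.symm (bad bz ga) (bad bz gb)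
  have e3 := four hP ha hb (conj_mem_of_mem_normalizer (TP ht) hz) a1 (c1 a1) (c1 z1) o1.symm (bad bz' ga) (bad bz' gb)
  have e4 := bad bz gc
  have e5 := bad bz' gc
  rcases e1 with e1 | e1 <;> rcases e2 with e2 | e2 <;> rcases e3 with e3 | e3 <;>
    first | exact e (e3.trans e2.symm) | exact e4 (e2.trans e1.symm) | exact e5 (e3.trans e1.symm)

end CfH9.Zs
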