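import Cfsg.Agent.H9.Zs1

/-! No small offender on a module for `3²` on which all four lines have fixed points. -/

set_option autoImplicit false
set_option linter.unusedSectionVars false

namespace CfH9.Zs

open Cfsg Subgroup CfH9 CfH7 CfH8 CfH1 CfFT CfH1.Xi CfH1.Zs
open scoped commutatorElement
universe u
variable {G : Type u} [Group G] [Finite G]

theorem bd {V C Y1 Y2 Y3 Y4 : Subgroup G} (hV : CfFT.Ab V) (h1 : Y1 ≤ V) (h2 : Y2 ≤ V) (h3 : Y3 ≤ V) (h4 : Y4 ≤ V)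
    (h : ∀ a ∈ Y1, ∀ b ∈ Y2, ∀ c ∈ Y3, ∀ d ∈ Y4, a * (b * (c * d)) ∈ C → a = 1 ∧ b = 1 ∧ c = 1 ∧ d = 1) :
    Nat.card Y1 * (Nat.card Y2 * (Nat.card Y3 * Nat.card Y4)) ≤ C.relIndex V := by
  have cm : ∀ {u v : G}, u ∈ V → v ∈ V → Commute u v := fun hu hv => congrArg Subtype.val (hV.is_comm.comm ⟨_, hu⟩ ⟨_, hv⟩)
  have id : ∀ {u v s : G} (t : G), u ∈ V → v ∈ V → s ∈ V → (u * s)⁻¹ * (v * t) = u⁻¹ * v * (s⁻¹ * t) := fun {u v s} t hu hv hs => by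
    rw [← mul_assoc (u⁻¹ * v), (cm (mul_mem (inv_mem hu) hv) (inv_mem hs)).eq]; group
  rw [← Nat.card_prod, ← Nat.card_prod, ← Nat.card_prod]
  refine card_le_relIndex_mul (fun t => (t.1 : G) * (t.2.1 * (t.2.2.1 * t.2.2.2)))
    (fun t => mul_mem (h1 t.1.2) (mul_mem (h2 t.2.1.2) (mul_mem (h3 t.2.2.1.2) (h4 t.2.2.2.2)))) ?_
  rintro ⟨⟨a, ha⟩, ⟨b, hb⟩, ⟨c, hc⟩, d, hd⟩ ⟨⟨a', ha'⟩, ⟨b', hb'⟩, ⟨c', hc'⟩, d', hd'⟩ e
  simp only at e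
  rw [id _ (h1 ha) (h1 ha') (mul_mem (h2 hb) (mul_mem (h3 hc) (h4 hd))), id _ (h2 hb) (h2 hb') (mul_mem (h3 hc) (h4 hd)),
    id _ (h3 hc) (h3 hc') (h4 hd)] at e
  obtain ⟨e1, e2, e3, e4⟩ := h _ (mul_mem (inv_mem ha) ha') _ (mul_mem (inv_mem hb) hb') _ (mul_mem (inv_mem hc) hc') _
    (mul_mem (inv_mem hd) hd') e
  rw [inv_mul_eq_one] at e1 e2 e3 e4
  subst e1 e2 e3 e4; rfl

structure Ctx (W P : Subgroup G) : Prop where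
  w : EAb 2 W
  p : EAb 3 P
  n : P ≤ Nm(W)
  f : W ⊓ Cz(P) = ⊥
  nz : ∀ y ∈ P, y ≠ 1 → W ⊓ Cx(y) ≠ ⊥

variable {W P : Subgroup G}

theorem Ctx.cp (h : Ctx W P) {u v : G} (hu : u ∈ P) (hv : v ∈ P) : Commute u v :=
  congrArg Subtype.val (h.p.1.is_comm.comm ⟨_, hu⟩ ⟨_, hv⟩)

theorem Ctx.cw (h : Ctx W P) {u v : G} (hu : u ∈ W) (hv : v ∈ W) : Commute u v :=
  congrArg Subtype.val (h.w.1.is_comm.comm ⟨_, hu⟩ ⟨_, hv⟩)

theorem Ctx.cop (h : Ctx W P) {l : G} (hl : l ∈ P) {X : Subgroup G} (hX : X ≤ W) : Cop (zpowers l) X :=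
  haveI : Fact (Nat.Prime 3) := ⟨Nat.prime_three⟩
  cop_of_isPGroup (by norm_num) ((elemAb_isPGroup h.p).to_le (zpowers_le.2 hl)) ((elemAb_isPGroup h.w).to_le hX)

theorem Ctx.cj (h : Ctx W P) {g l m u : G} (hg : g ∈ Nm(W)) (e : g * l * g⁻¹ = m ∨ g * l * g⁻¹ = m⁻¹)
    (hu : u ∈ W ⊓ Cx(l)) : g * u * g⁻¹ ∈ W ⊓ Cx(m) := by
  refine mi (conj_mem_of_mem_normalizer hg hu.1) (mem_Cx_comm ?_)
  have : g * l * g⁻¹ ∈ Cx(g * u * g⁻¹) := by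
    rw [CfH9.mem_Cx, conj_mul, conj_mul, CfH9.mem_Cx.1 hu.2]
  rcases e with e | e
  · exact e ▸ this
  · exact inv_mem_iff.1 (e ▸ this)

theorem Ctx.nm (h : Ctx W P) {p l : G} (hp : p ∈ P) (hl : l ∈ P) : p ∈ Nm(W ⊓ Cx(l)) :=
  CfH9.mem_Nm_inf (h.n hp) (le_normalizer (CfH9.mem_Cx.2 (h.cp hp hl).eq))

/-- two elements generate -/
def Gn (P : Subgroup G) (l m : G) : Prop := ∀ K : Subgroup G, l ∈ K → m ∈ K → P ≤ K

theorem Ctx.fx (h : Ctx W P) {l m u : G} (g : Gn P l m) (h1 : u ∈ W ⊓ Cx(l)) (h2 : u ∈ Cx(m)) : u = 1 :=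
  mem_bot.1 (h.f ▸ mi h1.1 (mem_centralizer_of_conj_eq fun x hx => CfH9.mem_Cx'.1 (mem_Cx_comm
    (g Cx(u) (mem_Cx_comm h1.2) (mem_Cx_comm h2) hx))))

theorem Ctx.sep (h : Ctx W P) {l m u : G} (hl : l ∈ P) (hm : m ∈ P) (g : Gn P l m) (hu : u ∈ W ⊓ Cx(m)) :
    u ∈ ⁅W, zpowers l⁆ := by
  have D := (dp_comm_Cz (V := W ⊓ Cx(m)) (elemAb_of_le inf_le_left h.w).1 (zpowers_le.2 (h.nm hl hm)) (h.cop hl inf_le_left)).sup
  rw [Cz_zpowers, show W ⊓ Cx(m) ⊓ Cx(l) = ⊥ from eq_bot_iff.2 fun v hv => mem_bot.2 (h.fx g (mi hv.1.1 hv.2) hv.1.2),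
    bot_sup_eq] at D
  exact commutator_mono inf_le_left le_rfl (D ▸ hu)

theorem Ctx.step (h : Ctx W P) {l u v s t : G} (hl : l ∈ P) (hu : u ∈ W ⊓ Cx(l)) (hv : v ∈ W ⊓ Cx(l))
    (hs : s ∈ ⁅W, zpowers l⁆) (ht : t ∈ ⁅W, zpowers l⁆) (e : u * s = v * t) : u = v ∧ s = t := by
  have D := (dp_comm_Cz h.w.1 (zpowers_le.2 (h.n hl)) (h.cop hl le_rfl)).inf
  rw [Cz_zpowers] at D
  have e1 : v⁻¹ * u = t * s⁻¹ := by rw [inv_mul_eq_iff_eq_mul, ← mul_assoc, ← e, mul_inv_cancel_right]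
  have e2 : v⁻¹ * u = 1 := mem_bot.1 (D ▸ mi (mul_mem (inv_mem hv) hu) (e1 ▸ mul_mem ht (inv_mem hs)))
  rw [inv_mul_eq_one] at e2
  subst e2; exact ⟨rfl, mul_left_cancel e⟩

theorem Ctx.gn (h : Ctx W P) {x y : G} (hx : x ∈ P) (hy : y ∈ P) (g : Gn P x y) :
    Gn P y x ∧ Gn P y (x * y) ∧ Gn P y (x * y⁻¹) ∧ Gn P x (x * y) ∧ Gn P x (x * y⁻¹) ∧ Gn P (x * y) (x * y⁻¹) := by
  refine ⟨fun K a b => g K b a, fun K a b => g K ((mul_mem_cancel_right a).1 b) a,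
    fun K a b => g K ((mul_mem_cancel_right (inv_mem a)).1 b) a, fun K a b => g K a ((mul_mem_cancel_left a).1 b),
    fun K a b => g K a (inv_mem_iff.1 ((mul_mem_cancel_left a).1 b)), fun K a b => ?_⟩
  have e : x = (x * y * (x * y⁻¹))⁻¹ := by
    rw [mul_assoc x y, ← mul_assoc y, (h.cp hy hx).eq, mul_inv_cancel_right]
    exact eq_inv_of_mul_eq_one_left (by rw [← h.p.2 x hx, pow_three])
  have xK : x ∈ K := e ▸ inv_mem (mul_mem a b)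
  exact g K xK ((mul_mem_cancel_left xK).1 a)

theorem Ctx.uniq (h : Ctx W P) {x y : G} (hx : x ∈ P) (hy : y ∈ P) (g : Gn P x y) {a b c d a' b' c' d' : G}
    (ha : a ∈ W ⊓ Cx(y)) (hb : b ∈ W ⊓ Cx(x)) (hc : c ∈ W ⊓ Cx(x * y)) (hd : d ∈ W ⊓ Cx(x * y⁻¹))
    (ha' : a' ∈ W ⊓ Cx(y)) (hb' : b' ∈ W ⊓ Cx(x)) (hc' : c' ∈ W ⊓ Cx(x * y)) (hd' : d' ∈ W ⊓ Cx(x * y⁻¹))
    (e : a * (b * (c * d)) = a' * (b' * (c' * d'))) : a = a' ∧ b = b' ∧ c = c' ∧ d = d' := by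
  obtain ⟨g1, g2, g3, g4, g5, g6⟩ := h.gn hx hy g
  have m3 := mul_mem hx hy
  have m4 := mul_mem hx (inv_mem hy)
  obtain ⟨e1, e⟩ := h.step hy ha ha' (mul_mem (h.sep hy hx g1 hb) (mul_mem (h.sep hy m3 g2 hc) (h.sep hy m4 g3 hd)))
    (mul_mem (h.sep hy hx g1 hb') (mul_mem (h.sep hy m3 g2 hc') (h.sep hy m4 g3 hd'))) e
  obtain ⟨e2, e⟩ := h.step hx hb hb' (mul_mem (h.sep hx m3 g4 hc) (h.sep hx m4 g5 hd))
    (mul_mem (h.sep hx m3 g4 hc') (h.sep hx m4 g5 hd')) e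
  exact ⟨e1, e2, h.step m3 hc hc' (h.sep m3 m4 g6 hd) (h.sep m3 m4 g6 hd') e⟩

theorem Ctx.ne (h : Ctx W P) (hP : ¬ Cyc P) {l m : G} (hm : m ∈ P) (g : Gn P l m) : l ≠ 1 := fun e =>
  hP (cyc_iff.2 ⟨m, le_antisymm (zpowers_le.2 hm) (g _ (e ▸ one_mem _) (mem_zpowers m))⟩)

/-- an element inverting `m` does not centralize `C_W(l)` -/
theorem Ctx.pick (h : Ctx W P) {l m z : G} (hl : l ∈ P) (hm : m ∈ P) (l1 : l ≠ 1) (g : Gn P l m) (hz : z * m * z⁻¹ = m⁻¹) :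
    ∃ Y ≤ W ⊓ Cx(l), 2 ≤ Nat.card Y ∧ ∀ u ∈ Y, z * u * z⁻¹ = u → u = 1 := by
  obtain ⟨w, hw, e⟩ : ∃ w ∈ W ⊓ Cx(l), z * w * z⁻¹ ≠ w := by
    by_contra c
    push Not at c
    have a := mem_centralizer_of_conj_eq c
    have b := mul_mem (conj_mem_of_mem_normalizer (Nm_le_Nm_Cz _ (h.nm hm hl)) a) (inv_mem a)
    have e : m = (m * z * m⁻¹ * z⁻¹)⁻¹ := by
      rw [show m * z * m⁻¹ * z⁻¹ = m * (z * m * z⁻¹)⁻¹ by group, hz, inv_inv]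
      exact eq_inv_of_mul_eq_one_left (by rw [← h.p.2 m hm, pow_three])
    exact h.nz l hl l1 (eq_bot_iff.2 fun u hu => mem_bot.2 (h.fx g hu (mem_Cx_comm (Cz_le_Cx hu (e ▸ inv_mem b)))))
  have w1 : w ≠ 1 := fun e' => e (by rw [e', mul_one, mul_inv_cancel])
  have o := orderOf_eq_of_eab h.w hw.1 w1
  refine ⟨zpowers w, zpowers_le.2 hw, by rw [Nat.card_zpowers, o], fun u hu f => ?_⟩
  by_contra u1
  have : w ∈ Cx(z) := (zpowers_le.2 (mem_Cx_comm (CfH9.mem_Cx'.2 f)) : zpowers u ≤ _)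
    (((el_zpowers hw.1 o).eq_zpowers hu u1).symm ▸ mem_zpowers w)
  exact e (CfH9.mem_Cx'.1 (mem_Cx_comm this))

theorem Ctx.three (h : Ctx W P) {l m : G} (hl : l ∈ P) (hm : m ∈ P) (l1 : l ≠ 1) (g : Gn P l m) :
    3 ≤ Nat.card (W ⊓ Cx(l) : Subgroup G) := by
  obtain ⟨w, hw, w1⟩ := exists_ne_one_of_ne_bot (h.nz l hl l1)
  haveI := Fintype.ofFinite (W ⊓ Cx(l) : Subgroup G)
  rw [Nat.card_eq_fintype_card]
  refine Fintype.two_lt_card_iff.2 ⟨1, ⟨w, hw⟩, ⟨_, conj_mem_of_mem_normalizer (h.nm hm hl) hw⟩,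
    fun e => w1 (congrArg Subtype.val e).symm, fun e => w1 (conj_eq_one_iff.1 (congrArg Subtype.val e).symm),
    fun e => w1 (h.fx g hw (mem_Cx_comm (CfH9.mem_Cx'.2 (congrArg Subtype.val e).symm)))⟩

/-- the bound from an element inverting `P` -/
theorem Ctx.zb (h : Ctx W P) (hP : ¬ Cyc P) {x y z : G} (hx : x ∈ P) (hy : y ∈ P) (g : Gn P x y) (zW : z ∈ Nm(W))
    (hz : ∀ p ∈ P, z * p * z⁻¹ = p⁻¹) {C Y : Subgroup G} (hC : C ≤ Cx(z)) (hY : Y ≤ W ⊓ Cx(x * y)) (h0 : ∀ u ∈ Y, u ∈ C → u = 1) :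
    8 * Nat.card Y ≤ C.relIndex W := by
  obtain ⟨g1, g2, g3, g4, g5, g6⟩ := h.gn hx hy g
  have m4 := mul_mem hx (inv_mem hy)
  obtain ⟨Y1, a1, b1, c1⟩ := h.pick hy hx (h.ne hP hx g1) g1 (hz x hx)
  obtain ⟨Y2, a2, b2, c2⟩ := h.pick hx hy (h.ne hP hy g) g (hz y hy)
  obtain ⟨Y4, a4, b4, c4⟩ := h.pick m4 hy (h.ne hP hy fun K a b => g3 K b a) (fun K a b => g3 K b a) (hz y hy)
  refine le_trans ?_ (bd h.w.1 (a1.trans inf_le_left) (a2.trans inf_le_left) (hY.trans inf_le_left) (a4.trans inf_le_left)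
    fun a ha b hb c hc d hd e => ?_)
  · calc _ = 2 * (2 * (Nat.card Y * 2)) := by ring
      _ ≤ _ := by gcongr
  have f := CfH9.mem_Cx'.1 (mem_Cx_comm (hC e))
  rw [← conj_mul, ← conj_mul, ← conj_mul] at f
  obtain ⟨e1, e2, -, e4⟩ := h.uniq hx hy g (h.cj zW (.inr (hz y hy)) (a1 ha)) (h.cj zW (.inr (hz x hx)) (a2 hb))
    (h.cj zW (.inr (hz _ (mul_mem hx hy))) (hY hc)) (h.cj zW (.inr (hz _ m4)) (a4 hd)) (a1 ha) (a2 hb) (hY hc) (a4 hd) f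
  obtain rfl := c1 a ha e1
  obtain rfl := c2 b hb e2
  obtain rfl := c4 d hd e4
  exact ⟨rfl, rfl, h0 c hc (by simpa using e), rfl⟩

/-- the bound from a reflection -/
theorem Ctx.rb (h : Ctx W P) (hP : ¬ Cyc P) {x y a : G} (hx : x ∈ P) (hy : y ∈ P) (g : Gn P x y) (aW : a ∈ Nm(W))
    (ax : a * x * a⁻¹ = x) (ay : a * y * a⁻¹ = y⁻¹) :
    6 ≤ Cx(a).relIndex W ∧ ∀ u ∈ W ⊓ Cx(x * y), u ∈ Cx(a) → u = 1 := by
  obtain ⟨g1, g2, g3, g4, g5, g6⟩ := h.gn hx hy g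
  have m3 := mul_mem hx hy
  have sw : a * (x * y) * a⁻¹ = x * y⁻¹ := by rw [← conj_mul, ax, ay]
  have r2 : ∀ u ∈ W ⊓ Cx(x * y), u ∈ Cx(a) → u = 1 := fun u hu e =>
    h.fx g6 hu (CfH9.mem_Cx'.1 (mem_Cx_comm e) ▸ h.cj aW (.inl sw) hu).2
  obtain ⟨Y2, a2, b2, c2⟩ := h.pick hx hy (h.ne hP hy g) g ay
  have b3 := h.three m3 hy (h.ne hP hy fun K a b => g2 K b a) fun K a b => g2 K b a
  refine ⟨le_trans ?_ (bd (Y1 := ⊥) (Y4 := ⊥) (Y3 := W ⊓ Cx(x * y)) h.w.1 bot_le (a2.trans inf_le_left) inf_le_left bot_le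
    fun a' ha b hb c hc d hd e => ?_), r2⟩
  · rw [card_bot, one_mul, mul_one]
    exact Nat.mul_le_mul b2 b3
  obtain rfl := mem_bot.1 ha
  obtain rfl := mem_bot.1 hd
  have f := CfH9.mem_Cx'.1 (mem_Cx_comm e)
  rw [one_mul, mul_one, ← conj_mul] at f
  obtain ⟨-, e2, e3, -⟩ := h.uniq hx hy g (one_mem _) (h.cj aW (.inl ax) (a2 hb)) (one_mem _) (h.cj aW (.inl sw) hc)
    (one_mem _) (a2 hb) hc (one_mem _) (by simpa using f)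
  exact ⟨rfl, c2 b hb e2, e3.symm, rfl⟩

theorem inv_zp {z x u : G} (h : z * x * z⁻¹ = x⁻¹) (hu : u ∈ zpowers x) : z * u * z⁻¹ = u⁻¹ := by
  obtain ⟨i, rfl⟩ := hu
  simp only [← conj_zpow, h, inv_zpow]

theorem p2 : P2.{u} := fun {G} _ _ {V P A} hV hP hA PV AV AP f A1 nz hle => by
  classical
  haveI : Fact (Nat.Prime 3) := ⟨Nat.prime_three⟩
  have WV : ⁅V, P⁆ ≤ V := comm_le_left PV
  have h : Ctx ⁅V, P⁆ P := ⟨elemAb_of_le WV hV, hP.eab, right_le_Nm_comm V P, eq_bot_iff.2 fun u hu =>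
    (dp_comm_Cz hV.1 PV (cop_of_isPGroup (by norm_num) hP.pgrp (elemAb_isPGroup hV))).inf ▸ mi (mi (WV hu.1) hu.2) hu.1, nz⟩
  have nc := hP.not_cyc (n := 0)
  have AW : A ≤ Nm(⁅V, P⁆) := CfH7.le_normalizer_commutator AV AP
  have red : ∀ {C : Subgroup G}, Cz(A) ≤ C → C.relIndex ⁅V, P⁆ ≤ Nat.card A ^ 2 := fun hC =>
    (relIndex_le_of_le_left hC index_ne_zero_of_finite).trans ((relIndex_le_of_le_right WV index_ne_zero_of_finite).trans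
      (by rwa [inf_relIndex_left] at hle))
  have gn : ∀ {x y : G}, x ∈ P → y ∈ P → x ≠ 1 → y ≠ 1 → zpowers x ≠ zpowers y → zpowers x ⊔ zpowers y = P :=
    fun hx hy x1 y1 e => (hP.dp_of_ne (el_zpowers hx (orderOf_eq_of_eab hP.eab hx x1))
      (el_zpowers hy (orderOf_eq_of_eab hP.eab hy y1)) e).sup
  have inj : ∀ {x y : G}, Gn P x y → ∀ b b' : A, b.1 * x * b.1⁻¹ = b'.1 * x * b'.1⁻¹ → b.1 * y * b.1⁻¹ = b'.1 * y * b'.1⁻¹ →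
      b = b' := fun {x y} g b b' e1 e2 => by
    have k : ∀ {x : G}, b.1 * x * b.1⁻¹ = b'.1 * x * b'.1⁻¹ → x ∈ Cx(b'.1⁻¹ * b.1) := fun {x} e =>
      mem_Cx_comm (CfH9.mem_Cx'.2 (by rw [mul_inv_rev, inv_inv, show b'.1⁻¹ * b.1 * x * (b.1⁻¹ * b'.1) =
        b'.1⁻¹ * (b.1 * x * b.1⁻¹) * b'.1 by group, e]; group))
    have : b'.1⁻¹ * b.1 = 1 := mem_bot.1 (f ▸ mi (mul_mem (inv_mem b'.2) b.2) (mem_centralizer_of_conj_eq fun p hp =>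
      CfH9.mem_Cx'.1 (mem_Cx_comm (g _ (k e1) (k e2) hp))))
    exact Subtype.ext (inv_mul_eq_one.1 this).symm
  have c2 : Nat.card Prop = 2 := by rw [Nat.card_eq_fintype_card, Fintype.card_prop]
  by_cases hall : ∀ a ∈ A, a ≠ 1 → ∀ p ∈ P, a * p * a⁻¹ = p⁻¹
  · obtain ⟨y, hy, y1⟩ := exists_ne_one_of_ne_bot (A := P) fun e => nc (e ▸ cyc_iff.2 ⟨1, zpowers_one_eq_bot⟩)
    obtain ⟨x, hx, xy⟩ := SetLike.not_le_iff_exists.1 fun e : P ≤ zpowers y =>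
      nc (cyc_iff.2 ⟨y, le_antisymm (zpowers_le.2 hy) e⟩)
    have g : Gn P x y := fun K a b => gn hx hy (fun e => xy (e ▸ one_mem _)) y1 (fun e => xy (e ▸ mem_zpowers x)) ▸
      sup_le (zpowers_le.2 a) (zpowers_le.2 b)
    obtain ⟨z, hz, z1⟩ := exists_ne_one_of_ne_bot A1
    have g2 : Gn P (x * y) y := fun K a b => (h.gn hx hy g).2.1 K b a
    obtain ⟨Y, a, b, c⟩ := h.pick (mul_mem hx hy) hy (h.ne nc hy g2) g2 (hall z hz z1 y hy)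
    have b1 := (h.zb nc hx hy g (AW hz) (hall z hz z1) (Cz_le_Cx hz) a fun u hu e =>
      c u hu (CfH9.mem_Cx'.1 (mem_Cx_comm (Cz_le_Cx hz e)))).trans (red le_rfl)
    have b2 : Nat.card A ≤ 2 := c2 ▸ Nat.card_le_card_of_injective (fun b : A => b = 1) fun b b' e => by
      by_cases e1 : b = 1
      · rw [e1, (iff_of_eq e).1 e1]
      have k := hall b b.2 fun e => e1 (Subtype.ext e)
      have k' := hall b' b'.2 fun e' => e1 ((iff_of_eq e).2 (Subtype.ext e'))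
      exact inj g b b' (by rw [k x hx, k' x hx]) (by rw [k y hy, k' y hy])
    nlinarith
  push Not at hall
  obtain ⟨a, ha, a1, p, hp, ap⟩ := hall
  obtain ⟨q, hq, aq⟩ : ∃ q ∈ P, a * q * a⁻¹ ≠ q := by
    by_contra c
    push Not at c
    exact a1 (mem_bot.1 (f ▸ mi ha (mem_centralizer_of_conj_eq c)))
  have aa : ∀ w : G, a * (a * w * a⁻¹) * a⁻¹ = w := fun w => by
    rw [show a * (a * w * a⁻¹) * a⁻¹ = a ^ 2 * w * (a ^ 2)⁻¹ by rw [sq]; group, hA.2 a ha]; group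
  obtain ⟨x, hx, x1, ax⟩ : ∃ x ∈ P, x ≠ 1 ∧ a * x * a⁻¹ = x :=
    ⟨p * (a * p * a⁻¹), mul_mem hp (conj_mem_of_mem_normalizer (AP ha) hp), fun e => ap (eq_inv_of_mul_eq_one_right e), by
      rw [← conj_mul, aa, (h.cp hp (conj_mem_of_mem_normalizer (AP ha) hp)).eq]⟩
  obtain ⟨y, hy, y1, ay⟩ : ∃ y ∈ P, y ≠ 1 ∧ a * y * a⁻¹ = y⁻¹ :=
    ⟨q⁻¹ * (a * q * a⁻¹), mul_mem (inv_mem hq) (conj_mem_of_mem_normalizer (AP ha) hq), fun e => aq (inv_mul_eq_one.1 e).symm, by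
      rw [← conj_mul, aa]; group⟩
  have ni : ∀ u ∈ P, u⁻¹ = u → u = 1 := fun u hu e => by
    have := hP.eab.2 u hu
    rwa [pow_three, show u * u = 1 from mul_eq_one_iff_inv_eq.2 e, mul_one] at this
  have fx : ∀ u ∈ zpowers x, a * u * a⁻¹ = u := fun u hu =>
    CfH9.mem_Cx'.1 (mem_Cx_comm ((zpowers_le.2 (mem_Cx_comm (CfH9.mem_Cx'.2 ax)) : _ ≤ Cx(a)) hu))
  have D := gn hx hy x1 y1 fun e => y1 (ni y hy (ay.symm.trans (fx y (e ▸ mem_zpowers y))))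
  have g : Gn P x y := fun K a b => D ▸ sup_le (zpowers_le.2 a) (zpowers_le.2 b)
  have dec : ∀ w ∈ P, ∃ u ∈ zpowers x, ∃ v ∈ zpowers y, u * v = w := fun w hw =>
    (mem_sup_of_le_Nm ((zpowers_le.2 hx).trans (le_Nm_of_ab hP.ab (zpowers_le.2 hy)))).1 (D ▸ hw)
  have sw : ∀ b ∈ A, ∀ w : G, a * (b * w * b⁻¹) * a⁻¹ = b * (a * w * a⁻¹) * b⁻¹ := fun b hb w => by
    have : a * b = b * a := congrArg Subtype.val (hA.1.is_comm.comm ⟨_, ha⟩ ⟨_, hb⟩)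
    rw [show a * (b * w * b⁻¹) * a⁻¹ = a * b * w * (a * b)⁻¹ by group, this]; group
  have bx : ∀ b ∈ A, b * x * b⁻¹ = x ∨ b * x * b⁻¹ = x⁻¹ := fun b hb => by
    obtain ⟨u, hu, v, hv, e⟩ := dec _ (conj_mem_of_mem_normalizer (AP hb) hx)
    have k := sw b hb x
    rw [ax, ← e, ← conj_mul, fx u hu, inv_zp ay hv] at k
    rw [ni v (zpowers_le.2 hy hv) (mul_left_cancel k), mul_one] at e
    exact (zp3 (hP.eab.2 x hx) (e ▸ hu)).resolve_left fun e => x1 (conj_eq_one_iff.1 e)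
  have by' : ∀ b ∈ A, b * y * b⁻¹ = y ∨ b * y * b⁻¹ = y⁻¹ := fun b hb => by
    obtain ⟨u, hu, v, hv, e⟩ := dec _ (conj_mem_of_mem_normalizer (AP hb) hy)
    have k := sw b hb y
    rw [ay, ← conj_inv, ← e, ← conj_mul, fx u hu, inv_zp ay hv, (h.cp (zpowers_le.2 hx hu) (zpowers_le.2 hy hv)).eq,
      mul_inv_rev] at k
    rw [ni u (zpowers_le.2 hx hu) (mul_right_cancel k).symm, one_mul] at e
    exact (zp3 (hP.eab.2 y hy) (e ▸ hv)).resolve_left fun e => y1 (conj_eq_one_iff.1 e)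
  have same : ∀ {x : G}, (∀ b ∈ A, b * x * b⁻¹ = x ∨ b * x * b⁻¹ = x⁻¹) → ∀ b b' : A,
      (b.1 * x * b.1⁻¹ = x) = (b'.1 * x * b'.1⁻¹ = x) → b.1 * x * b.1⁻¹ = b'.1 * x * b'.1⁻¹ := fun {x} k b b' e => by
    by_cases e1 : b.1 * x * b.1⁻¹ = x
    · rw [e1, (iff_of_eq e).1 e1]
    · rw [(k b b.2).resolve_left e1, (k b' b'.2).resolve_left (mt (iff_of_eq e).2 e1)]
  obtain ⟨r1, r2⟩ := h.rb nc hx hy g (AW ha) ax ay
  by_cases hb : ∀ b ∈ A, b * x * b⁻¹ = x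
  · have b1 := r1.trans (red (Cz_le_Cx ha))
    have b2 : Nat.card A ≤ 2 := c2 ▸ Nat.card_le_card_of_injective (fun b : A => b.1 * y * b.1⁻¹ = y) fun b b' e =>
      inj g b b' (by rw [hb b b.2, hb b' b'.2]) (same by' b b' e)
    nlinarith
  push Not at hb
  obtain ⟨b, hb, bx'⟩ := hb
  have bx' := (bx b hb).resolve_left bx'
  obtain ⟨z, hz, zx, zy⟩ : ∃ z ∈ A, z * x * z⁻¹ = x⁻¹ ∧ z * y * z⁻¹ = y⁻¹ := by
    rcases by' b hb with e | e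
    · have k : ∀ w : G, b * a * w * (b * a)⁻¹ = b * (a * w * a⁻¹) * b⁻¹ := fun w => by group
      exact ⟨b * a, mul_mem hb ha, by rw [k, ax, bx'], by rw [k, ay, ← conj_inv, e]⟩
    · exact ⟨b, hb, bx', e⟩
  have zP : ∀ w ∈ P, z * w * z⁻¹ = w⁻¹ := fun w hw => by
    obtain ⟨u, hu, v, hv, rfl⟩ := dec w hw
    rw [← conj_mul, inv_zp zx hu, inv_zp zy hv, (h.cp (zpowers_le.2 hx hu) (zpowers_le.2 hy hv)).eq, mul_inv_rev]
  have g2 : Gn P (x * y) y := fun K a b => (h.gn hx hy g).2.1 K b a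
  have b0 := h.three (mul_mem hx hy) hy (h.ne nc hy g2) g2
  have b1 := (h.zb nc hx hy g (AW hz) zP (Cz_le_Cx hz) le_rfl fun u hu e => r2 u hu (Cz_le_Cx ha e)).trans (red le_rfl)
  have b2 : Nat.card A ≤ Nat.card (Prop × Prop) := Nat.card_le_card_of_injective
    (fun b : A => (b.1 * x * b.1⁻¹ = x, b.1 * y * b.1⁻¹ = y)) fun b b' e =>
      inj g b b' (same bx b b' (congrArg Prod.fst e)) (same by' b b' (congrArg Prod.snd e))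
  rw [Nat.card_prod, c2] at b2
  nlinarith

end CfH9.Zs
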